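import Cfsg.Prelude.Def_GeometricClasses

/-!
# The symplectic-type group of order 343 in dimension 7: frame, parity involution, blocks

Coordinates are indexed by `Fin 7` (arithmetic modulo 7). The parity involution `Zm` is minus the
permutation `i ↦ -i`; on odd vectors (dimension 3) it is the identity, on even vectors (dimension 4)
it is minus the identity.
-/

set_option autoImplicit false

namespace Cfsg.Agent.CSixSeven

open Cfsg Cfsg.Geo Matrix

variable {F : Type*} [Field F]

abbrev M7 (F : Type*) := Matrix (Fin 7) (Fin 7) F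

/-- A primitive seventh root of unity. -/
structure Omega (ω : F) : Prop where
  pow_seven : ω ^ 7 = 1
  ne_one : ω ≠ 1

/-- Powers of `ω` indexed modulo 7. -/
def w (ω : F) (i : Fin 7) : F := ω ^ (i : ℕ)

/-- The diagonal matrix with exponent function `f`. -/
def Dm (ω : F) (f : Fin 7 → Fin 7) : M7 F := Matrix.diagonal fun i => w ω (f i)

def Ym (ω : F) : M7 F := Dm ω fun i => i

/-- Quadratic phase. -/
def Gm (ω : F) : M7 F := Dm ω fun i => i * i

/-- The shift `e j ↦ e (j + 1)`. -/
def Xm : M7 F := Matrix.of fun i j => if i = j + 1 then 1 else 0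

/-- The dilation `e j ↦ e (2 * j)`. -/
def Sm : M7 F := Matrix.of fun i j => if i = 2 * j then 1 else 0

/-- The parity involution, of determinant one. -/
def Zm : M7 F := Matrix.of fun i j => if i = -j then -1 else 0

/-- The (unnormalised) Fourier matrix. -/
def Fm (ω : F) : M7 F := Matrix.of fun i j => w ω (i * j)

/-- `M` is the matrix of an element of `X`. -/
def InX (X : Subgroup (GL (Fin 7) F)) (M : M7 F) : Prop := ∃ h ∈ X, (h : M7 F) = M

/-- The elements of `X` commuting with a matrix. -/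
def cent (X : Subgroup (GL (Fin 7) F)) (M : M7 F) : Subgroup (GL (Fin 7) F) where
  carrier := {h | h ∈ X ∧ Commute (h : M7 F) M}
  one_mem' := ⟨one_mem _, by simp⟩
  mul_mem' {a b} ha hb := ⟨mul_mem ha.1 hb.1, by
    simpa using Commute.mul_left ha.2 hb.2⟩
  inv_mem' {a} ha := ⟨inv_mem ha.1, ha.2.units_inv_left⟩

theorem mem_cent {X : Subgroup (GL (Fin 7) F)} {M : M7 F} {h : GL (Fin 7) F} :
    h ∈ cent X M ↔ h ∈ X ∧ Commute (h : M7 F) M := Iff.rfl

/-- The overgroup contains the generators of the symplectic-type normaliser. -/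
structure Gen (ω : F) (X : Subgroup (GL (Fin 7) F)) : Prop where
  omega : Omega ω
  two_ne_zero : (2 : F) ≠ 0
  le_sl : X ≤ specialLinear (Fin 7) F
  y : InX X (Ym ω)
  x : InX X Xm
  g : InX X (Gm ω)
  s : InX X Sm
  z : InX X Zm
  f : ∃ c : F, InX X (c • Fm ω)

/-- A transvection matrix. -/
def IsTv (M : M7 F) : Prop :=
  ∃ u φ : Fin 7 → F, u ≠ 0 ∧ φ ≠ 0 ∧ dotProduct φ u = 0 ∧ M = 1 + Matrix.vecMulVec u φ

def NoTv (X : Subgroup (GL (Fin 7) F)) : Prop := ∀ h ∈ X, ¬ IsTv (h : M7 F)

/-- Only one nonzero entry in each column. -/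
def IsMono (M : M7 F) : Prop := ∀ i i' j, M i j ≠ 0 → M i' j ≠ 0 → i = i'

/-- Odd basis indices 1, 2, 4. -/
def kb : Fin 3 → Fin 7 := ![1, 2, 4]

/-- Even basis indices 0, 1, 2, 4. -/
def ka : Fin 4 → Fin 7 := ![0, 1, 2, 4]

/-- Action on the odd vectors `e k - e (-k)`. -/
def Bm (M : M7 F) : Matrix (Fin 3) (Fin 3) F :=
  Matrix.of fun r s => M (kb r) (kb s) - M (kb r) (-kb s)

/-- Action on the even vectors `e 0`, `e k + e (-k)`. -/
def Am (M : M7 F) : Matrix (Fin 4) (Fin 4) F :=
  Matrix.of fun r s => M (ka r) (ka s) + if ka s = 0 then 0 else M (ka r) (-ka s)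

/-- The centraliser of the parity involution in `X`. -/
abbrev Kz (X : Subgroup (GL (Fin 7) F)) : Subgroup (GL (Fin 7) F) := cent X Zm

/-- The subgroup of `Kz X` generated by its elements of odd order. -/
def K0 (X : Subgroup (GL (Fin 7) F)) : Subgroup (GL (Fin 7) F) :=
  Subgroup.closure {h | h ∈ Kz X ∧ Odd (orderOf h)}

theorem K0_le (X : Subgroup (GL (Fin 7) F)) : K0 X ≤ Kz X :=
  (Subgroup.closure_le _).2 fun _ h => h.1

/-- Membership in the standard group of order 343. -/
def InR (ω : F) (M : M7 F) : Prop :=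
  ∃ (c a : Fin 7) (b : ℕ), M = w ω c • (Dm ω (fun i => a * i) * Xm ^ b)

/-- `h` normalises the standard group of order 343. -/
def NormR (ω : F) (h : M7 F) : Prop :=
  ∃ M M' : M7 F, InR ω M ∧ InR ω M' ∧ h * Ym ω = M * h ∧ h * Xm = M' * h

/-- The involution `Zm` is the only involution of `K0 X`. -/
def UniqZero (X : Subgroup (GL (Fin 7) F)) : Prop :=
  ∀ h ∈ K0 X, orderOf h = 2 → (h : M7 F) = Zm

/-- The involution `Zm` is the only involution of its centraliser in `X`. -/
def Uniq (X : Subgroup (GL (Fin 7) F)) : Prop :=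
  ∀ h ∈ Kz X, orderOf h = 2 → (h : M7 F) = Zm

end Cfsg.Agent.CSixSeven
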