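import Cfsg.Agent.CSixSeven.Basic
import Mathlib.Data.Fintype.BigOperators

/-!
# Blocks of the centraliser of the parity involution
-/

set_option autoImplicit false

namespace Cfsg.Agent.CSixSeven

open Cfsg Cfsg.Geo Matrix

variable {F : Type*} [Field F] {ω : F}

namespace Omega

theorem ne_zero (hω : Omega ω) : ω ≠ 0 := by
  intro h; simpa [h] using hω.pow_seven

theorem order_eq (hω : Omega ω) : orderOf ω = 7 := by
  haveI : Fact (Nat.Prime 7) := ⟨by norm_num⟩
  exact orderOf_eq_prime hω.pow_seven hω.ne_one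

end Omega

theorem w_ne_zero (hω : Omega ω) (i : Fin 7) : w ω i ≠ 0 := pow_ne_zero _ hω.ne_zero

@[simp] theorem w_zero : w ω 0 = 1 := by simp [w]

theorem w_one (ω : F) : w ω 1 = ω := by simp [w]

theorem w_add (hω : Omega ω) (i j : Fin 7) : w ω (i + j) = w ω i * w ω j := by
  unfold w
  rw [← pow_add, Fin.val_add]
  exact (pow_eq_pow_mod _ hω.pow_seven).symm

theorem w_mul (hω : Omega ω) (i j : Fin 7) : w ω (i * j) = w ω i ^ (j : ℕ) := by
  unfold w
  rw [← pow_mul, Fin.val_mul]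
  exact (pow_eq_pow_mod _ hω.pow_seven).symm

theorem w_inj (hω : Omega ω) {i j : Fin 7} (h : w ω i = w ω j) : i = j := by
  refine Fin.ext (pow_injOn_Iio_orderOf (x := ω) ?_ ?_ h) <;>
    simp only [Set.mem_Iio, hω.order_eq] <;> omega

theorem w_eq_one (hω : Omega ω) {i : Fin 7} : w ω i = 1 ↔ i = 0 :=
  ⟨fun h => w_inj hω (by rw [h, w_zero]), fun h => by rw [h, w_zero]⟩

theorem w_ne_neg (hω : Omega ω) (h2 : (2 : F) ≠ 0) (i j : Fin 7) : w ω i + w ω j ≠ 0 := by
  intro h
  have h1 : w ω i = -w ω j := eq_neg_of_add_eq_zero_left h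
  have hp : ∀ k : Fin 7, w ω k ^ 7 = 1 := fun k => by
    unfold w; rw [← pow_mul, mul_comm, pow_mul, hω.pow_seven, one_pow]
  have h3 := congrArg (· ^ 7) h1
  simp only [hp, Odd.neg_pow (by decide : Odd 7)] at h3
  exact h2 (by linear_combination h3)

/-- Invariance under the parity permutation. -/
def Sym (M : M7 F) : Prop := ∀ i j, M (-i) (-j) = M i j

theorem sym_iff_commute {M : M7 F} : Sym M ↔ Commute M Zm := by
  have h1 : ∀ i j, (M * (Zm : M7 F) : M7 F) i j = -M i (-j) := by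
    intro i j
    rw [Matrix.mul_apply, Finset.sum_eq_single (-j)]
    · simp [Zm]
    · intro b _ hb; simp [Zm, hb]
    · simp
  have h2 : ∀ i j, ((Zm : M7 F) * M : M7 F) i j = -M (-i) j := by
    intro i j
    rw [Matrix.mul_apply, Finset.sum_eq_single (-i)]
    · simp [Zm]
    · intro b _ hb
      have : ¬ i = -b := fun e => hb (by rw [e, neg_neg])
      simp [Zm, this]
    · simp
  constructor
  · intro h
    refine Matrix.ext fun i j => ?_
    rw [h1, h2, ← h i (-j), neg_neg]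
  · intro h i j
    have := congrFun (congrFun h.eq i) (-j)
    rw [h1, h2, neg_neg, neg_inj] at this
    exact this.symm

theorem sym_of_mem {X : Subgroup (GL (Fin 7) F)} {h : GL (Fin 7) F} (hh : h ∈ Kz X) :
    Sym (h : M7 F) :=
  sym_iff_commute.2 hh.2

/-- Odd basis. -/
def Ub (F : Type*) [Field F] : Matrix (Fin 7) (Fin 3) F :=
  Matrix.of fun i s => (if i = kb s then 1 else 0) - (if i = -kb s then 1 else 0)

/-- Even basis. -/
def Ua (F : Type*) [Field F] : Matrix (Fin 7) (Fin 4) F :=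
  Matrix.of fun i s => if i = ka s ∨ i = -ka s then 1 else 0

/-- Reading off coordinates. -/
def Lb (F : Type*) [Field F] : Matrix (Fin 3) (Fin 7) F := Matrix.of fun r i => if i = kb r then 1 else 0

def La (F : Type*) [Field F] : Matrix (Fin 4) (Fin 7) F := Matrix.of fun r i => if i = ka r then 1 else 0

theorem lb_mul_ub : Lb F * Ub F = 1 := by
  refine Matrix.ext fun r s => ?_
  fin_cases r <;> fin_cases s <;>
    simp +decide [Lb, Ub, kb, Matrix.mul_apply, Fin.sum_univ_seven]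

theorem la_mul_ua : La F * Ua F = 1 := by
  refine Matrix.ext fun r s => ?_
  fin_cases r <;> fin_cases s <;>
    simp +decide [La, Ua, ka, Matrix.mul_apply, Fin.sum_univ_seven]

theorem mul_ub_apply (M : M7 F) (i : Fin 7) (s : Fin 3) :
    (M * Ub F : Matrix (Fin 7) (Fin 3) F) i s = M i (kb s) - M i (-kb s) := by
  simp [Matrix.mul_apply, Ub, mul_sub, Finset.sum_sub_distrib]

theorem mul_ua_apply (M : M7 F) (i : Fin 7) (s : Fin 4) :
    (M * Ua F : Matrix (Fin 7) (Fin 4) F) i s = M i (ka s) + if ka s = 0 then 0 else M i (-ka s) := by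
  fin_cases s <;> simp +decide [Matrix.mul_apply, Ua, ka, Fin.sum_univ_seven,
    show (-1 : Fin 7) = 6 from rfl, show (-2 : Fin 7) = 5 from rfl,
    show (-4 : Fin 7) = 3 from rfl] <;> ring

theorem Sym.mul_ub {M : M7 F} (hM : Sym M) : M * Ub F = Ub F * Bm M := by
  have h : ∀ i : Fin 7, i = 0 ∨ (∃ r, i = kb r) ∨ ∃ r, i = -kb r := by decide
  refine Matrix.ext fun i s => ?_
  rw [mul_ub_apply]
  rcases h i with rfl | ⟨r, rfl⟩ | ⟨r, rfl⟩
  · have h0 := hM 0 (kb s)
    rw [neg_zero] at h0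
    have h1 : ∀ r : Fin 3, (0 : Fin 7) ≠ kb r ∧ (0 : Fin 7) ≠ -kb r := by decide
    simp [Matrix.mul_apply, Ub, h0, (h1 _).1, (h1 _).2]
  · have h1 : ∀ r r' : Fin 3, kb r ≠ -kb r' ∧ (kb r = kb r' ↔ r = r') := by decide
    simp [Matrix.mul_apply, Ub, Bm, (h1 _ _).1, (h1 _ _).2]
  · have h1 : ∀ r r' : Fin 3, -kb r ≠ kb r' ∧ (-kb r = -kb r' ↔ r = r') := by decide
    have h2 := hM (kb r) (kb s)
    have h3 := hM (kb r) (-kb s)
    rw [neg_neg] at h3
    simp [Matrix.mul_apply, Ub, Bm, (h1 _ _).1, (h1 _ _).2, h2, h3]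

theorem Sym.mul_ua {M : M7 F} (hM : Sym M) : M * Ua F = Ua F * Am M := by
  have h : ∀ i : Fin 7, (∃ r, i = ka r) ∨ ∃ r, ka r ≠ 0 ∧ i = -ka r := by decide
  refine Matrix.ext fun i s => ?_
  rw [mul_ua_apply]
  rcases h i with ⟨r, rfl⟩ | ⟨r, hr, rfl⟩
  · have h1 : ∀ r r' : Fin 4, (ka r = ka r' ∨ ka r = -ka r') ↔ r = r' := by decide
    simp [Matrix.mul_apply, Ua, Am, h1]
  · have h1 : ∀ r r' : Fin 4, (-ka r = ka r' ∨ -ka r = -ka r') ↔ r = r' := by decide
    have h2 := hM (ka r) (ka s)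
    have h3 := hM (ka r) (-ka s)
    rw [neg_neg] at h3
    simp only [Matrix.mul_apply, Ua, Matrix.of_apply, h1, ite_mul, one_mul, zero_mul,
      Finset.sum_ite_eq, Finset.mem_univ, if_true, Am]
    by_cases hs : ka s = 0
    · simp only [hs, if_pos, add_zero] at h2 ⊢
      simpa using (hM (ka r) 0)
    · simp only [if_neg hs, h2, h3]
      rw [add_comm]

theorem bm_mul {M N : M7 F} (hM : Sym M) (hN : Sym N) : Bm (M * N) = Bm M * Bm N := by
  have hMN : Sym (M * N) :=
    sym_iff_commute.2 ((sym_iff_commute.1 hM).mul_left (sym_iff_commute.1 hN))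
  calc Bm (M * N) = Lb F * (Ub F * Bm (M * N)) := by
        rw [← Matrix.mul_assoc, lb_mul_ub, Matrix.one_mul]
    _ = Lb F * (M * N * Ub F) := by rw [hMN.mul_ub]
    _ = Lb F * (Ub F * (Bm M * Bm N)) := by
        rw [Matrix.mul_assoc M, hN.mul_ub, ← Matrix.mul_assoc M, hM.mul_ub, Matrix.mul_assoc]
    _ = Bm M * Bm N := by rw [← Matrix.mul_assoc, lb_mul_ub, Matrix.one_mul]

theorem am_mul {M N : M7 F} (hM : Sym M) (hN : Sym N) : Am (M * N) = Am M * Am N := by
  have hMN : Sym (M * N) :=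
    sym_iff_commute.2 ((sym_iff_commute.1 hM).mul_left (sym_iff_commute.1 hN))
  calc Am (M * N) = La F * (Ua F * Am (M * N)) := by
        rw [← Matrix.mul_assoc, la_mul_ua, Matrix.one_mul]
    _ = La F * (M * N * Ua F) := by rw [hMN.mul_ua]
    _ = La F * (Ua F * (Am M * Am N)) := by
        rw [Matrix.mul_assoc M, hN.mul_ua, ← Matrix.mul_assoc M, hM.mul_ua, Matrix.mul_assoc]
    _ = Am M * Am N := by rw [← Matrix.mul_assoc, la_mul_ua, Matrix.one_mul]

theorem bm_smul (c : F) (M : M7 F) : Bm (c • M) = c • Bm M := by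
  refine Matrix.ext fun r s => ?_
  simp [Bm, mul_sub]

theorem am_smul (c : F) (M : M7 F) : Am (c • M) = c • Am M := by
  refine Matrix.ext fun r s => ?_
  by_cases hs : ka s = 0 <;> simp [Am, hs, mul_add]

@[simp] theorem bm_one : Bm (1 : M7 F) = 1 := by
  refine Matrix.ext fun r s => ?_
  fin_cases r <;> fin_cases s <;> simp +decide [Bm, kb, Matrix.one_apply]

@[simp] theorem am_one : Am (1 : M7 F) = 1 := by
  refine Matrix.ext fun r s => ?_
  fin_cases r <;> fin_cases s <;> simp +decide [Am, ka, Matrix.one_apply]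

@[simp] theorem bm_zm : Bm (Zm : M7 F) = 1 := by
  refine Matrix.ext fun r s => ?_
  fin_cases r <;> fin_cases s <;> simp +decide [Bm, kb, Zm]

@[simp] theorem am_zm : Am (Zm : M7 F) = -1 := by
  refine Matrix.ext fun r s => ?_
  fin_cases r <;> fin_cases s <;> simp +decide [Am, ka, Zm]

/-- A symmetrical matrix is determined by its two blocks. -/
theorem ext_blocks (h2 : (2 : F) ≠ 0) {M N : M7 F} (hM : Sym M) (hN : Sym N)
    (hb : Bm M = Bm N) (ha : Am M = Am N) : M = N := by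
  have e1 : M * Ub F = N * Ub F := by rw [hM.mul_ub, hN.mul_ub, hb]
  have e2 : M * Ua F = N * Ua F := by rw [hM.mul_ua, hN.mul_ua, ha]
  have h : ∀ j : Fin 7, j = 0 ∨ (∃ r, j = kb r) ∨ ∃ r, j = -kb r := by decide
  have h3 : ∀ r : Fin 3, ∃ s : Fin 4, ka s = kb r ∧ ka s ≠ 0 := by decide
  refine Matrix.ext fun i j => ?_
  rcases h j with rfl | ⟨r, rfl⟩ | ⟨r, rfl⟩
  · have := congrFun (congrFun e2 i) 0
    rw [mul_ua_apply, mul_ua_apply] at this
    simpa [ka] using this
  all_goals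
    obtain ⟨s, hs, hs0⟩ := h3 r
    have f1 := congrFun (congrFun e1 i) r
    have f2 := congrFun (congrFun e2 i) s
    rw [mul_ub_apply, mul_ub_apply] at f1
    rw [mul_ua_apply, mul_ua_apply, if_neg hs0, if_neg hs0, hs] at f2
    refine mul_left_cancel₀ h2 ?_
  · linear_combination f1 + f2
  · linear_combination f2 - f1

theorem sym_one : Sym (1 : M7 F) := sym_iff_commute.2 (Commute.one_left _)

theorem sym_zm : Sym (Zm : M7 F) := sym_iff_commute.2 (Commute.refl _)

theorem sym_dm {f : Fin 7 → Fin 7} (hf : ∀ i, f (-i) = f i) : Sym (Dm ω f) := by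
  intro i j
  by_cases h : i = j
  · subst h; simp [Dm, hf]
  · simp [Dm, h]

theorem sym_gm : Sym (Gm ω) := sym_dm fun i => neg_mul_neg i i

theorem sym_sm : Sym (Sm : M7 F) := by
  intro i j
  have h : ∀ i j : Fin 7, (-i = 2 * -j) ↔ i = 2 * j := by decide
  simp [Sm, h]

theorem sym_fm : Sym (Fm ω) := by
  intro i j
  simp [Fm]

theorem bm_dm {f : Fin 7 → Fin 7} :
    Bm (Dm ω f) = Matrix.diagonal fun r => w ω (f (kb r)) := by
  refine Matrix.ext fun r s => ?_
  fin_cases r <;> fin_cases s <;> simp +decide [Bm, Dm, kb, Matrix.diagonal]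

theorem am_dm {f : Fin 7 → Fin 7} :
    Am (Dm ω f) = Matrix.diagonal fun r => w ω (f (ka r)) := by
  refine Matrix.ext fun r s => ?_
  fin_cases r <;> fin_cases s <;> simp +decide [Am, Dm, ka, Matrix.diagonal]

theorem bm_fm_ne_zero (hω : Omega ω) (r s : Fin 3) : Bm (Fm ω) r s ≠ 0 := by
  have h : ∀ r s : Fin 3, kb r * kb s ≠ kb r * -kb s := by decide
  simp only [Bm, Fm, Matrix.of_apply, ne_eq, sub_eq_zero]
  exact fun e => h r s (w_inj hω e)

theorem am_fm_ne_zero (hω : Omega ω) (h2 : (2 : F) ≠ 0) (r s : Fin 4) : Am (Fm ω) r s ≠ 0 := by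
  simp only [Am, Fm, Matrix.of_apply]
  split
  · simpa using w_ne_zero hω _
  · exact w_ne_neg hω h2 _ _

section Hom

variable (X : Subgroup (GL (Fin 7) F))

/-- The action on the odd vectors. -/
def bHom : Kz X →* GL (Fin 3) F :=
  MonoidHom.toHomUnits
    { toFun := fun h => Bm ((h : GL (Fin 7) F) : M7 F)
      map_one' := by simp
      map_mul' := fun a b => by
        simpa using bm_mul (sym_of_mem a.2) (sym_of_mem b.2) }

/-- The action on the even vectors. -/
def aHom : Kz X →* GL (Fin 4) F :=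
  MonoidHom.toHomUnits
    { toFun := fun h => Am ((h : GL (Fin 7) F) : M7 F)
      map_one' := by simp
      map_mul' := fun a b => by
        simpa using am_mul (sym_of_mem a.2) (sym_of_mem b.2) }

@[simp] theorem bHom_val (h : Kz X) :
    ((bHom X h : GL (Fin 3) F) : Matrix (Fin 3) (Fin 3) F) = Bm ((h : GL (Fin 7) F) : M7 F) := rfl

@[simp] theorem aHom_val (h : Kz X) :
    ((aHom X h : GL (Fin 4) F) : Matrix (Fin 4) (Fin 4) F) = Am ((h : GL (Fin 7) F) : M7 F) := rfl

end Hom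

section InX

variable {X : Subgroup (GL (Fin 7) F)}

theorem InX.mul {M N : M7 F} (hM : InX X M) (hN : InX X N) : InX X (M * N) := by
  obtain ⟨a, ha, rfl⟩ := hM
  obtain ⟨b, hb, rfl⟩ := hN
  exact ⟨a * b, mul_mem ha hb, rfl⟩

theorem InX.one : InX X (1 : M7 F) := ⟨1, one_mem _, rfl⟩

theorem InX.pow {M : M7 F} (hM : InX X M) (n : ℕ) : InX X (M ^ n) := by
  induction n with
  | zero => simpa using InX.one
  | succ n ih => rw [pow_succ]; exact ih.mul hM

theorem dm_mul (hω : Omega ω) (f g : Fin 7 → Fin 7) :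
    Dm ω f * Dm ω g = Dm ω (fun i => f i + g i) := by
  simp [Dm, w_add hω]

theorem dm_zero : Dm ω (fun _ => 0) = (1 : M7 F) := by simp [Dm]

theorem xm_mul_dm (f : Fin 7 → Fin 7) : (Xm : M7 F) * Dm ω f = Dm ω (fun i => f (i - 1)) * Xm := by
  refine Matrix.ext fun i j => ?_
  simp only [Dm, Matrix.mul_diagonal, Matrix.diagonal_mul, Xm, Matrix.of_apply]
  by_cases h : i = j + 1
  · subst h; simp
  · simp [h]

theorem xm_mul_ym (hω : Omega ω) : (Xm : M7 F) * Ym ω = w ω 6 • (Ym ω * Xm) := by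
  rw [Ym, xm_mul_dm, ← Matrix.smul_mul]
  congr 1
  refine Matrix.ext fun i j => ?_
  by_cases h : i = j
  · subst h
    simp [Dm, ← w_add hω, show ∀ i : Fin 7, 6 + i = i - 1 by decide]
  · simp [Dm, h]

/-- The scalar `ω` lies in every overgroup. -/
theorem Gen.scalar (hG : Gen ω X) (k : Fin 7) : InX X (w ω k • (1 : M7 F)) := by
  obtain ⟨a, ha, hav⟩ := hG.x
  obtain ⟨b, hb, hbv⟩ := hG.y
  have h6 : InX X (w ω 6 • (1 : M7 F)) := by
    refine ⟨a * b * (b * a)⁻¹, mul_mem (mul_mem ha hb) (inv_mem (mul_mem hb ha)), ?_⟩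
    have h : ((a * b : GL (Fin 7) F) : M7 F) = w ω 6 • ((b * a : GL (Fin 7) F) : M7 F) := by
      simp [hav, hbv, xm_mul_ym hG.omega]
    calc ((a * b * (b * a)⁻¹ : GL (Fin 7) F) : M7 F)
        = ((a * b : GL (Fin 7) F) : M7 F) * (((b * a)⁻¹ : GL (Fin 7) F) : M7 F) := rfl
      _ = w ω 6 • (1 : M7 F) := by rw [h, Matrix.smul_mul, Units.mul_inv]
  have h := h6.pow ((-k : Fin 7) : ℕ)
  rwa [smul_pow, one_pow, ← w_mul hG.omega, show ∀ k : Fin 7, (6 : Fin 7) * -k = k by decide] at h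

theorem fm_mul_fm (hω : Omega ω) : Fm ω * Fm ω = -(7 : F) • (Zm : M7 F) := by
  refine Matrix.ext fun i j => ?_
  have hsum : ∑ l : Fin 7, Fm ω i l * Fm ω l j = ∑ l : Fin 7, w ω (i + j) ^ (l : ℕ) :=
    Finset.sum_congr rfl fun l _ => by
      simp only [Fm, Matrix.of_apply]
      rw [← w_add hω, ← w_mul hω]
      congr 1
      exact (show ∀ i j l : Fin 7, i * l + l * j = (i + j) * l by decide) i j l
  rw [Matrix.mul_apply, hsum]
  by_cases h : i = -j
  · subst h
    simp [Zm]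
  · have h0 : i + j ≠ 0 := fun e => h ((show ∀ i j : Fin 7, i + j = 0 → i = -j by decide) i j e)
    have hne : w ω (i + j) ≠ 1 := fun e => h0 ((w_eq_one hω).1 e)
    have h7 : w ω (i + j) ^ 7 = 1 := by
      unfold w; rw [← pow_mul, mul_comm, pow_mul, hω.pow_seven, one_pow]
    simp only [Zm, Matrix.smul_apply, Matrix.of_apply, if_neg h, smul_zero]
    rw [Fin.sum_univ_eq_sum_range (fun l => w ω (i + j) ^ l) 7, geom_sum_eq hne, h7, sub_self,
      zero_div]

end InX

end Cfsg.Agent.CSixSeven
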