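import Cfsg.Agent.CSixSeven.Blocks
import Mathlib

/-!
The centraliser of the quadratic phase in `Kz X`, and `Kz X = K0 X`.
-/

set_option autoImplicit false
set_option linter.unusedSectionVars false

namespace Cfsg.Agent.CSixSeven

open Cfsg Cfsg.Geo Matrix
open scoped Fin.CommRing

variable {F : Type*} [Field F] {ω : F} {X : Subgroup (GL (Fin 7) F)}

namespace Central

lemma det_one (hG : Gen ω X) {h : GL (Fin 7) F} (hh : h ∈ X) : (h : M7 F).det = 1 := by
  simpa using congrArg Units.val (MonoidHom.mem_ker.1 (hG.le_sl hh))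

lemma inX_det (hG : Gen ω X) {M : M7 F} (h : InX X M) : M.det = 1 := by
  obtain ⟨a, ha, rfl⟩ := h; exact det_one hG ha

lemma inX_conj {N M M' : M7 F} (hN : InX X N) (hM : InX X M) (e : N * M = M' * N) :
    InX X M' := by
  obtain ⟨n, hn, rfl⟩ := hN
  obtain ⟨m, hm, rfl⟩ := hM
  refine ⟨n * m * n⁻¹, mul_mem (mul_mem hn hm) (inv_mem hn), ?_⟩
  rw [Units.val_mul, Units.val_mul, e, mul_assoc, ← Units.val_mul, mul_inv_cancel, Units.val_one,
    mul_one]

/-- The diagonal functions of the group. -/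
def DX (X : Subgroup (GL (Fin 7) F)) (f : Fin 7 → F) : Prop := InX X (Matrix.diagonal f)

lemma dx_mul {f g : Fin 7 → F} (hf : DX X f) (hg : DX X g) : DX X fun i => f i * g i := by
  have h := hf.mul hg
  rwa [Matrix.diagonal_mul_diagonal] at h

lemma dx_inv {f : Fin 7 → F} (hf : DX X f) : DX X fun i => (f i)⁻¹ := by
  obtain ⟨a, ha, he⟩ := hf
  refine ⟨a⁻¹, inv_mem ha, ?_⟩
  have hd : IsUnit (Matrix.diagonal f) := he ▸ a.isUnit
  have hne : ∀ i, f i ≠ 0 := fun i h0 => by
    have := (Matrix.isUnit_iff_isUnit_det _).1 hd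
    rw [Matrix.det_diagonal, Finset.prod_eq_zero (Finset.mem_univ i) h0] at this
    exact not_isUnit_zero this
  refine Units.inv_eq_of_mul_eq_one_left ?_
  rw [he, Matrix.diagonal_mul_diagonal, ← Matrix.diagonal_one]
  congr 1
  funext i
  exact inv_mul_cancel₀ (hne i)

lemma dx_pow {f : Fin 7 → F} (hf : DX X f) (n : ℕ) : DX X fun i => f i ^ n := by
  have h := hf.pow n
  rwa [Matrix.diagonal_pow] at h

lemma dx_prod {ι : Type*} (s : Finset ι) {f : ι → Fin 7 → F} (hf : ∀ a ∈ s, DX X (f a)) :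
    DX X fun i => ∏ a ∈ s, f a i := by
  classical
  induction s using Finset.induction_on with
  | empty => simpa [DX] using InX.one (X := X)
  | insert a s ha ih =>
    simp only [Finset.prod_insert ha]
    exact dx_mul (hf a (Finset.mem_insert_self a s)) (ih fun b hb => hf b (Finset.mem_insert_of_mem hb))

lemma dx_shift (hG : Gen ω X) {f : Fin 7 → F} (hf : DX X f) : DX X fun i => f (i - 1) := by
  refine inX_conj hG.x hf ?_
  ext i j
  simp only [Matrix.mul_diagonal, Matrix.diagonal_mul, Xm, Matrix.of_apply]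
  by_cases h : i = j + 1
  · subst h; simp
  · simp [h]

lemma dx_shift_all (hG : Gen ω X) {f : Fin 7 → F} (hf : DX X f) (t : Fin 7) :
    DX X fun i => f (i + t) := by
  have key : ∀ n : ℕ, DX X fun i => f (i - (n : Fin 7)) := by
    intro n
    induction n with
    | zero => simpa using hf
    | succ n ih =>
      have h := dx_shift hG ih
      refine cast (congrArg (DX X) (funext fun i => ?_)) h
      rw [Nat.cast_succ, sub_sub, add_comm (1 : Fin 7)]
  have h := key ((-t : Fin 7) : ℕ)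
  refine cast (congrArg (DX X) (funext fun i => ?_)) h
  rw [Fin.cast_val_eq_self, sub_neg_eq_add]

lemma dx_two (hG : Gen ω X) {f : Fin 7 → F} (hf : DX X f) : DX X fun i => f (4 * i) := by
  refine inX_conj hG.s hf ?_
  ext i j
  simp only [Matrix.mul_diagonal, Matrix.diagonal_mul, Sm, Matrix.of_apply]
  by_cases h : i = 2 * j
  · subst h; rw [(by decide : ∀ j : Fin 7, 4 * (2 * j) = j) j]; simp
  · simp [h]

lemma dx_neg (hG : Gen ω X) {f : Fin 7 → F} (hf : DX X f) : DX X fun i => f (-i) := by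
  refine inX_conj hG.z hf ?_
  ext i j
  simp only [Matrix.mul_diagonal, Matrix.diagonal_mul, Zm, Matrix.of_apply]
  by_cases h : i = -j
  · subst h; simp
  · simp [h]

/-- Diagonal exponent functions. -/
def LX (ω : F) (X : Subgroup (GL (Fin 7) F)) (φ : Fin 7 → Fin 7) : Prop :=
  DX X fun i => w ω (φ i)

lemma w_nat_mul (hω : Omega ω) (n : ℕ) (i : Fin 7) : w ω ((n : Fin 7) * i) = w ω i ^ n := by
  induction n with
  | zero => simp
  | succ n ih => rw [Nat.cast_succ, add_mul, one_mul, w_add hω, ih, pow_succ]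

lemma lx_add (hω : Omega ω) {φ ψ : Fin 7 → Fin 7} (h : LX ω X φ) (h' : LX ω X ψ) :
    LX ω X fun i => φ i + ψ i :=
  cast (congrArg (DX X) (funext fun i => (w_add hω _ _).symm)) (dx_mul h h')

lemma lx_mul (hω : Omega ω) {φ : Fin 7 → Fin 7} (h : LX ω X φ) (k : Fin 7) :
    LX ω X fun i => k * φ i := by
  refine cast (congrArg (DX X) (funext fun i => ?_)) (dx_pow h (k : ℕ))
  conv_rhs => rw [← Fin.cast_val_eq_self k]
  exact (w_nat_mul hω _ _).symm

lemma lx_sum (hω : Omega ω) {ι : Type*} (s : Finset ι) {φ : ι → Fin 7 → Fin 7}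
    (h : ∀ a ∈ s, LX ω X (φ a)) : LX ω X fun i => ∑ a ∈ s, φ a i := by
  classical
  induction s using Finset.induction_on with
  | empty => simpa [LX, DX] using InX.one (X := X)
  | insert a s ha ih =>
    simp only [Finset.sum_insert ha]
    exact lx_add hω (h a (Finset.mem_insert_self a s)) (ih fun b hb => h b (Finset.mem_insert_of_mem hb))

/-- The exponent of a symmetrical homology. -/
def tgt : Fin 7 → Fin 7 := fun i => if i = 0 then 5 else if i = 1 ∨ i = 6 then 1 else 0

lemma tgt_symm : ∀ i, tgt (-i) = tgt i := by decide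

lemma tgt_kb : ∀ r : Fin 3, tgt (kb r) = if r = 0 then 1 else 0 := by decide

/-- The coefficients writing `tgt` through shifts of `δ a - δ (-a)`. -/
def cf (a x : Fin 7) : Fin 7 :=
  -(∑ l ∈ Finset.range ((x * (2 * a) ^ 5 : Fin 7) : ℕ), tgt ((l : Fin 7) * (2 * a) + a))

lemma cf_spec : ∀ r : Fin 3, ∀ i : Fin 7, ∑ x : Fin 7, cf (kb r) x *
    ((if i + -x = kb r then 1 else 0) + (if i + -x = -kb r then 6 else 0)) = tgt i := by decide +kernel

lemma plane_spec : ∀ b : Fin 3 → Bool, (∀ r, b r = b 0) ∨ ∃ r : Fin 3, ∃ k l : Fin 7, ∀ t : Fin 3,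
    (k * (if b t then -2 * kb t else 0) + l * kb t = if t = r then 1 else 0) := by decide +kernel

lemma sym_diagonal {f : Fin 7 → F} (hf : ∀ i, f (-i) = f i) : Sym (Matrix.diagonal f) := by
  intro i j
  by_cases h : i = j
  · subst h; simp [hf]
  · simp [h]

lemma bm_diagonal (f : Fin 7 → F) :
    Bm (Matrix.diagonal f) = Matrix.diagonal fun r => f (kb r) := by
  refine Matrix.ext fun r s => ?_
  fin_cases r <;> fin_cases s <;> simp +decide [Bm, kb, Matrix.diagonal]

lemma mem_Kz_of_dx {f : Fin 7 → F} (hf : ∀ i, f (-i) = f i) (h : DX X f) :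
    ∃ k ∈ Kz X, (k : M7 F) = Matrix.diagonal f := by
  obtain ⟨k, hk, he⟩ := h
  exact ⟨k, ⟨hk, by rw [he]; exact sym_iff_commute.1 (sym_diagonal hf)⟩, he⟩

/-- No diagonal homology. -/
abbrev HHom (X : Subgroup (GL (Fin 7) F)) : Prop :=
  ∀ {h : GL (Fin 7) F}, h ∈ Kz X → ∀ {c : F},
    Bm (h : M7 F) = Matrix.diagonal ![c, 1, 1] → c ^ 2 ≠ 1 → False

lemma no_tgt (hω : Omega ω) (hhom : HHom X) (h : LX ω X tgt) : False := by
  obtain ⟨k, hk, he⟩ := mem_Kz_of_dx (fun i => by rw [tgt_symm]) h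
  refine hhom hk (c := w ω 1) ?_ ?_
  · rw [he, bm_diagonal]
    congr 1
    funext r
    rw [tgt_kb]
    fin_cases r <;> simp
  · rw [pow_two, ← w_add hω]
    exact fun e => absurd ((w_eq_one hω).1 e) (by decide)

/-- A non-constant swap pattern gives a homology. -/
lemma no_mixed (hG : Gen ω X) (hhom : HHom X) {v : Fin 7 → Fin 7} (hv : LX ω X v)
    (hodd : ∀ i, v (-i) = -v i) {b : Fin 3 → Bool}
    (hb : ∀ t, v (kb t) = if b t then -2 * kb t else 0) (hne : ¬ ∀ r, b r = b 0) : False := by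
  obtain ⟨r, k, l, hkl⟩ := (plane_spec b).resolve_left hne
  have hid : LX ω X fun i => i := hG.y
  have h1 := lx_add hG.omega (lx_mul hG.omega hv k) (lx_mul hG.omega hid l)
  have hd : ∀ i, k * v i + l * i =
      (if i = kb r then 1 else 0) + (if i = -kb r then 6 else 0) := by
    have hc : ∀ i : Fin 7, i = 0 ∨ ∃ t, i = kb t ∨ i = -kb t := by decide
    have hv0 : v 0 = 0 := (by decide : ∀ x : Fin 7, x = -x → x = 0) _ (by simpa using hodd 0)
    have hkb : ∀ t r : Fin 3, (0 : Fin 7) ≠ kb r ∧ (0 : Fin 7) ≠ -kb r ∧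
        (kb t = kb r ↔ t = r) ∧ kb t ≠ -kb r ∧ -kb t ≠ kb r := by decide
    intro i
    rcases hc i with rfl | ⟨t, rfl | rfl⟩
    · simp [hv0, (hkb r r).1, (hkb r r).2.1]
    · simp only [hb, hkl, (hkb t r).2.2.1, if_neg (hkb t r).2.2.2.1, add_zero]
    · rw [hodd, hb, mul_neg, mul_neg, ← neg_add, hkl, if_neg (hkb t r).2.2.2.2, zero_add]
      simp only [neg_inj, (hkb t r).2.2.1]
      split_ifs <;> rfl
  have h2 : LX ω X fun i => (if i = kb r then 1 else 0) + (if i = -kb r then 6 else 0) :=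
    cast (congrArg (LX ω X) (funext hd)) h1
  have h3 : ∀ x : Fin 7, LX ω X fun i => cf (kb r) x *
      ((if i + -x = kb r then 1 else 0) + (if i + -x = -kb r then 6 else 0)) := fun x =>
    lx_mul hG.omega (φ := fun i => (if i + -x = kb r then 1 else 0) +
      (if i + -x = -kb r then 6 else 0)) (dx_shift_all hG h2 (-x)) _
  refine no_tgt hG.omega hhom ?_
  exact cast (congrArg (LX ω X) (funext (cf_spec r))) (lx_sum hG.omega Finset.univ fun x _ => h3 x)

/-- The six dilations. -/
def dil : Finset (Fin 7) := {1, 2, 3, 4, 5, 6}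

lemma dx_dil (hG : Gen ω X) {f : Fin 7 → F} (hf : DX X f) :
    ∀ l ∈ dil, DX X fun i => f (l * i) := by
  have h4 := dx_two hG hf
  have h2 := dx_two hG h4
  have h6 := dx_neg hG hf
  have h3 := dx_neg hG h4
  have h5 := dx_neg hG h2
  have e : ∀ i : Fin 7, 1 * i = i ∧ 4 * (4 * i) = 2 * i ∧ -i = 6 * i ∧ 4 * -i = 3 * i ∧
      4 * (4 * -i) = 5 * i := by decide
  intro l hl
  fin_cases hl
  · exact cast (congrArg (DX X) (funext fun i => by rw [(e i).1])) hf
  · exact cast (congrArg (DX X) (funext fun i => by rw [(e i).2.1])) h2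
  · exact cast (congrArg (DX X) (funext fun i => by rw [(e i).2.2.2.1])) h3
  · exact h4
  · exact cast (congrArg (DX X) (funext fun i => by rw [(e i).2.2.2.2])) h5
  · exact cast (congrArg (DX X) (funext fun i => by rw [(e i).2.2.1])) h6

lemma dil_image : ∀ b i : Fin 7, i ≠ 0 →
    dil.image (fun l => l * i + b) = Finset.univ.erase b := by decide +kernel

lemma dil_inj : ∀ b i : Fin 7, i ≠ 0 → ∀ x ∈ dil, ∀ y ∈ dil, x * i + b = y * i + b → x = y := by
  decide +kernel

lemma two_point (hG : Gen ω X) {f : Fin 7 → F} (hf : DX X f) (b t : Fin 7) (ht : t ≠ 0) :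
    DX X fun i => if i = 0 then f b ^ 7 else if i = t then (f b ^ 7)⁻¹ else 1 := by
  have hprod : ∏ i, f i = 1 := by rw [← Matrix.det_diagonal]; exact inX_det hG hf
  have hb0 : f b ≠ 0 := fun h0 => by
    rw [Finset.prod_eq_zero (Finset.mem_univ b) h0] at hprod; exact zero_ne_one hprod
  have hH0 := dx_prod dil (fun l hl => dx_dil hG (dx_shift_all hG hf b) l hl)
  have hH : DX X fun i => if i = 0 then f b ^ 6 else (f b)⁻¹ := by
    refine cast (congrArg (DX X) (funext fun i => ?_)) hH0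
    by_cases hi : i = 0
    · subst hi
      simp [dil]
    · rw [if_neg hi, ← Finset.prod_image (f := f) (g := fun l => l * i + b)
        (fun x hx y hy e => dil_inj b i hi x hx y hy e), dil_image b i hi]
      refine eq_inv_of_mul_eq_one_left ?_
      rw [Finset.prod_erase_mul _ _ (Finset.mem_univ b), hprod]
  refine cast (congrArg (DX X) (funext fun i => ?_))
    (dx_mul hH (dx_inv (dx_shift_all hG hH (-t))))
  have hit : i + -t = 0 ↔ i = t := by rw [← sub_eq_add_neg, sub_eq_zero]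
  simp only [hit]
  by_cases hi : i = 0
  · subst hi
    simp only [if_pos, if_neg (Ne.symm ht)]
    rw [inv_inv]; ring
  · by_cases hi' : i = t
    · subst hi'
      rw [if_neg hi, if_pos rfl, if_neg hi, if_pos rfl, ← mul_inv, ← pow_succ']
    · rw [if_neg hi, if_neg hi', if_neg hi, if_neg hi', inv_inv, inv_mul_cancel₀ hb0]

lemma quad_spec : ∀ a b c : Fin 7, ∃ k l m : Fin 7, k + l * 0 + m * 0 = a ∧ k + l * 1 + m * 1 = b ∧
    k + l * 4 + m * 2 = c ∧ k + l * 2 + m * 4 = -(4 * a + b + c) := by decide +kernel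

lemma tgt_poly : ∀ i : Fin 7, tgt i = 5 + 5 * (i * i) + 5 * (i * i * (i * i)) := by decide

lemma quartic_mul : ∀ m x : Fin 7, m ≠ 0 → 5 * m ^ 5 * (m * x) = 5 * x := by decide

lemma exp_eq_of_sum (hω : Omega ω) {φ : Fin 7 → Fin 7}
    (h : ∏ i, w ω (φ i) = 1) : ∑ i, φ i = 0 := by
  apply (w_eq_one hω).1
  simp only [Fin.sum_univ_seven, w_add hω]
  simpa only [Fin.prod_univ_seven] using h

lemma exists_w' (hω : Omega ω) {k : F} (hk : k ^ 7 = 1) : ∃ a : Fin 7, k = w ω a := by
  have hp : IsPrimitiveRoot ω 7 := by rw [← hω.order_eq]; exact IsPrimitiveRoot.orderOf ω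
  obtain ⟨i, hi, rfl⟩ := hp.eq_pow_of_pow_eq_one hk
  exact ⟨⟨i, hi⟩, rfl⟩

variable (hG : Gen ω X)
include hG

lemma s_pow_three : (Sm : M7 F) ^ 3 = 1 := by
  rw [pow_succ, pow_two]
  ext i j
  rw [Matrix.mul_apply, Finset.sum_eq_single (2 * j)]
  · rw [Matrix.mul_apply, Finset.sum_eq_single (2 * (2 * j))]
    · simp only [Sm, Matrix.of_apply, Matrix.one_apply, if_true, mul_one,
        (by decide : ∀ j : Fin 7, 2 * (2 * (2 * j)) = j) j]
    · intro k _ hk; simp [Sm, hk]
    · simp
  · intro k _ hk; simp [Sm, hk]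
  · simp

lemma odd_mem_K0 {h : GL (Fin 7) F} (hK : h ∈ Kz X) {n : ℕ} (hn : Odd n) (hp : h ^ n = 1) :
    h ∈ K0 X :=
  Subgroup.subset_closure ⟨hK, hn.of_dvd_nat (orderOf_dvd_of_pow_eq_one hp)⟩

lemma conj_odd_mem {h k : GL (Fin 7) F} (hk : k ∈ Kz X) (hK : h ∈ Kz X) {n : ℕ} (hn : Odd n)
    (hp : h ^ n = 1) : k * h * k⁻¹ ∈ K0 X :=
  odd_mem_K0 hG (mul_mem (mul_mem hk hK) (inv_mem hk)) hn (by
    rw [conj_pow, hp, mul_one, mul_inv_cancel])

lemma s_mem : ∃ s ∈ Kz X, (s : M7 F) = Sm ∧ s ^ 3 = 1 := by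
  obtain ⟨s, hs, he⟩ := hG.s
  refine ⟨s, ⟨hs, by rw [he]; exact sym_iff_commute.1 sym_sm⟩, he, Units.ext ?_⟩
  rw [Units.val_pow_eq_pow_val, he, s_pow_three hG, Units.val_one]

lemma root_seven (hu : UniqZero X) (hhom : HHom X) {f : Fin 7 → F} (hf : DX X f) (b : Fin 7) :
    f b ^ 7 = 1 := by
  set C := f b ^ 7 with hC
  have h1 := two_point hG hf b 1 (by decide)
  have h6 := two_point hG hf b 6 (by decide)
  have hC0 : C ≠ 0 := fun h0 => by
    have := inX_det hG h1
    rw [Matrix.det_diagonal, Finset.prod_eq_zero (Finset.mem_univ 0) (by simp [← hC, h0])] at this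
    exact zero_ne_one this
  have hr : DX X fun i => if i = 0 then (C * C)⁻¹ else if i = 1 ∨ i = 6 then C else 1 := by
    refine cast (congrArg (DX X) (funext fun i => ?_)) (dx_inv (dx_mul h1 h6))
    fin_cases i <;> simp [hC, mul_comm]
  have heven : ∀ i : Fin 7, (fun i : Fin 7 => if i = 0 then (C * C)⁻¹ else if i = 1 ∨ i = 6 then C
      else 1) (-i) = if i = 0 then (C * C)⁻¹ else if i = 1 ∨ i = 6 then C else 1 := by
    intro i
    fin_cases i <;> simp +decide
  obtain ⟨r, hrK, hre⟩ := mem_Kz_of_dx heven hr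
  by_cases hsq : C ^ 2 = 1
  swap
  · refine (hhom hrK (c := C) ?_ hsq).elim
    rw [hre, bm_diagonal]
    congr 1
    funext t
    fin_cases t <;> simp +decide [kb]
  · rcases sq_eq_one_iff.1 hsq with hC1 | hC1
    · exact hC1
    exfalso
    obtain ⟨s, hsK, hse, hs3⟩ := s_mem hG
    have hmem : r * s * r⁻¹ * s⁻¹ ∈ K0 X :=
      mul_mem (conj_odd_mem hG hrK hsK (by decide) hs3)
        (inv_mem (odd_mem_K0 hG hsK (by decide) hs3))
    let d : Fin 7 → F := fun i => if i = 0 then 1 else if i = 3 ∨ i = 4 then 1 else -1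
    have hrs : ((r * s * r⁻¹ * s⁻¹ : GL (Fin 7) F) : M7 F) = Matrix.diagonal d := by
      have hrr : (r : M7 F) * r = 1 := by
        rw [hre, Matrix.diagonal_mul_diagonal, ← Matrix.diagonal_one]
        congr 1
        funext i
        fin_cases i <;> simp [hC1]
      have hri : r⁻¹ = r := inv_eq_of_mul_eq_one_right (Units.ext (by rw [Units.val_mul, hrr]; rfl))
      rw [hri]
      have e : (r * s * r : GL (Fin 7) F).val = Matrix.diagonal d * (s : M7 F) := by
        rw [Units.val_mul, Units.val_mul, hre, hse]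
        ext i j
        rw [Matrix.mul_diagonal, Matrix.diagonal_mul, Matrix.diagonal_mul]
        by_cases h : i = 2 * j
        · subst h
          fin_cases j <;> simp [Sm, d, hC1]
        · simp [Sm, h]
      rw [Units.val_mul, e, mul_assoc, ← Units.val_mul, mul_inv_cancel, Units.val_one, mul_one]
    have h2 : (r * s * r⁻¹ * s⁻¹) ^ 2 = 1 := Units.ext (by
      rw [Units.val_pow_eq_pow_val, hrs, Matrix.diagonal_pow, Units.val_one, ← Matrix.diagonal_one]
      congr 1
      funext i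
      fin_cases i <;> simp [d])
    have hne : r * s * r⁻¹ * s⁻¹ ≠ 1 := fun e => by
      have e1 := congrFun (congrFun hrs 1) 1
      rw [e] at e1
      simp [d] at e1
      exact hG.two_ne_zero (by linear_combination e1)
    have := congrFun (congrFun ((hu _ hmem (orderOf_eq_prime h2 hne)).symm.trans hrs) 0) 0
    simp [Zm, d] at this
    exact hG.two_ne_zero (by linear_combination -this)

lemma diag_centG (hu : UniqZero X) (hhom : HHom X) {f : Fin 7 → F} (hf : DX X f)
    (heven : ∀ i, f (-i) = f i) : ∃ c a : Fin 7, f = fun i => w ω (c + a * (i * i)) := by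
  have hω := hG.omega
  choose φ hφ using fun i => exists_w' hω (root_seven hG hu hhom hf i)
  have hev : ∀ i, φ (-i) = φ i := fun i => w_inj hω (by rw [← hφ, ← hφ, heven])
  have hsum : ∑ i, φ i = 0 := exp_eq_of_sum hω (by
    have h := inX_det hG hf
    rw [Matrix.det_diagonal] at h
    simpa only [← hφ] using h)
  obtain ⟨k, l, m, h0, h1, h2, h4⟩ := quad_spec (φ 0) (φ 1) (φ 2)
  have hpoly : ∀ i, φ i = k + l * (i * i) + m * (i * i * (i * i)) := by
    have e3 : φ 3 = φ 4 := hev 4
    have e5 : φ 5 = φ 2 := hev 2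
    have e6 : φ 6 = φ 1 := hev 1
    rw [Fin.sum_univ_seven, e3, e5, e6] at hsum
    have h4' : φ 4 = -(4 * φ 0 + φ 1 + φ 2) :=
      (by decide : ∀ a b c d : Fin 7, a + b + c + d + d + c + b = 0 → d = -(4 * a + b + c)) _ _ _ _
        hsum
    intro i
    fin_cases i
    · show φ 0 = k + l * 0 + m * 0
      exact h0.symm
    · show φ 1 = k + l * 1 + m * 1
      exact h1.symm
    · show φ 2 = k + l * 4 + m * 2
      exact h2.symm
    · show φ 3 = k + l * 2 + m * 4
      rw [e3, h4', h4]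
    · show φ 4 = k + l * 2 + m * 4
      rw [h4', h4]
    · show φ 5 = k + l * 4 + m * 2
      rw [e5, h2]
    · show φ 6 = k + l * 1 + m * 1
      rw [e6, h1]
  refine ⟨k, l, ?_⟩
  rcases eq_or_ne m 0 with hm | hm
  · funext i
    rw [hφ i, hpoly, hm, zero_mul, add_zero]
  · exfalso
    have hφL : LX ω X φ := cast (congrArg (DX X) (funext hφ)) hf
    have hq : LX ω X fun i => i * i := hG.g
    have hone : LX ω X fun _ => (1 : Fin 7) := by
      have h := hG.scalar 1
      rwa [Matrix.smul_one_eq_diagonal] at h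
    have h5 := lx_add hω (lx_add hω (lx_mul hω hone 5) (lx_mul hω hq 5))
      (lx_mul hω (lx_add hω (lx_add hω hφL (lx_mul hω hone (-k))) (lx_mul hω hq (-l))) (5 * m ^ 5))
    refine no_tgt hω hhom (cast (congrArg (LX ω X) (funext fun i => ?_)) h5)
    rw [tgt_poly, hpoly, mul_one, mul_one,
      show k + l * (i * i) + m * (i * i * (i * i)) + -k + -l * (i * i) = m * (i * i * (i * i)) by ring,
      quartic_mul _ _ hm]

omit hG in
lemma mono_zero_off {M : M7 F} (hm : IsMono M) {i j : Fin 7} (h : M j j ≠ 0) (hij : i ≠ j) :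
    M i j = 0 := by
  by_contra hne
  exact hij (hm i j j hne h)

end Central

open Central

/-- The elements of `Kz X` commuting with the quadratic phase. -/
theorem centG_eq [Finite F] (hG : Gen ω X) (hu : UniqZero X)
    (hmono : ∀ {h : GL (Fin 7) F}, h ∈ X → Commute (h : M7 F) (Gm ω) → IsMono (h : M7 F))
    (hhom : Central.HHom X) {h : GL (Fin 7) F} (hK : h ∈ Kz X)
    (hc : Commute (h : M7 F) (Gm ω)) :
    ∃ (c a : Fin 7), (h : M7 F) = Dm ω (fun i => c + a * (i * i)) ∨
      (h : M7 F) = Dm ω (fun i => c + a * (i * i)) * Zm := by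
  classical
  have hω := hG.omega
  have hm := hmono hK.1 hc
  have hs := sym_of_mem hK
  set M := (h : M7 F) with hM
  have hsupp : ∀ i j, M i j ≠ 0 → i = j ∨ i = -j := by
    intro i j hne
    have h1 := congrFun (congrFun hc.eq i) j
    simp only [Gm, Dm, Matrix.mul_diagonal, Matrix.diagonal_mul] at h1
    rw [mul_comm] at h1
    exact (by decide : ∀ i j : Fin 7, j * j = i * i → i = j ∨ i = -j) i j
      (w_inj hω (mul_right_cancel₀ hne h1))
  have hdet : M.det = 1 := det_one hG hK.1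
  have hnz : ∀ j, M j j ≠ 0 ∨ M (-j) j ≠ 0 := by
    intro j
    by_contra hh
    push Not at hh
    rw [Matrix.det_eq_zero_of_column_eq_zero j fun i => by
      by_contra hi
      rcases hsupp i j hi with rfl | rfl
      · exact hi hh.1
      · exact hi hh.2] at hdet
    exact zero_ne_one hdet
  let π : Fin 7 → Fin 7 := fun j => if M j j = 0 then -j else j
  have hπM : ∀ i j, M i j ≠ 0 → i = π j := by
    intro i j hne
    by_cases h0 : M j j = 0
    · simp only [π, h0, if_true]
      exact hm i (-j) j hne ((hnz j).resolve_left (not_not.2 h0))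
    · simp only [π, h0, if_false]
      exact hm i j j hne h0
  have hπneg : ∀ j, π (-j) = -π j := fun j => by
    by_cases h0 : M j j = 0 <;> simp [π, hs j j, h0]
  have hπinv : ∀ j, π (π j) = j := fun j => by
    by_cases h0 : M j j = 0 <;> simp [π, hs j j, h0]
  let b : Fin 3 → Bool := fun t => decide (M (kb t) (kb t) = 0)
  have hv : LX ω X fun i => π i + 6 * i := by
    refine lx_add hω ?_ (lx_mul hω hG.y 6)
    refine inX_conj ⟨h, hK.1, hM.symm⟩ hG.y ?_
    ext i j
    simp only [Ym, Dm, Matrix.mul_diagonal, Matrix.diagonal_mul]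
    rcases eq_or_ne (M i j) 0 with h0 | h0
    · simp [h0]
    · rw [hπM i j h0, hπinv, mul_comm]
  by_cases hconst : ∀ r, b r = b 0
  swap
  · refine (no_mixed hG hhom hv (fun i => ?_) (b := b) (fun t => ?_) hconst).elim
    · rw [hπneg, mul_neg, neg_add]
    · have e : ∀ x : Fin 7, -x + 6 * x = -2 * x ∧ x + 6 * x = 0 := by decide
      by_cases h0 : M (kb t) (kb t) = 0
      · simp only [b, π, h0, decide_true, if_true]
        exact (e _).1
      · simp only [b, π, h0, decide_false, if_false]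
        exact (e _).2
  have hkcase : ∀ i : Fin 7, i = 0 ∨ ∃ t, i = kb t ∨ i = -kb t := by decide
  have h00 : M 0 0 ≠ 0 := by simpa using hnz 0
  by_cases hb0 : M (kb 0) (kb 0) = 0
  · -- all planes are swapped
    obtain ⟨z, hz, hze⟩ := hG.z
    have hswap : ∀ i j, i ≠ -j → M i j = 0 := by
      intro i j hij
      by_contra hne
      apply hij
      rw [hπM i j hne]
      rcases hkcase j with rfl | ⟨t, rfl | rfl⟩
      · simp [π, h00]
      · have := hconst t
        simp [b, hb0] at this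
        simp [π, this]
      · have := hconst t
        simp [b, hb0] at this
        simp [π, hs (kb t) (kb t), this]
    have hd : ((h * z : GL (Fin 7) F) : M7 F) = Matrix.diagonal fun i => -M i (-i) := by
      rw [Units.val_mul, hze, ← hM]
      ext i j
      rw [Matrix.mul_apply, Finset.sum_eq_single (-j) (fun k _ hk => by simp [Zm, hk]) (by simp)]
      by_cases hij : i = j
      · subst hij; simp [Zm]
      · simp [Zm, Matrix.diagonal, hij, hswap i (-j) (by simpa using hij)]
    obtain ⟨c, a, hca⟩ := diag_centG hG hu hhom (f := fun i => -M i (-i))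
      ⟨h * z, mul_mem hK.1 hz, hd⟩ (fun i => by
        have e := hs i (-i)
        rw [neg_neg] at e
        simp [e])
    refine ⟨c, a, Or.inr ?_⟩
    rw [hca] at hd
    have hzz : (Zm : M7 F) * Zm = 1 := by
      ext i j
      rw [Matrix.mul_apply, Finset.sum_eq_single (-j) (fun k _ hk => by simp [Zm, hk]) (by simp)]
      by_cases hij : i = j <;> simp [Zm, Matrix.one_apply, hij]
    calc M = M * Zm * Zm := by rw [mul_assoc, hzz, mul_one]
      _ = _ := by rw [← hze, hM, ← Units.val_mul, hd, hze]; rfl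
  · have hdiag : ∀ j, M j j ≠ 0 := by
      intro j
      rcases hkcase j with rfl | ⟨t, rfl | rfl⟩
      · exact h00
      · have := hconst t
        simpa [b, hb0] using this
      · rw [hs]
        have := hconst t
        simpa [b, hb0] using this
    have hd : M = Matrix.diagonal fun i => M i i := by
      ext i j
      by_cases hij : i = j
      · subst hij; simp
      · rw [Matrix.diagonal_apply_ne _ hij]
        exact mono_zero_off hm (hdiag j) hij
    obtain ⟨c, a, hca⟩ := diag_centG hG hu hhom (f := fun i => M i i) ⟨h, hK.1, hd⟩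
      (fun i => hs i i)
    exact ⟨c, a, Or.inl (by rw [hd, hca]; rfl)⟩

namespace Central

variable (hG : Gen ω X)

lemma sum_shift (hω : Omega ω) :
    (Fm ω * Dm ω (fun i => 3 * (i * i)) * Fm ω : M7 F) =
      (∑ m : Fin 7, w ω (3 * (m * m))) •
        (Dm ω (fun i => 4 * (i * i)) * Fm ω * Dm ω (fun i => 4 * (i * i))) := by
  ext i j
  rw [Matrix.smul_apply, Matrix.mul_apply, Dm, Dm, Matrix.mul_diagonal, Matrix.diagonal_mul,
    smul_eq_mul, ← Equiv.sum_comp (Equiv.addRight (i + j)), Finset.sum_mul]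
  refine Finset.sum_congr rfl fun m _ => ?_
  simp only [Matrix.mul_diagonal, Fm, Matrix.of_apply, Equiv.coe_addRight, ← w_add hω]
  congr 1
  exact (by decide : ∀ i m j : Fin 7,
    i * (m + (i + j)) + 3 * ((m + (i + j)) * (m + (i + j))) + (m + (i + j)) * j =
      3 * (m * m) + (4 * (i * i) + i * j + 4 * (j * j))) i m j

lemma dm_pow_seven (hω : Omega ω) (φ : Fin 7 → Fin 7) : (Dm ω φ : M7 F) ^ 7 = 1 := by
  rw [Dm, Matrix.diagonal_pow, ← Matrix.diagonal_one]
  congr 1
  funext i
  rw [Pi.pow_apply, w, ← pow_mul, mul_comm, pow_mul, hω.pow_seven, one_pow]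

lemma quad_inX (hG : Gen ω X) (c a : Fin 7) : InX X (Dm ω fun i => c + a * (i * i)) := by
  have hone : LX ω X fun _ => (1 : Fin 7) := by
    have h := hG.scalar 1
    rwa [Matrix.smul_one_eq_diagonal] at h
  have h := lx_add hG.omega (lx_mul hG.omega hone c) (lx_mul hG.omega (φ := fun i => i * i) hG.g a)
  exact cast (congrArg (LX ω X) (funext fun i => by rw [mul_one])) h

lemma quad_K0 (hG : Gen ω X) (c a : Fin 7) :
    ∃ k ∈ K0 X, (k : M7 F) = Dm ω fun i => c + a * (i * i) := by
  obtain ⟨k, hk, he⟩ := quad_inX hG c a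
  refine ⟨k, odd_mem_K0 hG ⟨hk, ?_⟩ (by decide : Odd 7) (Units.ext ?_), he⟩
  · rw [he]
    exact sym_iff_commute.1 (sym_dm fun i => by rw [neg_mul_neg])
  · rw [Units.val_pow_eq_pow_val, he, dm_pow_seven hG.omega, Units.val_one]

lemma scalar_K0 (hG : Gen ω X) {k : GL (Fin 7) F} (hk : k ∈ X) {l : F}
    (hl : (k : M7 F) = l • 1) : k ∈ K0 X := by
  have h7 : l ^ 7 = 1 := by
    have h := det_one hG hk
    rw [hl, Matrix.det_smul, Matrix.det_one, mul_one] at h
    simpa using h
  refine odd_mem_K0 hG ⟨hk, ?_⟩ (by decide : Odd 7) (Units.ext ?_)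
  · rw [hl]; exact (Commute.one_left _).smul_left l
  · rw [Units.val_pow_eq_pow_val, hl, smul_pow, one_pow, h7, one_smul, Units.val_one]

lemma z_mem_K0 (hG : Gen ω X) : ∀ z ∈ X, (z : M7 F) = Zm → z ∈ K0 X := by
  intro z hz hze
  have hω := hG.omega
  obtain ⟨c, f, hf, hfe⟩ := hG.f
  have hfK : f ∈ Kz X := ⟨hf, by rw [hfe]; exact (sym_iff_commute.1 sym_fm).smul_left c⟩
  have hc0 : c ≠ 0 := fun h0 => by
    have h1 := det_one hG hf
    rw [hfe, h0, zero_smul, Matrix.det_zero] at h1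
    exact zero_ne_one h1
  obtain ⟨g3, hg3, hg3e⟩ := quad_K0 hG 0 3
  obtain ⟨g4, hg4, hg4e⟩ := quad_K0 hG 0 4
  have h3X := (K0_le X hg3).1
  have h4X := (K0_le X hg4).1
  -- the braid relation
  have hσ : ∃ τ ∈ K0 X, f * g3 * f = τ * (g4 * f * g4) := by
    refine ⟨f * g3 * f * (g4 * f * g4)⁻¹, ?_, by rw [inv_mul_cancel_right]⟩
    refine scalar_K0 hG (l := c * ∑ m : Fin 7, w ω (3 * (m * m)))
      (mul_mem (mul_mem (mul_mem hf h3X) hf) (inv_mem (mul_mem (mul_mem h4X hf) h4X))) ?_
    have e : ((f * g3 * f : GL (Fin 7) F) : M7 F) =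
        (c * ∑ m : Fin 7, w ω (3 * (m * m))) • ((g4 * f * g4 : GL (Fin 7) F) : M7 F) := by
      simp only [Units.val_mul, hg3e, hg4e, hfe, zero_add, Matrix.smul_mul, Matrix.mul_smul,
        sum_shift hω, smul_smul]
      ring_nf
    rw [Units.val_mul, e, smul_mul_assoc, ← Units.val_mul, mul_inv_cancel, Units.val_one]
  obtain ⟨τ, hτ, hrel⟩ := hσ
  have hρ : f * f * z⁻¹ ∈ K0 X := by
    refine scalar_K0 hG (l := c * c * -7) (mul_mem (mul_mem hf hf) (inv_mem hz)) ?_
    have e : ((f * f : GL (Fin 7) F) : M7 F) = (c * c * -7) • (z : M7 F) := by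
      rw [Units.val_mul, hfe, hze, Matrix.smul_mul, Matrix.mul_smul, fm_mul_fm hω, smul_smul,
        smul_smul, mul_assoc]
    rw [Units.val_mul, e, smul_mul_assoc, ← Units.val_mul, mul_inv_cancel, Units.val_one]
  set ρ := f * f * z⁻¹ with hρdef
  have hff : f * f = ρ * z := by rw [hρdef, inv_mul_cancel_right]
  set u := f * g3 * f⁻¹ with hudef
  have hu : u ∈ K0 X :=
    conj_odd_mem hG hfK (K0_le X hg3) (by decide : Odd 7) (Units.ext (by
      rw [Units.val_pow_eq_pow_val, hg3e, dm_pow_seven hω, Units.val_one]))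
  have hzc : ∀ k ∈ Kz X, Commute z k := fun k hk =>
    Units.ext (by rw [Units.val_mul, Units.val_mul, hze]; exact hk.2.eq.symm)
  -- `f z⁻¹` lies in `K0`
  have hfz : f * z⁻¹ ∈ K0 X := by
    have e1 : u * (ρ * z) = τ * (g4 * f * g4) := by rw [← hrel, ← hff, hudef]; group
    have e2 : f = g4⁻¹ * τ⁻¹ * u * ρ * g4⁻¹ * z := by
      have e3 : f = g4⁻¹ * τ⁻¹ * (τ * (g4 * f * g4)) * g4⁻¹ := by group
      rw [← e1] at e3
      rw [e3]
      simp only [mul_assoc, (hzc _ (inv_mem (K0_le X hg4))).eq]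
    rw [e2, mul_inv_cancel_right]
    exact mul_mem (mul_mem (mul_mem (mul_mem (inv_mem hg4) (inv_mem hτ)) hu) hρ) (inv_mem hg4)
  have h2 : f * z⁻¹ * (f * z⁻¹) = ρ * z⁻¹ := by
    calc f * z⁻¹ * (f * z⁻¹) = f * (z⁻¹ * f) * z⁻¹ := by simp only [mul_assoc]
      _ = f * (f * z⁻¹) * z⁻¹ := by rw [((hzc f hfK).inv_left).eq]
      _ = f * f * z⁻¹ * z⁻¹ := by simp only [mul_assoc]
      _ = ρ * z⁻¹ := by rw [← hρdef]
  have h3 := mul_mem (inv_mem hρ) (mul_mem hfz hfz)
  rw [h2, inv_mul_cancel_left] at h3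
  exact inv_mem_iff.1 h3

lemma sq_cases : ∀ a : Fin 7, ∀ i : Fin 7, a * (i * i) = 1 → a = 1 ∨ a = 2 ∨ a = 4 := by decide

lemma zero_row_cases : ∀ k a i : Fin 7, k ≠ 0 → k + a * (i * i) = 0 → i ≠ 0 ∧ i ≠ -i := by decide

/-- Conjugation of the phase into the phases. -/
lemma phase_conj (hω : Omega ω) {n : GL (Fin 7) F} {k a : Fin 7}
    (h : (n : M7 F) * Gm ω = Dm ω (fun i => k + a * (i * i)) * (n : M7 F)) :
    k = 0 ∧ (a = 1 ∨ a = 2 ∨ a = 4) := by
  set N := (n : M7 F)
  set N' := ((n⁻¹ : GL (Fin 7) F) : M7 F)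
  have hN : ∀ i j, N i j ≠ 0 → k + a * (i * i) = j * j := by
    intro i j hne
    have e := congrFun (congrFun h i) j
    simp only [Gm, Dm, Matrix.mul_diagonal, Matrix.diagonal_mul] at e
    rw [mul_comm] at e
    exact (w_inj hω (mul_right_cancel₀ hne e)).symm
  have h1 : N * N' = 1 := by rw [← Units.val_mul, mul_inv_cancel]; rfl
  have h1' : N' * N = 1 := by rw [← Units.val_mul, inv_mul_cancel]; rfl
  have hcol : ∀ j, ∃ i, N i j ≠ 0 := by
    intro j
    by_contra hh
    push Not at hh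
    have e := congrFun (congrFun h1' j) j
    rw [Matrix.mul_apply, Finset.sum_eq_zero (fun i _ => by rw [hh i, mul_zero]),
      Matrix.one_apply_eq] at e
    exact zero_ne_one e
  have hk : k = 0 := by
    by_contra hk0
    obtain ⟨i, hi⟩ := hcol 0
    have hi0 : k + a * (i * i) = 0 := by simpa using hN i 0 hi
    obtain ⟨-, hii⟩ := zero_row_cases k a i hk0 hi0
    have hrow : ∀ r, k + a * (r * r) = 0 → ∀ t, (N * N') r t = N r 0 * N' 0 t := by
      intro r hr t
      rw [Matrix.mul_apply, Finset.sum_eq_single 0]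
      · intro j _ hj
        by_cases h0 : N r j = 0
        · rw [h0, zero_mul]
        · have := hN r j h0
          rw [hr] at this
          exact absurd ((by decide : ∀ j : Fin 7, 0 = j * j → j = 0) j this) hj
      · simp
    have hr' : k + a * (-i * -i) = 0 := by rw [neg_mul_neg]; exact hi0
    have e1 : N i 0 * N' 0 (-i) = 0 := by
      rw [← hrow i hi0, h1, Matrix.one_apply_ne hii]
    have e2 : N (-i) 0 * N' 0 (-i) = 1 := by
      rw [← hrow (-i) hr', h1, Matrix.one_apply_eq]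
    rw [(mul_eq_zero.1 e1).resolve_left hi, mul_zero] at e2
    exact zero_ne_one e2
  obtain ⟨i, hi⟩ := hcol 1
  have := hN i 1 hi
  rw [hk, zero_add, mul_one] at this
  exact ⟨hk, sq_cases a i this⟩

lemma val_pow_fix : ∀ a : Fin 7, a ^ 7 = a := by decide

lemma pow_seven_pow (a : Fin 7) : ∀ l : ℕ, a ^ (7 ^ l) = a
  | 0 => by simp
  | l + 1 => by rw [pow_succ, pow_mul, pow_seven_pow a l, val_pow_fix]

end Central

open Central in
/-- The centraliser of the parity involution is generated by its elements of odd order. -/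
theorem Kz_eq_K0 [Finite F] (hG : Gen ω X) (hu : UniqZero X)
    (hmono : ∀ {h : GL (Fin 7) F}, h ∈ X → Commute (h : M7 F) (Gm ω) → IsMono (h : M7 F))
    (hhom : Central.HHom X) : Kz X = K0 X := by
  classical
  have hω := hG.omega
  refine le_antisymm (fun n hn => ?_) (K0_le X)
  obtain ⟨g, hgX, hge⟩ := hG.g
  have hgK : g ∈ Kz X := ⟨hgX, by rw [hge]; exact sym_iff_commute.1 sym_gm⟩
  have hg7 : g ^ 7 = 1 := Units.ext (by
    rw [Units.val_pow_eq_pow_val, hge, Gm, dm_pow_seven hω, Units.val_one])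
  have hg0 : g ∈ K0 X := odd_mem_K0 hG hgK (by decide) hg7
  haveI : Fact (Nat.Prime 7) := ⟨by norm_num⟩
  -- a Sylow subgroup of `K0` containing `g`
  let InA : GL (Fin 7) F → Prop := fun x => ∃ c a, (x : M7 F) = Dm ω fun i => c + a * (i * i)
  have hgp : IsPGroup 7 (Subgroup.zpowers (⟨g, hg0⟩ : K0 X)) := fun k => ⟨1, by
    obtain ⟨m, hm⟩ := Subgroup.mem_zpowers_iff.1 k.2
    apply Subtype.ext
    rw [SubmonoidClass.coe_pow, ← hm, pow_one, ← zpow_natCast, ← _root_.zpow_mul, mul_comm,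
      _root_.zpow_mul, zpow_natCast,
      show (⟨g, hg0⟩ : K0 X) ^ 7 = 1 from Subtype.ext hg7, _root_.one_zpow, Subgroup.coe_one]⟩
  obtain ⟨P, hP⟩ := hgp.exists_le_sylow
  have hgP : (⟨g, hg0⟩ : K0 X) ∈ P := hP (Subgroup.mem_zpowers _)
  let A : Subgroup (K0 X) :=
    { carrier := {x | InA (x : GL (Fin 7) F)}
      one_mem' := ⟨0, 0, by rw [Subgroup.coe_one, Units.val_one]; simp [Dm]⟩
      mul_mem' := by
        rintro x y ⟨c, a, hx⟩ ⟨c', a', hy⟩
        refine ⟨c + c', a + a', ?_⟩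
        rw [Subgroup.coe_mul, Units.val_mul, hx, hy, dm_mul hω]
        exact congrArg (Dm ω) (funext fun i => by ring)
      inv_mem' := by
        rintro x ⟨c, a, hx⟩
        refine ⟨-c, -a, ?_⟩
        rw [Subgroup.coe_inv]
        refine Units.inv_eq_of_mul_eq_one_left ?_
        rw [hx, dm_mul hω]
        refine Eq.trans (congrArg (Dm ω) (funext fun i => ?_)) dm_zero
        ring }
  have hgA : (⟨g, hg0⟩ : K0 X) ∈ A := ⟨0, 1, by simp [hge, Gm]⟩
  obtain ⟨z, hzX, hze⟩ := hG.z
  -- elements conjugating `g` into `A`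
  have hconj : ∀ x : GL (Fin 7) F, InA (x * g * x⁻¹) →
      ∃ a : Fin 7, (a = 1 ∨ a = 2 ∨ a = 4) ∧ (x : M7 F) * Gm ω =
        Dm ω (fun i => a * (i * i)) * (x : M7 F) := by
    rintro x ⟨k, a, hx⟩
    have e : (x : M7 F) * Gm ω = Dm ω (fun i => k + a * (i * i)) * (x : M7 F) := by
      rw [← hx, ← hge, ← Units.val_mul, ← Units.val_mul, inv_mul_cancel_right]
    obtain ⟨rfl, ha⟩ := phase_conj hω e
    exact ⟨a, ha, by simpa using e⟩
  have hPA : (P : Subgroup (K0 X)) ≤ A := by
    intro x hx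
    by_contra hxA
    let A' : Subgroup P := A.subgroupOf P
    have hlt : A' < ⊤ := lt_top_iff_ne_top.2 fun e =>
      hxA (Subgroup.mem_subgroupOf.1 (show (⟨x, hx⟩ : P) ∈ A' from e ▸ Subgroup.mem_top _))
    haveI : Group.IsNilpotent P := P.isPGroup'.isNilpotent
    obtain ⟨y, hyN, hyA⟩ := SetLike.exists_of_lt (normalizerCondition_of_isNilpotent A' hlt)
    apply hyA
    rw [Subgroup.mem_subgroupOf]
    have hy1 : InA ((y : K0 X) * g * ((y : K0 X) : GL (Fin 7) F)⁻¹) := by
      have h1 := (Subgroup.mem_normalizer_iff.1 hyN ⟨⟨g, hg0⟩, hgP⟩).1 hgA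
      exact h1
    obtain ⟨a, -, ha⟩ := hconj _ hy1
    have hyp : ∀ m : ℕ, (((y : K0 X) : GL (Fin 7) F) : M7 F) ^ m * Gm ω =
        Dm ω (fun i => a ^ m * (i * i)) * (((y : K0 X) : GL (Fin 7) F) : M7 F) ^ m := by
      set M := (((y : K0 X) : GL (Fin 7) F) : M7 F)
      have step : ∀ b : Fin 7, M * Dm ω (fun i => b * (i * i)) =
          Dm ω (fun i => (a * b) * (i * i)) * M := by
        intro b
        have hpow : ∀ (d : Fin 7), (Dm ω fun i => d * (i * i) : M7 F) ^ (b : ℕ) =
            Dm ω fun i => (d * b) * (i * i) := fun d => by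
          simp only [Dm, Matrix.diagonal_pow]
          congr 1
          funext i
          rw [Pi.pow_apply, ← Central.w_nat_mul hω, Fin.cast_val_eq_self]
          congr 1
          ring
        have h1 : SemiconjBy M (Gm ω) (Dm ω fun i => a * (i * i)) := ha
        have h2 := (h1.pow_right (b : ℕ)).eq
        rw [show (Gm ω : M7 F) = Dm ω (fun i => 1 * (i * i)) by simp [Gm], hpow, hpow, one_mul] at h2
        exact h2
      intro m
      induction m with
      | zero => simp [Gm]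
      | succ m ih =>
        rw [pow_succ' M, mul_assoc, ih, ← mul_assoc, step, ← pow_succ', mul_assoc]
    obtain ⟨l, hl⟩ := P.isPGroup' y
    have hl' : (((y : K0 X) : GL (Fin 7) F) : M7 F) ^ (7 ^ l) = 1 := by
      have e := congrArg (fun t : P => (((t : K0 X) : GL (Fin 7) F) : M7 F)) hl
      simpa using e
    have ha1 : a ^ (7 ^ l) = a := pow_seven_pow a l
    have h2 := hyp (7 ^ l)
    rw [hl', one_mul, mul_one, ha1] at h2
    rw [← h2] at ha
    obtain ⟨c, b, hh | hh⟩ := centG_eq hG hu hmono hhom (K0_le X (y : K0 X).2) ha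
    · exact ⟨c, b, hh⟩
    · exfalso
      set M := (((y : K0 X) : GL (Fin 7) F) : M7 F)
      have hcD : Commute (Dm ω (fun i => c + b * (i * i))) (Zm : M7 F) :=
        sym_iff_commute.1 (sym_dm fun i => by rw [neg_mul_neg])
      have hzz : (Zm : M7 F) * Zm = 1 := by
        ext i j
        rw [Matrix.mul_apply, Finset.sum_eq_single (-j) (fun k _ hk => by simp [Zm, hk]) (by simp)]
        by_cases hij : i = j <;> simp [Zm, Matrix.one_apply, hij]
      have h7 : ∀ m, (Zm : M7 F) ^ (7 ^ m) = Zm := by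
        intro m
        induction m with
        | zero => simp
        | succ m ih =>
          rw [pow_succ, pow_mul, ih]
          simp [pow_succ, hzz]
      have e := hl'
      rw [hh, hcD.mul_pow, h7] at e
      cases l with
      | zero =>
        rw [pow_zero, pow_one] at e
        have := congrFun (congrFun e 1) 1
        simp +decide [Dm, Zm, Matrix.one_apply] at this
      | succ l =>
        rw [pow_succ', pow_mul, dm_pow_seven hω, one_pow, one_mul] at e
        have := congrFun (congrFun e 1) 1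
        simp +decide [Zm, Matrix.one_apply] at this
  -- move `n g n⁻¹` into `A`
  have hng : n * g * n⁻¹ ∈ K0 X := conj_odd_mem hG hn hgK (by decide) hg7
  have hngp : IsPGroup 7 (Subgroup.zpowers (⟨_, hng⟩ : K0 X)) := fun k => ⟨1, by
    obtain ⟨m, hm⟩ := Subgroup.mem_zpowers_iff.1 k.2
    apply Subtype.ext
    rw [SubmonoidClass.coe_pow, ← hm, pow_one, ← zpow_natCast, ← _root_.zpow_mul, mul_comm,
      _root_.zpow_mul, zpow_natCast,
      show (⟨_, hng⟩ : K0 X) ^ 7 = 1 from Subtype.ext (by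
        rw [SubmonoidClass.coe_pow, conj_pow, hg7, mul_one, mul_inv_cancel]; rfl),
      _root_.one_zpow, Subgroup.coe_one]⟩
  obtain ⟨Q, hQ⟩ := hngp.exists_le_sylow
  obtain ⟨k, hk⟩ := MulAction.exists_smul_eq (K0 X) Q P
  have hmem : InA ((k : GL (Fin 7) F) * (n * g * n⁻¹) * (k : GL (Fin 7) F)⁻¹) := by
    have h1 : k * ⟨_, hng⟩ * k⁻¹ ∈ (P : Subgroup (K0 X)) := by
      rw [← hk]
      exact ⟨⟨_, hng⟩, hQ (Subgroup.mem_zpowers _), rfl⟩
    exact hPA h1
  obtain ⟨a, ha, he⟩ := hconj ((k : GL (Fin 7) F) * n) (by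
    simpa only [_root_.mul_inv_rev, mul_assoc] using hmem)
  obtain ⟨s, hsK, hse, hs3⟩ := s_mem hG
  have hs0 : s ∈ K0 X := odd_mem_K0 hG hsK (by decide) hs3
  -- bring back by a power of `s`
  have hS : ∀ b : Fin 7, (Sm : M7 F) * Dm ω (fun i => b * (i * i)) =
      Dm ω (fun i => (2 * b) * (i * i)) * Sm := by
    intro b
    ext i j
    simp only [Dm, Matrix.mul_diagonal, Matrix.diagonal_mul, Sm, Matrix.of_apply]
    by_cases hij : i = 2 * j
    · subst hij
      rw [(by decide : ∀ b j : Fin 7, (2 * b) * (2 * j * (2 * j)) = b * (j * j)) b j]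
      simp
    · simp [hij]
  have hfin : ∀ x : GL (Fin 7) F, x ∈ Kz X → Commute (x : M7 F) (Gm ω) → x ∈ K0 X := by
    intro x hx hxc
    obtain ⟨c, b, hh | hh⟩ := centG_eq hG hu hmono hhom hx hxc
    · obtain ⟨q, hq, hqe⟩ := quad_K0 hG c b
      rwa [show x = q from Units.ext (hh.trans hqe.symm)]
    · obtain ⟨q, hq, hqe⟩ := quad_K0 hG c b
      rw [show x = q * z from Units.ext (by rw [Units.val_mul, hqe, hze, hh])]
      exact mul_mem hq (z_mem_K0 hG z hzX hze)
  set x := (k : GL (Fin 7) F) * n with hxdef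
  have hxK : x ∈ Kz X := mul_mem (K0_le X k.2) hn
  have hx0 : x ∈ K0 X := by
    have hg1 : (Gm ω : M7 F) = Dm ω (fun i => 1 * (i * i)) := by simp [Gm]
    rcases ha with rfl | rfl | rfl
    · rw [← hg1] at he
      exact hfin x hxK he
    · have h1 : Commute ((s * (s * x) : GL (Fin 7) F) : M7 F) (Gm ω) := by
        show _ = _
        rw [Units.val_mul, Units.val_mul, hse, mul_assoc, mul_assoc, he, ← mul_assoc (Sm : M7 F) (Dm ω _),
          hS, mul_assoc, ← mul_assoc (Sm : M7 F) (Dm ω _), hS, show (2 : Fin 7) * (2 * 2) = 1 from rfl,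
          ← hg1, mul_assoc]
      have h2 := hfin _ (mul_mem hsK (mul_mem hsK hxK)) h1
      exact (Subgroup.mul_mem_cancel_left _ hs0).1 ((Subgroup.mul_mem_cancel_left _ hs0).1 h2)
    · have h1 : Commute ((s * x : GL (Fin 7) F) : M7 F) (Gm ω) := by
        show _ = _
        rw [Units.val_mul, hse, mul_assoc, he, ← mul_assoc (Sm : M7 F), hS,
          show (2 : Fin 7) * 4 = 1 from rfl, ← hg1, mul_assoc]
      exact (Subgroup.mul_mem_cancel_left _ hs0).1 (hfin _ (mul_mem hsK hxK) h1)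
  rw [hxdef] at hx0
  exact (Subgroup.mul_mem_cancel_left _ k.2).1 hx0

end Cfsg.Agent.CSixSeven
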