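import Mathlib

/-!
An element of order seven normalising a commutative group of semisimple matrices of size seven
with a common fixed vector centralises it.
-/

set_option autoImplicit false

namespace Cfsg.Agent.CSixSeven

open Module Matrix

theorem commFix_eq {F : Type*} [Field F] {A : Subgroup (GL (Fin 7) F)}
    (hab : ∀ a ∈ A, ∀ b ∈ A, a * b = b * a)
    (hss : ∀ a ∈ A, ∃ m : ℕ, (m : F) ≠ 0 ∧ a ^ m = 1)
    {g : GL (Fin 7) F} (hg : g ^ 7 = 1) (hn : ∀ a ∈ A, g⁻¹ * a * g ∈ A)
    {v : Fin 7 → F} (hv : v ≠ 0) (hfix : ∀ a ∈ A, (a : Matrix (Fin 7) (Fin 7) F) *ᵥ v = v) :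
    ∀ a ∈ A, g * a = a * g := by
  classical
  let K := AlgebraicClosure F
  let ι : F →+* K := algebraMap F K
  let Φ : Matrix (Fin 7) (Fin 7) F →+* End K (Fin 7 → K) :=
    (Matrix.toLinAlgEquiv' : Matrix (Fin 7) (Fin 7) K ≃ₐ[K] _).toRingHom.comp ι.mapMatrix
  have Φinj : Function.Injective Φ := fun M N h => Matrix.map_injective ι.injective
    ((Matrix.toLinAlgEquiv' : Matrix (Fin 7) (Fin 7) K ≃ₐ[K] _).injective h)
  let f : A → End K (Fin 7 → K) := fun a => Φ ((a : GL (Fin 7) F) : Matrix (Fin 7) (Fin 7) F)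
  let T : End K (Fin 7 → K) := Φ (g : Matrix (Fin 7) (Fin 7) F)
  let T' : End K (Fin 7 → K) := Φ ((g⁻¹ : GL (Fin 7) F) : Matrix (Fin 7) (Fin 7) F)
  have hcomm : ∀ a b : A, Commute (f a) (f b) := fun a b => by
    show Φ _ * Φ _ = Φ _ * Φ _
    rw [← map_mul, ← map_mul, ← Units.val_mul, ← Units.val_mul, hab _ a.2 _ b.2]
  have hmaps : ∀ (i j : A) (φ : K),
      Set.MapsTo (f i) ((f j).maxGenEigenspace φ) ((f j).maxGenEigenspace φ) :=
    fun i j φ => Module.End.mapsTo_maxGenEigenspace_of_comm (hcomm j i) φ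
  let V : (A → K) → Submodule K (Fin 7 → K) := fun χ => ⨅ a, (f a).maxGenEigenspace (χ a)
  have hind : iSupIndep V := Module.End.independent_iInf_maxGenEigenspace_of_forall_mapsTo f hmaps
  have htop : ⨆ χ, V χ = ⊤ := Module.End.iSup_iInf_maxGenEigenspace_eq_top_of_forall_mapsTo f hmaps
    fun a => Module.End.iSup_maxGenEigenspace_eq_top (f a)
  have hsemi : ∀ (a : A) (μ : K), (f a).maxGenEigenspace μ = (f a).eigenspace μ := by
    intro a μ
    obtain ⟨m, hm, ham⟩ := hss _ a.2
    refine Module.End.IsFinitelySemisimple.maxGenEigenspace_eq_eigenspace ?_ μ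
    refine Module.End.IsSemisimple.isFinitelySemisimple ?_
    refine Module.End.isSemisimple_of_squarefree_aeval_eq_zero
      (p := Polynomial.X ^ m - Polynomial.C (1 : K)) ?_ ?_
    · exact (Polynomial.separable_X_pow_sub_C (1 : K)
        (by simpa using (map_ne_zero (algebraMap F K)).2 hm) one_ne_zero).squarefree
    · rw [map_sub, map_pow, Polynomial.aeval_X, Polynomial.aeval_C, map_one, sub_eq_zero]
      show Φ _ ^ m = 1
      rw [← map_pow, ← Units.val_pow_eq_pow_val, ham, Units.val_one, map_one]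
  have hmem : ∀ χ (w : Fin 7 → K), w ∈ V χ ↔ ∀ a : A, f a w = χ a • w := by
    intro χ w
    simp only [V, Submodule.mem_iInf, hsemi, Module.End.mem_eigenspace_iff]
  let σ : A → A := fun a => ⟨g⁻¹ * a * g, hn _ a.2⟩
  let τ : (A → K) → (A → K) := fun χ a => χ (σ a)
  have hT : ∀ χ w, w ∈ V χ → T w ∈ V (τ χ) := by
    intro χ w hw
    rw [hmem] at hw ⊢
    intro a
    have h1 : f a * T = T * f (σ a) := by
      show Φ _ * Φ _ = Φ _ * Φ _
      rw [← map_mul, ← map_mul, ← Units.val_mul, ← Units.val_mul]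
      simp [σ, mul_assoc]
    have h2 := congrArg (fun L : End K (Fin 7 → K) => L w) h1
    simp only [Module.End.mul_apply] at h2
    rw [h2, hw (σ a), map_smul]
  have hTinj : Function.Injective T := by
    intro x y h
    have h1 : T' * T = 1 := by
      show Φ _ * Φ _ = 1
      rw [← map_mul, ← Units.val_mul, inv_mul_cancel, Units.val_one, map_one]
    have h2 := congrArg T' h
    rwa [← Module.End.mul_apply, ← Module.End.mul_apply, h1, Module.End.one_apply,
      Module.End.one_apply] at h2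
  have hstep : ∀ χ, V χ ≠ ⊥ → V (τ χ) ≠ ⊥ := by
    intro χ h
    obtain ⟨w, hw, hw0⟩ := Submodule.exists_mem_ne_zero_of_ne_bot h
    refine (Submodule.ne_bot_iff _).2 ⟨T w, hT χ w hw, fun h0 => hw0 (hTinj ?_)⟩
    rw [h0, map_zero]
  have hiter : ∀ (k : ℕ) χ (a : A), τ^[k] χ a =
      χ ((σ^[k]) a) := by
    intro k
    induction k with
    | zero => intro χ a; rfl
    | succ k ih =>
      intro χ a
      rw [Function.iterate_succ_apply, ih, Function.iterate_succ_apply']
  have hσ : ∀ (k : ℕ) (a : A), (((σ^[k]) a : A) : GL (Fin 7) F) = (g ^ k)⁻¹ * a * g ^ k := by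
    intro k
    induction k with
    | zero => intro a; simp
    | succ k ih =>
      intro a
      rw [Function.iterate_succ_apply']
      show g⁻¹ * _ * g = _
      rw [ih, pow_succ, _root_.mul_inv_rev]
      simp [mul_assoc]
  have hper : ∀ χ, τ^[7] χ = χ := fun χ => funext fun a => by
    rw [hiter]
    exact congrArg χ (Subtype.ext (by rw [hσ, hg]; simp))
  -- the trivial character occurs
  let w₀ : Fin 7 → K := fun i => ι (v i)
  have hw₀ : w₀ ∈ V (fun _ => 1) := by
    rw [hmem]
    intro a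
    rw [one_smul]
    funext i
    show ((((a : GL (Fin 7) F) : Matrix _ _ F).map ι) *ᵥ w₀) i = w₀ i
    rw [show w₀ = ι ∘ v from rfl, ← RingHom.map_mulVec, congrFun (hfix _ a.2) i]
    rfl
  have hV1 : V (fun _ => 1) ≠ ⊥ := (Submodule.ne_bot_iff _).2
    ⟨w₀, hw₀, fun h => hv (funext fun i => ι.injective (by
      rw [Pi.zero_apply, map_zero]; exact congrFun h i))⟩
  -- every occurring character is fixed
  have hfixχ : ∀ χ, V χ ≠ ⊥ → τ χ = χ := by
    intro χ hχ
    by_contra hne
    have hper7 : Function.minimalPeriod τ χ = 7 := by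
      rcases (Nat.dvd_prime (by norm_num : Nat.Prime 7)).1
        (Function.IsPeriodicPt.minimalPeriod_dvd (hper χ)) with h | h
      · exact absurd (Function.minimalPeriod_eq_one_iff_isFixedPt.1 h) hne
      · exact h
    have hne1 : ∀ k, V (τ^[k] χ) ≠ ⊥ := by
      intro k
      induction k with
      | zero => exact hχ
      | succ k ih => rw [Function.iterate_succ_apply']; exact hstep _ ih
    have hfin : Finite {χ // V χ ≠ ⊥} :=
      (WellFoundedGT.finite_ne_bot_of_iSupIndep hind).to_subtype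
    let e : Fin 7 ⊕ Unit → {χ // V χ ≠ ⊥} :=
      Sum.elim (fun k => ⟨τ^[(k : ℕ)] χ, hne1 _⟩) (fun _ => ⟨_, hV1⟩)
    have hone : ∀ j : ℕ, τ^[j] (fun _ => (1 : K)) = fun _ => 1 := fun j => funext fun a => by
      rw [hiter]
    have einj : Function.Injective e := by
      rintro (k | _) (l | _) h <;> simp only [e, Sum.elim_inl, Sum.elim_inr, Subtype.mk.injEq] at h
      · exact congrArg Sum.inl (Fin.ext (Function.iterate_injOn_Iio_minimalPeriod
          (show (k : ℕ) < _ by rw [hper7]; exact k.2) (show (l : ℕ) < _ by rw [hper7]; exact l.2) h))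
      · exfalso
        apply hne
        have h3 : χ = fun _ => 1 := by
          have := congrArg (τ^[7 - (k : ℕ)]) h
          rwa [← Function.iterate_add_apply, Nat.sub_add_cancel k.2.le, hper, hone] at this
        rw [h3]
        try exact hone 1
      · exfalso
        apply hne
        have h3 : χ = fun _ => 1 := by
          have := congrArg (τ^[7 - (l : ℕ)]) h.symm
          rwa [← Function.iterate_add_apply, Nat.sub_add_cancel l.2.le, hper, hone] at this
        rw [h3]
        try exact hone 1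
      · rfl
    letI := Fintype.ofFinite {χ // V χ ≠ ⊥}
    have h1 := hind.subtype_ne_bot_le_finrank
    have h2 := Fintype.card_le_of_injective e einj
    rw [Module.finrank_fin_fun] at h1
    have h3 : Fintype.card (Fin 7 ⊕ Unit) = 8 := rfl
    rw [h3] at h2
    exact absurd (h2.trans h1) (by norm_num)
  intro a ha
  have h1 : f (σ ⟨a, ha⟩) = f ⟨a, ha⟩ := by
    refine LinearMap.ext_on_range (v := fun w : {w : Fin 7 → K // ∃ χ, w ∈ V χ} => w.1) ?_ ?_
    · rw [eq_top_iff, ← htop, iSup_le_iff]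
      exact fun χ w hw => Submodule.subset_span ⟨⟨w, χ, hw⟩, rfl⟩
    · rintro ⟨w, χ, hw⟩
      by_cases hw0 : w = 0
      · simp [hw0]
      · have hχ : V χ ≠ ⊥ := (Submodule.ne_bot_iff _).2 ⟨w, hw, hw0⟩
        have h2 := congrFun (hfixχ χ hχ) ⟨a, ha⟩
        rw [hmem] at hw
        show f _ w = f _ w
        rw [hw, hw]
        exact congrArg (· • w) h2
  have h2 : g⁻¹ * a * g = a := Units.ext (Φinj h1)
  calc g * a = g * (g⁻¹ * a * g) := by rw [h2]
    _ = a * g := by simp [mul_assoc]

end Cfsg.Agent.CSixSeven
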