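import Cfsg.Agent.CSixSeven.Blocks
import Cfsg.Agent.Invol.RankOneQuot
import Cfsg.Agent.GeoClasses.Basic

/-!
# An overgroup in which the parity involution is isolated normalises the group of order 343
-/

set_option autoImplicit false
set_option linter.unusedSectionVars false

namespace Cfsg.Agent.CSixSeven

open Cfsg Cfsg.Geo Matrix
open scoped Fin.CommRing commutatorElement

section Odd

variable {G : Type*} [Group G] [Finite G]

/-- An element of an odd order normal subgroup is inverted by an involution up to an element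
centralised by it. -/
theorem exists_inverted_split {t : G} (ht : t * t = 1) (O : Subgroup G) [O.Normal]
    (hodd : Odd (Nat.card O)) {o : G} (ho : o ∈ O) :
    ∃ s v, s ∈ O ∧ v ∈ O ∧ t * s * t = s ∧ t * v * t = v⁻¹ ∧ o = s * v := by
  have htinv : t⁻¹ = t := inv_eq_of_mul_eq_one_right ht
  set u := o⁻¹ * (t * o * t) with hu
  have huO : u ∈ O := mul_mem (inv_mem ho) (by
    have h := (inferInstance : O.Normal).conj_mem o ho t
    rwa [htinv] at h)
  have huI : t * u * t = u⁻¹ := by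
    calc t * u * t = t * o⁻¹ * t * o * (t * t) := by rw [hu]; group
      _ = u⁻¹ := by rw [hu, ht]; simp only [_root_.mul_inv_rev, inv_inv, htinv, mul_one, mul_assoc]
  obtain ⟨m, hm⟩ := hodd
  have hord : u ^ (2 * m + 1) = 1 := by
    have h : (⟨u, huO⟩ : O) ^ Nat.card O = 1 := pow_card_eq_one'
    rw [hm] at h
    exact congrArg Subtype.val h
  set a := u ^ (m + 1) with ha
  have haI : t * a * t = a⁻¹ := by
    calc t * a * t = (t * u * t⁻¹) ^ (m + 1) := by rw [ha, conj_pow, htinv]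
      _ = a⁻¹ := by rw [htinv, huI, inv_pow]
  have haa : a * a = u := by
    rw [ha, ← pow_add, show m + 1 + (m + 1) = 2 * m + 1 + 1 by omega, pow_succ, hord, one_mul]
  have haO : a ∈ O := pow_mem huO _
  refine ⟨o * a, a⁻¹, mul_mem ho haO, inv_mem haO, ?_, ?_, by group⟩
  · calc t * (o * a) * t = (t * o * t) * (t * a * t) := by
          rw [show (t * o * t) * (t * a * t) = t * o * (t * t) * a * t by group, ht, mul_one]
          group
      _ = o * u * a⁻¹ := by rw [haI, hu]; group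
      _ = o * a := by rw [← haa]; group
  · have h := congrArg (fun x => x⁻¹) haI
    simp only [_root_.mul_inv_rev, htinv, inv_inv] at h
    rw [inv_inv, mul_assoc]
    exact h

/-- If the fixed points of an involution in an odd order normal subgroup lie in a central subgroup
`S`, the normal subgroup is commutative modulo `S`. -/
theorem comm_mod_central {t : G} (ht : t * t = 1) (O : Subgroup G) [O.Normal]
    (hodd : Odd (Nat.card O)) (S : Subgroup G) (hS : ∀ s ∈ S, ∀ g : G, s * g = g * s)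
    (hfix : ∀ s ∈ O, t * s * t = s → s ∈ S) {o u : G} (ho : o ∈ O) (hu : u ∈ O) :
    ∃ s ∈ S, o * u = s * (u * o) := by
  have hinv : ∀ {o : G}, o ∈ O → ∃ s ∈ S, t * o⁻¹ * t = s * o := by
    intro o ho
    obtain ⟨s, v, hs, -, hts, htv, e⟩ := exists_inverted_split ht O hodd (inv_mem ho)
    have hsS := hfix s hs hts
    refine ⟨s * s, mul_mem hsS hsS, ?_⟩
    have e' : o = v⁻¹ * s⁻¹ := by rw [← inv_inv o, e, _root_.mul_inv_rev]
    calc t * o⁻¹ * t = t * s * (t * t) * v * t := by rw [e, ht]; group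
      _ = (t * s * t) * (t * v * t) := by group
      _ = s * v⁻¹ := by rw [hts, htv]
      _ = s * s * o := by
        rw [e', mul_assoc s s, hS s hsS (v⁻¹ * s⁻¹), mul_assoc v⁻¹, inv_mul_cancel, mul_one]
  obtain ⟨a, haS, ha⟩ := hinv ho
  obtain ⟨b, hbS, hb⟩ := hinv hu
  obtain ⟨c, hcS, hc⟩ := hinv (mul_mem hu ho)
  refine ⟨(a * b)⁻¹ * c, mul_mem (inv_mem (mul_mem haS hbS)) hcS, ?_⟩
  have e : t * (u * o)⁻¹ * t = (t * o⁻¹ * t) * (t * u⁻¹ * t) := by
    calc t * (u * o)⁻¹ * t = t * o⁻¹ * (t * t) * u⁻¹ * t := by rw [ht]; group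
      _ = _ := by group
  rw [e, ha, hb, mul_assoc a, ← mul_assoc o, ← hS b hbS o, mul_assoc b, ← mul_assoc a] at hc
  rw [mul_assoc, ← hc, inv_mul_cancel_left]

end Odd

variable {F : Type*} [Field F] {ω : F}

theorem Omega.prim (hω : Omega ω) : IsPrimitiveRoot ω 7 := by
  have : Fact (Nat.Prime 7) := ⟨by norm_num⟩
  exact IsPrimitiveRoot.iff_orderOf.2 (orderOf_eq_prime hω.pow_seven hω.ne_one)

theorem exists_w (hω : Omega ω) {k : F} (hk : k ^ 7 = 1) : ∃ a : Fin 7, k = w ω a := by
  obtain ⟨i, hi, e⟩ := hω.prim.eq_pow_of_pow_eq_one hk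
  exact ⟨⟨i, hi⟩, e.symm⟩

theorem Xm_pow_apply (b : ℕ) (i j : Fin 7) :
    ((Xm : M7 F) ^ b) i j = if i = j + (b : Fin 7) then 1 else 0 := by
  induction b generalizing i j with
  | zero => simp [Matrix.one_apply]
  | succ b ih =>
    rw [pow_succ, Matrix.mul_apply, Finset.sum_eq_single (j + 1)]
    · rw [ih, Xm, Matrix.of_apply, if_pos rfl, mul_one, Nat.cast_succ]
      exact if_congr ⟨fun h => by rw [h]; ring, fun h => by rw [h]; ring⟩ rfl rfl
    · intro c _ hc
      rw [Xm, Matrix.of_apply, if_neg hc, mul_zero]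
    · simp

/-- A matrix commuting with `Ym` and `Xm` up to scalars is a scaled element of the monomial frame. -/
theorem scaled_of_comm (hω : Omega ω) {M : M7 F} (hM : M ≠ 0) {k k' : F}
    (e : M * Ym ω = k • (Ym ω * M)) (e' : M * Xm = k' • (Xm * M)) :
    ∃ (v : F) (a : Fin 7) (b : ℕ), M = v • (Dm ω (fun i => a * i) * Xm ^ b) := by
  obtain ⟨i₀, j₀, h0⟩ : ∃ i j, M i j ≠ 0 := by
    by_contra h
    push Not at h
    exact hM (Matrix.ext h)
  have hY : ∀ i j, M i j * w ω j = k * (w ω i * M i j) := fun i j => by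
    have := congrFun (congrFun e i) j
    simpa [Ym, Dm, Matrix.mul_diagonal, Matrix.diagonal_mul] using this
  have hX : ∀ i j, M (i + 1) (j + 1) = k' * M i j := fun i j => by
    have := congrFun (congrFun e' (i + 1)) j
    rw [Matrix.mul_apply, Finset.sum_eq_single (j + 1), Matrix.smul_apply, Matrix.mul_apply,
      Finset.sum_eq_single i] at this
    · simpa [Xm] using this
    · intro c _ hc
      rw [Xm, Matrix.of_apply, if_neg (fun h => hc (add_right_cancel h).symm), zero_mul]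
    · simp
    · intro c _ hc
      rw [Xm, Matrix.of_apply, if_neg hc, mul_zero]
    · simp
  set d := i₀ - j₀ with hd
  have hkw : k * w ω d = 1 := by
    have h := hY i₀ j₀
    rw [show w ω i₀ = w ω d * w ω j₀ by rw [← w_add hω, hd, sub_add_cancel]] at h
    refine mul_right_cancel₀ (mul_ne_zero (w_ne_zero hω j₀) h0) ?_
    linear_combination -h
  have hsupp : ∀ i j, i ≠ j + d → M i j = 0 := by
    intro i j hij
    by_contra hne
    refine hij ?_
    have h := hY i j
    have h' : w ω j * w ω d = w ω i := by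
      refine mul_right_cancel₀ hne ?_
      linear_combination (w ω d) * h + (w ω i * M i j) * hkw
    rw [← w_add hω] at h'
    exact (w_inj hω h').symm
  set v0 := M d 0 with hv0
  have hv : ∀ n : ℕ, M ((n : Fin 7) + d) (n : Fin 7) = k' ^ n * v0 := by
    intro n
    induction n with
    | zero => simp [hv0]
    | succ n ih =>
      rw [Nat.cast_succ, show (n : Fin 7) + 1 + d = (n : Fin 7) + d + 1 by ring, hX, ih, pow_succ]
      ring
  have hv0ne : v0 ≠ 0 := by
    intro h
    refine h0 ?_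
    have := hv j₀.val
    rwa [Fin.cast_val_eq_self, show j₀ + d = i₀ by rw [hd]; ring, h, mul_zero] at this
  have hk7 : k' ^ 7 = 1 := by
    have h := hv 7
    rw [show ((7 : ℕ) : Fin 7) = 0 from rfl, zero_add] at h
    exact mul_right_cancel₀ hv0ne (by rw [← h, one_mul])
  obtain ⟨a, rfl⟩ := exists_w hω hk7
  have hwpow : ∀ n : ℕ, w ω a ^ n = w ω (a * (n : Fin 7)) := by
    intro n
    induction n with
    | zero => simp [w]
    | succ n ih => rw [pow_succ, ih, ← w_add hω, Nat.cast_succ, mul_add, mul_one]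
  refine ⟨v0 * w ω (-(a * d)), a, d.val, Matrix.ext fun i j => ?_⟩
  rw [Matrix.smul_apply, Dm, Matrix.diagonal_mul, Xm_pow_apply, Fin.cast_val_eq_self, smul_eq_mul]
  by_cases hij : i = j + d
  · subst hij
    rw [if_pos rfl, mul_one]
    have := hv j.val
    rw [Fin.cast_val_eq_self] at this
    rw [this, hwpow, Fin.cast_val_eq_self, mul_assoc, ← w_add hω, mul_comm]
    congr 2
    ring
  · rw [if_neg hij, mul_zero, mul_zero, hsupp i j hij]

theorem det_Dm_linear (hω : Omega ω) (a : Fin 7) : Matrix.det (Dm ω fun i => a * i) = 1 := by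
  rw [Dm, Matrix.det_diagonal, Fin.prod_univ_seven]
  simp only [← w_add hω]
  rw [show a * 0 + a * 1 + a * 2 + a * 3 + a * 4 + a * 5 + a * 6 = 0 by revert a; decide]
  simp [w]

theorem Zm_mul_apply (M : M7 F) (i j : Fin 7) : ((Zm : M7 F) * M) i j = -M (-i) j := by
  rw [Matrix.mul_apply, Finset.sum_eq_single (-i)]
  · simp [Zm]
  · intro b _ hb
    rw [Zm, Matrix.of_apply, if_neg (fun h => hb (by rw [h, neg_neg])), zero_mul]
  · simp

theorem mul_Zm_apply (M : M7 F) (i j : Fin 7) : (M * (Zm : M7 F)) i j = -M i (-j) := by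
  rw [Matrix.mul_apply, Finset.sum_eq_single (-j)]
  · simp [Zm]
  · intro b _ hb
    rw [Zm, Matrix.of_apply, if_neg hb, mul_zero]
  · simp

theorem Zm_sq : (Zm : M7 F) * Zm = 1 := by
  ext i j
  rw [Zm_mul_apply, Zm, Matrix.of_apply, Matrix.one_apply]
  by_cases h : i = j <;> simp [h, neg_inj]

theorem Zm_ne_one : (Zm : M7 F) ≠ 1 := by
  intro h
  have := congrFun (congrFun h 1) 1
  simp [Zm, show (1 : Fin 7) ≠ -1 from by decide] at this

/-- `Zm` inverts the diagonal generator. -/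
theorem Ym_Zm_inv (hω : Omega ω) : (Zm : M7 F) * Ym ω * Zm * Ym ω = (1 : M7 F) := by
  ext i j
  rw [Ym, Dm, Matrix.mul_diagonal, mul_Zm_apply, Matrix.mul_diagonal, Zm, Matrix.of_apply,
    Matrix.one_apply]
  by_cases h : i = j
  · subst h
    simp only [neg_neg, if_true]
    simp only [one_mul, neg_mul, neg_neg]
    rw [← w_add hω]
    simp [w]
  · simp [h, neg_neg]

/-- `Zm` inverts the shift. -/
theorem Xm_Zm_inv : (Zm : M7 F) * Xm * Zm * Xm = (1 : M7 F) := by
  ext i j
  rw [Matrix.mul_apply, Finset.sum_eq_single (j + 1)]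
  · rw [mul_Zm_apply, Zm_mul_apply, neg_neg, Xm, Matrix.of_apply, Matrix.of_apply, if_pos rfl,
      mul_one, Matrix.one_apply]
    exact if_congr ⟨fun h => by linear_combination -h, fun h => by rw [h]; ring⟩ rfl rfl
  · intro b _ hb
    rw [Xm, Matrix.of_apply, if_neg hb, mul_zero]
  · simp

variable [Finite F] {X : Subgroup (GL (Fin 7) F)}

/-- If the parity involution is the only involution of its centraliser and the odd normal subgroups
of that centraliser are scalar, the overgroup normalises the group of order 343. -/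
theorem normR_of_uniq (hG : Gen ω X) (hu : Uniq X)
    (hO : ∀ N ≤ Kz X, Odd (Nat.card N) → (∀ k ∈ Kz X, ∀ n ∈ N, k * n * k⁻¹ ∈ N) →
      N ≤ scalars (Fin 7) F) :
    ∀ h ∈ X, NormR ω (h : M7 F) := by
  have : Fact (Nat.Prime 2) := ⟨Nat.prime_two⟩
  have hω := hG.omega
  obtain ⟨tz, htX, etz⟩ := hG.z
  obtain ⟨gy, hyX, ey⟩ := hG.y
  obtain ⟨gx, hxX, ex⟩ := hG.x
  set t : X := ⟨tz, htX⟩ with ht
  have htt : t * t = 1 := Subtype.ext (Units.ext (by simp [ht, etz, Zm_sq]))
  have ht2 : orderOf t = 2 := by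
    refine orderOf_eq_prime (by rw [pow_two, htt]) fun h => ?_
    have h' : (tz : M7 F) = 1 := by
      rw [show tz = 1 from congrArg Subtype.val h, Units.val_one]
    exact Zm_ne_one (etz ▸ h')
  have hiso : Invol.IsIsolatedInv t := by
    refine ⟨ht2, fun g hg => Subtype.ext (Units.ext ?_)⟩
    have h2 : orderOf (((g * t * g⁻¹ : X)) : GL (Fin 7) F) = 2 := by
      rw [Subgroup.orderOf_coe, ← ht2, ← MulEquiv.orderOf_eq (MulAut.conj g) t, MulAut.conj_apply]
    have hk : ((g * t * g⁻¹ : X) : GL (Fin 7) F) ∈ Kz X := by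
      refine ⟨(g * t * g⁻¹).2, ?_⟩
      have := congrArg (fun x : X => ((x : GL (Fin 7) F) : M7 F)) hg.eq
      show _ * _ = _ * _
      simpa [ht, etz] using this
    rw [hu _ hk h2]
    exact etz.symm
  set O := pPrimeCore 2 X with hOdef
  have hodd : Odd (Nat.card O) :=
    Nat.odd_iff.2 (Nat.two_dvd_ne_zero.1 Cores.not_dvd_card_pPrimeCore)
  have hcomm : ∀ g : X, ⁅t, g⁆ ∈ O := fun g => Invol.zStar_theorem X t hiso g
  have htinv : t⁻¹ = t := inv_eq_of_mul_eq_one_right htt
  -- the generators lie in the core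
  have hmem : ∀ g : X, g ^ 7 = 1 → t * g * t * g = 1 → g ∈ O := by
    intro g h7 hinv
    have e : ⁅t, g⁆ = (g ^ 2)⁻¹ := by
      rw [commutatorElement_def, htinv, pow_two, _root_.mul_inv_rev,
        show t * g * t = g⁻¹ from eq_inv_of_mul_eq_one_left hinv]
    have h2 : g ^ 2 ∈ O := inv_mem_iff.1 (e ▸ hcomm g)
    have h8 : g = (g ^ 2) ^ 4 := by rw [← pow_mul, pow_succ, h7, one_mul]
    rw [h8]
    exact pow_mem h2 4
  have hpow7 : ∀ (g : GL (Fin 7) F), (g : M7 F) ^ 7 = 1 → g ^ 7 = 1 := fun g h =>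
    Units.ext (by rw [Units.val_pow_eq_pow_val, h, Units.val_one])
  set y : X := ⟨gy, hyX⟩ with hy
  set x : X := ⟨gx, hxX⟩ with hx
  have hyO : y ∈ O := by
    refine hmem y (Subtype.ext (hpow7 gy ?_)) (Subtype.ext (Units.ext ?_))
    · rw [ey, Ym, Dm, Matrix.diagonal_pow, ← Matrix.diagonal_one]
      congr 1; funext i
      show w ω i ^ 7 = 1
      rw [w, ← pow_mul, mul_comm, pow_mul, hω.pow_seven, one_pow]
    · simp [ht, hy, etz, ey, Ym_Zm_inv hω]
  have hxO : x ∈ O := by
    refine hmem x (Subtype.ext (hpow7 gx ?_)) (Subtype.ext (Units.ext ?_))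
    · rw [ex]
      ext i j
      rw [Xm_pow_apply, Matrix.one_apply, show ((7 : ℕ) : Fin 7) = 0 from rfl, add_zero]
    · simp [ht, hx, etz, ex, Xm_Zm_inv]
  -- the fixed points of `t` in the core are scalar
  set S : Subgroup X := (scalars (Fin 7) F).subgroupOf X with hSdef
  have hS : ∀ s ∈ S, ∀ g : X, s * g = g * s := by
    intro s hs g
    obtain ⟨c, hc⟩ := (mem_scalars_iff _).1 (Subgroup.mem_subgroupOf.1 hs)
    refine Subtype.ext (Units.ext ?_)
    rw [Subgroup.coe_mul, Subgroup.coe_mul, Units.val_mul, Units.val_mul, hc, Matrix.smul_mul,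
      Matrix.one_mul, Matrix.mul_smul, Matrix.mul_one]
  have hfix : ∀ s ∈ O, t * s * t = s → s ∈ S := by
    intro s hs hts
    have hN : O.map X.subtype ⊓ Kz X ≤ scalars (Fin 7) F := by
      refine hO _ inf_le_right ?_ ?_
      · refine hodd.of_dvd_nat ?_
        rw [← Subgroup.card_subtype]
        exact Subgroup.card_dvd_of_le inf_le_left
      · intro k hk n hn
        obtain ⟨⟨n', hn', e'⟩, hnk⟩ := hn
        refine ⟨⟨⟨k, hk.1⟩ * n' * ⟨k, hk.1⟩⁻¹, (inferInstance : O.Normal).conj_mem n' hn' _, ?_⟩,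
          (Kz X).mul_mem ((Kz X).mul_mem hk hnk) ((Kz X).inv_mem hk)⟩
        rw [← e', map_mul, map_mul, map_inv]
        rfl
    have hsk : (s : GL (Fin 7) F) ∈ Kz X := by
      refine ⟨s.2, ?_⟩
      have h : s * t = t * s := by
        calc s * t = t * s * t * t := by rw [hts]
          _ = t * s := by rw [mul_assoc (t * s), htt, mul_one]
      have := congrArg (fun x : X => ((x : GL (Fin 7) F) : M7 F)) h
      simp only [Subgroup.coe_mul, Units.val_mul, ht, etz] at this
      exact this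
    exact Subgroup.mem_subgroupOf.2 (hN ⟨⟨s, hs, rfl⟩, hsk⟩)
  -- members of the core commute up to scalars
  have hab : ∀ o ∈ O, ∀ u ∈ O, ∃ k : F, ((o : GL (Fin 7) F) : M7 F) * ((u : GL (Fin 7) F) : M7 F) =
      k • (((u : GL (Fin 7) F) : M7 F) * ((o : GL (Fin 7) F) : M7 F)) := by
    intro o ho u hu
    obtain ⟨s, hs, e⟩ := comm_mod_central htt O hodd S hS hfix ho hu
    obtain ⟨c, hc⟩ := (mem_scalars_iff _).1 (Subgroup.mem_subgroupOf.1 hs)
    refine ⟨c, ?_⟩
    rw [← Units.val_mul, ← Units.val_mul, ← Subgroup.coe_mul, ← Subgroup.coe_mul, e, Subgroup.coe_mul,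
      Units.val_mul, hc, Matrix.smul_mul, Matrix.one_mul]
  have hR : ∀ o ∈ O, InR ω ((o : GL (Fin 7) F) : M7 F) := by
    intro o ho
    obtain ⟨k, hk⟩ := hab o ho y hyO
    obtain ⟨k', hk'⟩ := hab o ho x hxO
    simp only [hy, hx, ey, ex] at hk hk'
    obtain ⟨v, a, b, hv⟩ := scaled_of_comm hω (o : GL (Fin 7) F).ne_zero hk hk'
    have hdo : Matrix.det ((o : GL (Fin 7) F) : M7 F) = 1 :=
      GeoClasses.mem_specialLinear_iff.1 (hG.le_sl o.2)
    have hdx : Matrix.det (Xm : M7 F) = 1 := ex ▸ GeoClasses.mem_specialLinear_iff.1 (hG.le_sl hxX)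
    rw [hv, Matrix.det_smul, Matrix.det_mul, Matrix.det_pow, hdx, det_Dm_linear hω, one_pow,
      mul_one, mul_one, Fintype.card_fin] at hdo
    obtain ⟨c, rfl⟩ := exists_w hω hdo
    exact ⟨c, a, b, hv⟩
  intro h hh
  set g : X := ⟨h, hh⟩ with hg
  have hn : ∀ o ∈ O, InR ω ((g * o * g⁻¹ : X) : GL (Fin 7) F).val := fun o ho =>
    hR _ ((inferInstance : O.Normal).conj_mem o ho g)
  refine ⟨_, _, hn y hyO, hn x hxO, ?_, ?_⟩
  · rw [← ey, ← Units.val_mul, ← Units.val_mul]
    congr 1
    simp [hg, hy, mul_assoc]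
  · rw [← ex, ← Units.val_mul, ← Units.val_mul]
    congr 1
    simp [hg, hx, mul_assoc]

end Cfsg.Agent.CSixSeven
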