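import Cfsg.Agent.OddPre.CentralTransfer
import Mathlib.LinearAlgebra.Matrix.GeneralLinearGroup.Defs
import Mathlib.LinearAlgebra.Matrix.NonsingularInverse
import Mathlib.GroupTheory.Perm.Cycle.Type
import Mathlib.GroupTheory.IndexNormal
import Mathlib.Tactic.LinearCombination
import Mathlib.Tactic.Module

/-!
# Involutions of a double cover of a 3-dimensional linear group without subgroups of index two

If the image of `π : K → GL₃` has no subgroup of index two, its involutions have determinant one,
so each fixes a single line, and a transfer into the character of a Sylow 2-subgroup on the line of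
a central involution shows that they are all conjugate.  A kernel `{1, j²}` then carries the only
involution of `K`.
-/

set_option autoImplicit false
set_option linter.style.haveILetI false

namespace Cfsg.Agent.CSixSeven.Transfer

open Matrix MulAction

variable {F : Type*} [Field F]

/-- An involutory matrix of determinant one and odd size three fixes a non-zero vector. -/
theorem exists_fixed (h2 : (2 : F) ≠ 0) {A : Matrix (Fin 3) (Fin 3) F} (hA : A * A = 1)
    (hd : A.det = 1) : ∃ v : Fin 3 → F, v ≠ 0 ∧ A *ᵥ v = v := by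
  by_contra! hcon
  have hneg : A = -1 := by
    refine Matrix.ext_of_mulVec_single fun i => ?_
    have h0 : Pi.single i (1 : F) + A *ᵥ Pi.single i 1 = 0 := by
      by_contra h
      refine hcon _ h ?_
      rw [Matrix.mulVec_add, Matrix.mulVec_mulVec, hA, Matrix.one_mulVec, add_comm]
    rw [Matrix.neg_mulVec, Matrix.one_mulVec]
    exact eq_neg_of_add_eq_zero_right h0
  rw [hneg, Matrix.det_neg, Matrix.det_one, mul_one, Fintype.card_fin] at hd
  exact h2 (by linear_combination -hd)

/-- The fixed space of such a matrix is a line, unless it is the identity. -/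
theorem fixed_line (h2 : (2 : F) ≠ 0) {A : Matrix (Fin 3) (Fin 3) F} (hA : A * A = 1)
    (hd : A.det = 1) (hne : A ≠ 1) {v u : Fin 3 → F} (hv0 : v ≠ 0) (hv : A *ᵥ v = v)
    (hu : A *ᵥ u = u) : ∃ t : F, u = t • v := by
  by_contra! hcon
  obtain ⟨x, hx⟩ : ∃ x, A *ᵥ x ≠ x := by
    by_contra! h
    exact hne (Matrix.ext_of_mulVec_single fun i => by rw [h, Matrix.one_mulVec])
  set w : Fin 3 → F := x - A *ᵥ x with hw
  have hw0 : w ≠ 0 := sub_ne_zero.2 (Ne.symm hx)
  have hAw : A *ᵥ w = -w := by
    rw [hw, Matrix.mulVec_sub, Matrix.mulVec_mulVec, hA, Matrix.one_mulVec, neg_sub]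
  set M : Matrix (Fin 3) (Fin 3) F := Matrix.of ![v, u, w] with hM
  have hli : LinearIndependent F M.row := by
    rw [Fintype.linearIndependent_iff]
    intro c hc
    have h1 : c 0 • v + c 1 • u + c 2 • w = 0 := by simpa [hM, Fin.sum_univ_three] using hc
    have h3 : c 0 • v + c 1 • u + c 2 • -w = 0 := by
      simpa [Matrix.mulVec_add, Matrix.mulVec_smul, hv, hu, hAw] using congrArg (A *ᵥ ·) h1
    have h4 : (2 * c 2) • w = 0 := by linear_combination (norm := module) h1 - h3
    have hc2 : c 2 = 0 := by simpa [h2, hw0] using h4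
    rw [hc2, zero_smul, add_zero] at h1
    have hc1 : c 1 = 0 := by
      by_contra h
      refine hcon (-(c 0) / c 1) ?_
      have : c 1 • u = -(c 0) • v := by linear_combination (norm := module) h1
      rw [div_eq_inv_mul, ← smul_smul, ← this, inv_smul_smul₀ h]
    rw [hc1, zero_smul, add_zero] at h1
    have hc0 : c 0 = 0 := by simpa [hv0] using h1
    intro i
    fin_cases i <;> assumption
  have hMd : M.det ≠ 0 :=
    ((Matrix.isUnit_iff_isUnit_det M).1 (Matrix.linearIndependent_rows_iff_isUnit.1 hli)).ne_zero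
  have hMA : M * A.transpose = Matrix.diagonal ![(1 : F), 1, -1] * M := by
    refine Matrix.ext fun i k => ?_
    have h : (M * A.transpose) i k = (A *ᵥ M i) k := by
      simp only [Matrix.mul_apply, Matrix.mulVec, dotProduct, Matrix.transpose_apply]
      exact Finset.sum_congr rfl fun l _ => mul_comm _ _
    rw [h, Matrix.diagonal_mul]
    fin_cases i
    · show (A *ᵥ v) k = (1 : F) * v k
      rw [hv, one_mul]
    · show (A *ᵥ u) k = (1 : F) * u k
      rw [hu, one_mul]
    · show (A *ᵥ w) k = (-1 : F) * w k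
      rw [hAw, neg_one_mul]; rfl
  have h := congrArg Matrix.det hMA
  rw [Matrix.det_mul, Matrix.det_mul, Matrix.det_transpose, hd, Matrix.det_diagonal,
    Fin.prod_univ_three] at h
  simp at h
  exact mul_ne_zero h2 hMd (by linear_combination h)

/-- Transfer of an involution: only the fixed cosets contribute. -/
theorem transfer_involution {G : Type*} [Group G] [Finite G] [DecidableEq G] {H : Subgroup G}
    [Fintype (G ⧸ H)] [DecidableEq (G ⧸ H)] {A : Type*} [CommGroup A] (φ : H →* A) {y : G}
    (hy : y * y = 1) {F₀ : A} (hF : ∀ (x : G) (hx : x⁻¹ * y * x ∈ H), φ ⟨x⁻¹ * y * x, hx⟩ = F₀) :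
    MonoidHom.transfer φ y = F₀ ^ (Finset.univ.filter fun q : G ⧸ H => y • q = q).card := by
  let T : H.LeftTransversal :=
    ⟨Set.range Quotient.out, Subgroup.isComplement_range_left (fun q => QuotientGroup.out_eq' q)⟩
  have hα : ∀ q : G ⧸ H, (T.2.leftQuotientEquiv q : G) = q.out := fun q =>
    Subgroup.IsComplement.leftQuotientEquiv_apply (fun q => QuotientGroup.out_eq' q) q
  have hβ : ∀ q : G ⧸ H, ((y • T).2.leftQuotientEquiv q : G) = y * (y • q).out := by
    intro q
    have h := Subgroup.smul_leftQuotientEquiv y T (y • q)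
    rw [smul_smul, hy, one_smul, hα] at h
    exact h.symm
  have hm : ∀ q : G ⧸ H, (q.out)⁻¹ * y * (y • q).out ∈ H := by
    intro q
    rw [mul_assoc, ← QuotientGroup.eq, QuotientGroup.out_eq']
    calc q = y • (y • q) := by rw [smul_smul, hy, one_smul]
      _ = y • ((y • q).out : G ⧸ H) := by rw [QuotientGroup.out_eq']
      _ = _ := rfl
  let f : G ⧸ H → A := fun q => φ ⟨_, hm q⟩
  have htr : MonoidHom.transfer φ y = ∏ q, f q := by
    rw [MonoidHom.transfer_def φ T, Subgroup.leftTransversals.diff]
    refine Finset.prod_congr (Finset.ext fun q => by simp) fun q _ => ?_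
    refine congrArg φ (Subtype.ext ?_)
    change (T.2.leftQuotientEquiv q : G)⁻¹ * ((y • T).2.leftQuotientEquiv q : G) = _
    rw [hα, hβ]
    exact (mul_assoc _ _ _).symm
  have hff : ∀ q, f q * f (y • q) = 1 := by
    intro q
    simp only [f, ← map_mul]
    refine (congrArg φ (Subtype.ext ?_)).trans (map_one φ)
    change q.out⁻¹ * y * (y • q).out * ((y • q).out⁻¹ * y * (y • (y • q)).out) = 1
    rw [smul_smul, hy, one_smul]
    calc q.out⁻¹ * y * (y • q).out * ((y • q).out⁻¹ * y * q.out)
        = q.out⁻¹ * (y * y) * q.out := by group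
      _ = 1 := by rw [hy]; group
  rw [htr, ← Finset.prod_filter_mul_prod_filter_not Finset.univ (fun q : G ⧸ H => y • q = q)]
  have hout : ∏ q ∈ Finset.univ.filter (fun q : G ⧸ H => ¬ y • q = q), f q = 1 := by
    refine Finset.prod_involution (fun q _ => y • q) (fun q _ => hff q)
      (fun q hq _ => (Finset.mem_filter.mp hq).2) (fun q hq => ?_) (fun q _ => ?_)
    · simp only [Finset.mem_filter, Finset.mem_univ, true_and, smul_smul, hy, one_smul]
      exact fun h => (Finset.mem_filter.mp hq).2 h.symm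
    · rw [smul_smul, hy, one_smul]
  rw [hout, mul_one, ← Finset.prod_const]
  refine Finset.prod_congr rfl fun q hq => ?_
  have hq' : y • q = q := (Finset.mem_filter.mp hq).2
  have hx : q.out⁻¹ * y * q.out ∈ H := by have := hm q; rwa [hq'] at this
  rw [← hF q.out hx]
  exact congrArg φ (Subtype.ext (by simp only [hq']))

/-- The involutions of a finite subgroup of `GL₃` without a subgroup of index two are conjugate. -/
theorem involutions_conj {P : Type*} [Group P] [Finite P] (h2 : (2 : F) ≠ 0)
    (ρ : P →* GL (Fin 3) F) (hρ : Function.Injective ρ) (hP : ∀ H : Subgroup P, H.index ≠ 2)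
    {a b : P} (ha : orderOf a = 2) (hb : orderOf b = 2) : IsConj a b := by
  classical
  haveI : Fact (Nat.Prime 2) := ⟨Nat.prime_two⟩
  let m : P →* Matrix (Fin 3) (Fin 3) F := (Units.coeHom _).comp ρ
  have hm : Function.Injective m := fun x y h => hρ (Units.ext h)
  have sq : ∀ {x : P}, orderOf x = 2 → x * x = 1 := fun h => by
    rw [← pow_two, ← h, pow_orderOf_eq_one]
  have noHom : ∀ (V : P →* Fˣ) {x : P}, orderOf x = 2 → V x = 1 := by
    intro V x hx
    by_contra h
    obtain ⟨H, hH⟩ := OddPre.CentralTransfer.exists_index_two_of_hom V h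
      (by rw [← map_mul, sq hx, map_one])
    exact hP H hH
  have hdet : ∀ {x : P}, orderOf x = 2 → (m x).det = 1 := fun {x} hx =>
    congrArg Units.val (noHom ((Matrix.GeneralLinearGroup.det).comp ρ) hx)
  have hmm : ∀ {x : P}, orderOf x = 2 → m x * m x = 1 := fun {x} hx => by
    rw [← map_mul, sq hx, map_one]
  have hne : ∀ {x : P}, orderOf x = 2 → m x ≠ 1 := fun {x} hx h => by
    rw [hm (h.trans (map_one m).symm), orderOf_one] at hx; omega
  have act : ∀ (x y : P) (v : Fin 3 → F), m (x * y) *ᵥ v = m x *ᵥ (m y *ᵥ v) := fun x y v => by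
    rw [map_mul, Matrix.mulVec_mulVec]
  let T : Sylow 2 P := default
  obtain ⟨c, hcT, hc2, hcc⟩ : ∃ c : P, c ∈ (T : Subgroup P) ∧ orderOf c = 2 ∧
      ∀ t ∈ (T : Subgroup P), Commute c t := by
    have h2T : 2 ∣ Nat.card (T : Subgroup P) :=
      T.dvd_card_of_dvd_card (by rw [← ha]; exact orderOf_dvd_natCard a)
    haveI : Nontrivial (T : Subgroup P) := by
      rw [← Finite.one_lt_card_iff_nontrivial]; exact Nat.le_of_dvd Nat.card_pos h2T
    haveI := T.isPGroup'.center_nontrivial
    obtain ⟨k, hk⟩ := (T.isPGroup'.to_subgroup (Subgroup.center (T : Subgroup P))).exists_card_eq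
    have hk0 : k ≠ 0 := fun h => by
      have := Finite.one_lt_card (α := Subgroup.center (T : Subgroup P))
      rw [hk, h] at this; simp at this
    obtain ⟨⟨c, hc⟩, ho⟩ := exists_prime_orderOf_dvd_card'
      (G := Subgroup.center (T : Subgroup P)) 2 (hk ▸ dvd_pow_self 2 hk0)
    refine ⟨c, c.2, (Subgroup.orderOf_coe c).trans ((Subgroup.orderOf_mk _ _).symm.trans ho),
      fun t ht => ?_⟩
    exact congrArg Subtype.val ((Subgroup.mem_center_iff.1 hc ⟨t, ht⟩).symm)
  obtain ⟨v, hv0, hv⟩ := exists_fixed h2 (hmm hc2) (hdet hc2)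
  have line : ∀ t : (T : Subgroup P), ∃ s : F, m t *ᵥ v = s • v := fun t =>
    fixed_line h2 (hmm hc2) (hdet hc2) (hne hc2) hv0 hv
      (by rw [← act, (hcc t t.2).eq, act, hv])
  choose s hs using line
  have cancel : ∀ {p q : F}, p • v = q • v → p = q := fun h => by
    by_contra hpq
    exact hv0 ((smul_eq_zero.1 (by rw [sub_smul, h, sub_self] : (_ - _) • v = 0)).resolve_left
      (sub_ne_zero.2 hpq))
  let χ₀ : (T : Subgroup P) →* F :=
    { toFun := s
      map_one' := cancel (by rw [← hs, OneMemClass.coe_one, map_one, Matrix.one_mulVec, one_smul])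
      map_mul' := fun x y => cancel (by
        rw [← hs, Subgroup.coe_mul, act, hs, Matrix.mulVec_smul, hs, smul_smul, mul_comm]) }
  let χ : (T : Subgroup P) →* Fˣ := χ₀.toHomUnits
  have only : ∀ t : (T : Subgroup P), orderOf (t : P) = 2 → χ t = 1 → (t : P) = c := by
    intro t ht h1
    have htv : m t *ᵥ v = v := by
      have hs1 : s t = 1 := congrArg Units.val h1
      rw [hs, hs1, one_smul]
    refine hm (Matrix.ext_of_mulVec_single fun i => ?_)
    set x : Fin 3 → F := Pi.single i 1
    obtain ⟨r, hr⟩ := fixed_line h2 (hmm hc2) (hdet hc2) (hne hc2) hv0 hv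
      (u := x + m c *ᵥ x) (by rw [Matrix.mulVec_add, Matrix.mulVec_mulVec, hmm hc2,
        Matrix.one_mulVec, add_comm])
    set q : Fin 3 → F := x - m c *ᵥ x with hq
    have hcq : m c *ᵥ q = -q := by
      rw [hq, Matrix.mulVec_sub, Matrix.mulVec_mulVec, hmm hc2, Matrix.one_mulVec, neg_sub]
    obtain ⟨r', hr'⟩ := fixed_line h2 (hmm ht) (hdet ht) (hne ht) hv0 htv
      (u := q + m t *ᵥ q) (by rw [Matrix.mulVec_add, Matrix.mulVec_mulVec, hmm ht,
        Matrix.one_mulVec, add_comm])
    have hneg : m c *ᵥ (r' • v) = -(r' • v) := by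
      rw [← hr', Matrix.mulVec_add, hcq, ← act, (hcc t t.2).eq, act, hcq, Matrix.mulVec_neg,
        neg_add]
    rw [Matrix.mulVec_smul, hv] at hneg
    have h0 : r' • v = 0 := by
      have h : (2 : F) • (r' • v) = 0 := by linear_combination (norm := module) hneg
      exact (smul_eq_zero.1 h).resolve_left h2
    have htq : m t *ᵥ q = -q := eq_neg_of_add_eq_zero_right (hr'.trans h0)
    have htp : m t *ᵥ (x + m c *ᵥ x) = x + m c *ᵥ x := by rw [hr, Matrix.mulVec_smul, htv]
    have h : (2 : F) • (m t *ᵥ x) = (2 : F) • (m c *ᵥ x) := by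
      rw [hq, Matrix.mulVec_sub] at htq
      rw [Matrix.mulVec_add] at htp
      linear_combination (norm := module) htp + htq
    exact smul_right_injective _ h2 h
  have conjc : ∀ {r : P}, orderOf r = 2 → IsConj r c := by
    intro r hr
    by_contra hcon
    haveI : Fintype (P ⧸ (T : Subgroup P)) := Fintype.ofFinite _
    have hF : ∀ (x : P) (hx : x⁻¹ * r * x ∈ (T : Subgroup P)),
        χ ⟨x⁻¹ * r * x, hx⟩ = -1 := by
      intro x hx
      have ho : orderOf (x⁻¹ * r * x) = 2 := by
        have h := MulEquiv.orderOf_eq (MulAut.conj x⁻¹) r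
        rw [MulAut.conj_apply, inv_inv] at h
        exact h.trans hr
      have hsq : χ ⟨x⁻¹ * r * x, hx⟩ * χ ⟨x⁻¹ * r * x, hx⟩ = 1 := by
        rw [← map_mul, show (⟨_, hx⟩ : (T : Subgroup P)) * ⟨_, hx⟩ = 1 from Subtype.ext (sq ho),
          map_one]
      rcases mul_self_eq_one_iff.1 (show
          (χ ⟨x⁻¹ * r * x, hx⟩ : F) * (χ ⟨x⁻¹ * r * x, hx⟩ : F) = 1 from
          congrArg Units.val hsq) with h | h
      · exact absurd (isConj_iff.2 ⟨x⁻¹, by rw [inv_inv]; exact only ⟨_, hx⟩ ho (Units.ext h)⟩)
          hcon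
      · exact Units.ext h
    have h := transfer_involution χ (sq hr) hF
    rw [noHom (MonoidHom.transfer χ) hr] at h
    set σ : Equiv.Perm (P ⧸ (T : Subgroup P)) := MulAction.toPerm r
    have hfix : (Finset.univ.filter fun q : P ⧸ (T : Subgroup P) => r • q = q) = σ.supportᶜ := by
      ext q
      simp [σ]
    have hmod := Equiv.Perm.card_compl_support_modEq (p := 2) (n := 1) (σ := σ) (by
      rw [pow_one, pow_two]
      exact Equiv.ext fun q => by
        rw [Equiv.Perm.mul_apply]
        exact (smul_smul r r q).trans (by rw [sq hr, one_smul]; rfl))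
    have hidx : Odd (Fintype.card (P ⧸ (T : Subgroup P))) := by
      rw [← Nat.card_eq_fintype_card, ← Subgroup.index_eq_card]
      exact Nat.odd_iff.2 (Nat.two_dvd_ne_zero.1 T.not_dvd_index)
    have hodd : Odd (Finset.univ.filter fun q : P ⧸ (T : Subgroup P) => r • q = q).card := by
      rw [hfix, Nat.odd_iff, hmod, ← Nat.odd_iff]
      exact hidx
    rw [hodd.neg_one_pow] at h
    have h' : (1 : F) = -1 := by simpa using congrArg Units.val h
    exact h2 (by linear_combination h')
  exact (conjc ha).trans (conjc hb).symm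

end Transfer

open Transfer

variable {K : Type*} [Group K] [Finite K] {F : Type*} [Field F]

/-- The kernel of a double cover of a linear group in dimension three without subgroups of index
two carries the only involution, if it is a square. -/
theorem unique_involution (h2 : (2 : F) ≠ 0) (π : K →* GL (Fin 3) F) (z : K) (hz : orderOf z = 2)
    (hker : ∀ h, π h = 1 ↔ h = 1 ∨ h = z) (hN : ∀ N : Subgroup K, N.Normal → N.index ≠ 2)
    (j : K) (hj : j ^ 2 = z) : ∀ u : K, orderOf u = 2 → u = z := by
  intro u hu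
  by_contra hne
  have hz1 : z ≠ 1 := fun h => by rw [h, orderOf_one] at hz; omega
  have hu1 : u ≠ 1 := fun h => by rw [h, orderOf_one] at hu; omega
  have hzz : z * z = 1 := by rw [← pow_two, ← hz, pow_orderOf_eq_one]
  have hjz : j ≠ 1 ∧ j ≠ z :=
    ⟨fun h => hz1 (by rw [← hj, h, one_pow]), fun h => hz1 (by rw [← hj, h, pow_two, hzz])⟩
  have hord : ∀ x : K, π x ^ 2 = 1 → π x ≠ 1 → orderOf (π.rangeRestrict x) = 2 := fun x h h' =>
    orderOf_eq_prime (Subtype.ext h) fun e => h' (congrArg Subtype.val e)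
  haveI : Finite π.range := Finite.of_surjective π.rangeRestrict π.rangeRestrict_surjective
  have hP : ∀ H : Subgroup π.range, H.index ≠ 2 := fun H hH => by
    have hi : (H.comap π.rangeRestrict).index = 2 := by
      rw [Subgroup.index_comap_of_surjective _ π.rangeRestrict_surjective, hH]
    exact hN _ (Subgroup.normal_of_index_eq_two hi) hi
  obtain ⟨⟨g, h, rfl⟩, hg⟩ := isConj_iff.1 (involutions_conj h2 π.range.subtype
    π.range.subtype_injective hP
    (hord j (by rw [← map_pow, hj, (hker z).2 (Or.inr rfl)]) fun e => ((hker j).1 e).elim hjz.1 hjz.2)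
    (hord u (by rw [← map_pow, ← hu, pow_orderOf_eq_one, map_one])
      fun e => ((hker u).1 e).elim hu1 hne))
  have hπ : π (h * j * h⁻¹ * u⁻¹) = 1 := by
    have e := congrArg Subtype.val hg
    simp only [Subgroup.coe_mul, InvMemClass.coe_inv, MonoidHom.coe_rangeRestrict] at e
    rw [map_mul, map_mul, map_mul, map_inv, map_inv, e, mul_inv_cancel]
  have hconj : (h * j * h⁻¹) ^ 2 = h * z * h⁻¹ := by rw [conj_pow, hj]
  have hcz : h * z * h⁻¹ ≠ 1 := fun e => hz1 (by simpa using e)
  have huu : u * u = 1 := by rw [← pow_two, ← hu, pow_orderOf_eq_one]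
  rcases (hker _).1 hπ with e | e
  · rw [mul_inv_eq_one] at e
    exact hcz (by rw [← hconj, e, pow_two, huu])
  · have hu' : h * j * h⁻¹ = z * u := mul_inv_eq_iff_eq_mul.1 e
    have hcu : Commute z u := by
      rcases (hker (u * z * u⁻¹)).1 (by simp [(hker z).2 (Or.inr rfl)]) with h' | h'
      · exact absurd (by simpa using h') hz1
      · exact (mul_inv_eq_iff_eq_mul.1 h').symm
    refine hcz ?_
    rw [← hconj, hu', hcu.mul_pow, pow_two, pow_two, hzz, huu, one_mul]

omit [Finite K] in
/-- In such a cover no pair of elements maps onto generators of a quaternion group. -/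
theorem no_quaternion_image (π : K →* GL (Fin 3) F) (z : K)
    (hker : ∀ h, π h = 1 ↔ h = 1 ∨ h = z) (hu : ∀ u : K, orderOf u = 2 → u = z) (i j : K)
    (hij : π i ^ 2 = π j ^ 2) (hi : π i ^ 2 ≠ 1) (h4 : π i ^ 4 = 1)
    (hc : π j * π i * (π j)⁻¹ = (π i)⁻¹) : False := by
  have hπz : π z = 1 := (hker z).2 (Or.inr rfl)
  have hzc : ∀ x : K, Commute z x := fun x => by
    rcases (hker (x * z * x⁻¹)).1 (by simp [hπz]) with h | h
    · have : z = 1 := by simpa using h
      rw [this]; exact Commute.one_left x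
    · exact (mul_inv_eq_iff_eq_mul.1 h).symm
  have hi4 : i ^ 4 ≠ 1 := fun h => by
    refine hi ?_
    rw [← map_pow]
    refine (hker _).2 ?_
    by_cases h1 : i ^ 2 = 1
    · exact Or.inl h1
    · exact Or.inr (hu _ (orderOf_eq_prime (by rw [← pow_mul]; exact h) h1))
  have hi4z : i ^ 4 = z :=
    ((hker _).1 (by rw [map_pow, h4])).resolve_left hi4
  have hz2 : z * z = 1 := by
    rcases (hker (z * z)).1 (by simp [hπz]) with h | h
    · exact h
    · rw [mul_eq_left.1 h, one_mul]
  have hcomm : Commute j (i ^ 2) := by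
    rcases (hker ((j ^ 2)⁻¹ * i ^ 2)).1 (by
      rw [map_mul, map_inv, map_pow, map_pow, hij, inv_mul_cancel]) with h | h
    · rw [← inv_mul_eq_one.1 h]
      exact (Commute.refl j).pow_right 2
    · rw [inv_mul_eq_iff_eq_mul.1 h]
      exact ((Commute.refl j).pow_right 2).mul_right (hzc j).symm
  have hinv : j * i ^ 2 * j⁻¹ = (i ^ 2)⁻¹ := by
    rw [← conj_pow, ← inv_pow]
    rcases (hker (i * (j * i * j⁻¹))).1 (by
      rw [map_mul, map_mul, map_mul, map_inv, hc, mul_inv_cancel]) with h | h
    · rw [eq_inv_of_mul_eq_one_right h]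
    · rw [eq_inv_mul_of_mul_eq h, ((hzc i).inv_right).symm.mul_pow, pow_two z, hz2, mul_one]
  rw [hcomm.eq, mul_inv_cancel_right] at hinv
  exact hi4 (by rw [show i ^ 4 = i ^ 2 * i ^ 2 by rw [← pow_add]]; exact mul_eq_one_iff_eq_inv.2 hinv)

end Cfsg.Agent.CSixSeven
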