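import Cfsg.Agent.CSixSeven.Blocks
import Cfsg.Agent.CSixSeven.Transfer

/-!
# The parity involution is the only involution of the group generated by odd-order elements

A product of three elements of order seven is a multiple of `Fm * Zm`; its seventh power is a square
root of the parity involution, which then is the only involution by the transfer argument.
-/

set_option autoImplicit false

namespace Cfsg.Agent.CSixSeven

open Cfsg Cfsg.Geo Matrix

variable {F : Type*} [Field F] {ω : F} {X : Subgroup (GL (Fin 7) F)}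

theorem Omega.seven_ne_zero (hω : Omega ω) : (7 : F) ≠ 0 := by
  intro h
  haveI : Fact (Nat.Prime 7) := ⟨by norm_num⟩
  haveI : CharP F 7 := (CharP.charP_iff_prime_eq_zero (by norm_num)).2 (by exact_mod_cast h)
  have h1 : (ω - 1) ^ 7 = 0 := by rw [sub_pow_char, hω.pow_seven, one_pow, sub_self]
  exact hω.ne_one (sub_eq_zero.1 (pow_eq_zero_iff (by norm_num) |>.1 h1))

theorem gm_cube (hω : Omega ω) : Gm ω ^ 3 = Dm ω (fun i => 3 * (i * i)) := by
  rw [Gm, pow_three, dm_mul hω, dm_mul hω]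
  congr 1
  funext i
  exact (show ∀ i : Fin 7, i * i + (i * i + i * i) = 3 * (i * i) by decide) i

theorem gm_pow_seven (hω : Omega ω) : Gm ω ^ 7 = 1 := by
  simp only [Gm, Dm, Matrix.diagonal_pow]
  rw [← Matrix.diagonal_one]
  refine congrArg Matrix.diagonal (funext fun i => ?_)
  show w ω (i * i) ^ 7 = 1
  unfold w
  rw [← pow_mul, mul_comm, pow_mul, hω.pow_seven, one_pow]

/-- The quadratic Gauss sum identity. -/
theorem gauss_identity (hω : Omega ω) :
    Gm ω ^ 3 * Fm ω * Gm ω ^ 3 * Fm ω * Gm ω ^ 3 =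
      (∑ k : Fin 7, w ω (3 * (k * k))) • Fm ω := by
  refine Matrix.ext fun i j => ?_
  rw [gm_cube hω]
  simp only [Dm]
  rw [Matrix.mul_diagonal, Matrix.mul_apply]
  simp only [Matrix.mul_diagonal, Matrix.diagonal_mul, Matrix.smul_apply, Fm, Matrix.of_apply,
    smul_eq_mul, Finset.sum_mul]
  refine (Equiv.sum_comp (Equiv.addRight (i + j)) _).symm.trans (Finset.sum_congr rfl fun k _ => ?_)
  simp only [Equiv.coe_addRight, ← w_add hω]
  congr 1
  exact (show ∀ i j k : Fin 7,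
    3 * (i * i) + i * (k + (i + j)) + 3 * ((k + (i + j)) * (k + (i + j))) + (k + (i + j)) * j +
      3 * (j * j) = 3 * (k * k) + i * j by decide) i j k

theorem zm_mul_zm : (Zm : M7 F) * Zm = 1 := by
  refine Matrix.ext fun i j => ?_
  rw [Matrix.mul_apply, Finset.sum_eq_single (-i)]
  · by_cases h : i = j
    · subst h; simp [Zm]
    · simp [Zm, h]
  · intro b _ hb
    have : ¬ i = -b := fun e => hb (by rw [e, neg_neg])
    simp [Zm, this]
  · simp

theorem zm_ne_one : (Zm : M7 F) ≠ 1 := by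
  intro h
  have h1 := congrFun (congrFun h 1) 1
  have h2 : ¬ (1 : Fin 7) = -1 := by decide
  simp [Zm, h2] at h1

theorem mem_K0 {h : GL (Fin 7) F} (hh : h ∈ Kz X) (ho : Odd (orderOf h)) : h ∈ K0 X :=
  Subgroup.subset_closure ⟨hh, ho⟩

/-- The parity involution has a square root among products of odd-order elements. -/
theorem zm_mem_K0 (hG : Gen ω X) : ∃ j ∈ K0 X, (j : M7 F) ^ 2 = Zm := by
  have hω := hG.omega
  obtain ⟨g, hg, hgv⟩ := hG.g
  obtain ⟨c, h, hh, hhv⟩ := hG.f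
  have hgK : g ∈ Kz X := ⟨hg, by rw [hgv]; exact sym_iff_commute.1 sym_gm⟩
  have hhK : h ∈ Kz X := ⟨hh, by rw [hhv]; exact (sym_iff_commute.1 sym_fm).smul_left c⟩
  have hg7 : g ^ 7 = 1 := Units.ext (by rw [Units.val_pow_eq_pow_val, hgv, gm_pow_seven hω]; rfl)
  have hodd : ∀ x : GL (Fin 7) F, x ^ 7 = 1 → Odd (orderOf x) := fun x hx =>
    Odd.of_dvd_nat (by decide) (orderOf_dvd_of_pow_eq_one hx)
  have hg3 : (g ^ 3) ^ 7 = 1 := by rw [← pow_mul, mul_comm, pow_mul, hg7, one_pow]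
  have h3K : g ^ 3 ∈ K0 X := mem_K0 (pow_mem hgK 3) (hodd _ hg3)
  have hcK : h * g ^ 3 * h⁻¹ ∈ K0 X :=
    mem_K0 (mul_mem (mul_mem hhK (pow_mem hgK 3)) (inv_mem hhK))
      (hodd _ (by rw [conj_pow, hg3, mul_one, mul_inv_cancel]))
  set u := g ^ 3 * (h * g ^ 3 * h⁻¹) * g ^ 3 with hu
  have huK : u ∈ K0 X := mul_mem (mul_mem h3K hcK) h3K
  have hhh : ((h * h : GL (Fin 7) F) : M7 F) = (-(7 : F) * c ^ 2) • (Zm : M7 F) := by
    rw [Units.val_mul, hhv, Matrix.smul_mul, Matrix.mul_smul, fm_mul_fm hω, smul_smul, smul_smul]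
    congr 1
    ring
  have hcM : Commute ((g ^ 3 : GL (Fin 7) F) : M7 F) ((h * h : GL (Fin 7) F) : M7 F) := by
    rw [Units.val_pow_eq_pow_val, hgv, hhh]
    exact ((sym_iff_commute.1 sym_gm).pow_left 3).smul_right _
  have hcomm : Commute (g ^ 3) (h * h) := Units.ext hcM.eq
  have huhh : u * (h * h) = g ^ 3 * h * g ^ 3 * h * g ^ 3 := by
    rw [hu, mul_assoc _ (g ^ 3), hcomm.eq]
    group
  set s : F := ∑ k : Fin 7, w ω (3 * (k * k)) with hs
  have hmain : (-(7 : F) * c ^ 2) • ((u : M7 F) * Zm) = c ^ 2 • (s • Fm ω) := by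
    have h2 : ((u * (h * h) : GL (Fin 7) F) : M7 F) =
        c ^ 2 • (Gm ω ^ 3 * Fm ω * Gm ω ^ 3 * Fm ω * Gm ω ^ 3) := by
      rw [huhh]
      simp only [Units.val_mul, Units.val_pow_eq_pow_val, hgv, hhv, Matrix.smul_mul,
        Matrix.mul_smul, smul_smul, sq]
    rw [Units.val_mul, hhh, Matrix.mul_smul, gauss_identity hω] at h2
    exact h2
  have hc0 : c ≠ 0 := by
    intro h0
    rw [h0, zero_smul] at hhv
    have := Units.mul_inv h
    rw [hhv, zero_mul] at this
    exact zero_ne_one this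
  set t : F := s / -7 with ht
  have h7 : (-(7 : F)) ≠ 0 := neg_ne_zero.2 hω.seven_ne_zero
  have huv : (u : M7 F) = t • (Fm ω * Zm) := by
    have h1 : (u : M7 F) * Zm = t • Fm ω := by
      have h2 := congrArg (fun M : M7 F => (-(7 : F) * c ^ 2)⁻¹ • M) hmain
      simp only [inv_smul_smul₀ (mul_ne_zero h7 (pow_ne_zero 2 hc0)), smul_smul] at h2
      rw [h2]
      congr 1
      rw [ht]
      field_simp
    rw [← Matrix.smul_mul, ← h1, Matrix.mul_assoc, zm_mul_zm, mul_one]
  set d : F := t * t * -7 with hd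
  have huu : (u : M7 F) * (u : M7 F) = d • (Zm : M7 F) := by
    rw [huv, Matrix.smul_mul, Matrix.mul_smul, smul_smul,
      show Fm ω * (Zm : M7 F) * (Fm ω * Zm) = Fm ω * Fm ω by
        rw [Matrix.mul_assoc, ← Matrix.mul_assoc (Zm : M7 F),
          ← (sym_iff_commute.1 sym_fm).eq, Matrix.mul_assoc, zm_mul_zm, mul_one],
      fm_mul_fm hω, smul_smul]
  have hd7 : d ^ 7 = 1 := by
    have hdet : ∀ x ∈ X, Matrix.det (x : M7 F) = 1 := fun x hx => by
      have h1 : Matrix.GeneralLinearGroup.det x = 1 := MonoidHom.mem_ker.1 (hG.le_sl hx)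
      rw [← Matrix.GeneralLinearGroup.val_det_apply, h1, Units.val_one]
    obtain ⟨z, hz, hzv⟩ := hG.z
    have h1 := congrArg Matrix.det huu
    rw [Matrix.det_mul, hdet u (K0_le X huK).1, Matrix.det_smul, Fintype.card_fin, ← hzv,
      hdet z hz, mul_one, mul_one] at h1
    exact h1.symm
  refine ⟨u ^ 7, pow_mem huK 7, ?_⟩
  have hz7 : (Zm : M7 F) ^ 7 = Zm := by
    rw [pow_succ, show (6 : ℕ) = 2 * 3 from rfl, pow_mul, sq, zm_mul_zm, one_pow, one_mul]
  rw [Units.val_pow_eq_pow_val, ← pow_mul, mul_comm, pow_mul, sq, huu, smul_pow, hd7, one_smul, hz7]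

/-- The parity involution is the only involution of `K0 X`, given the kernel on the odd vectors. -/
theorem uniqZero [Finite F] (hG : Gen ω X)
    (kerB : ∀ {h : GL (Fin 7) F}, h ∈ Kz X → Bm (h : M7 F) = 1 →
      (h : M7 F) = 1 ∨ (h : M7 F) = Zm) : UniqZero X := by
  obtain ⟨j, hj, hjv⟩ := zm_mem_K0 hG
  set π : K0 X →* GL (Fin 3) F := (bHom X).comp (Subgroup.inclusion (K0_le X)) with hπ
  set z : K0 X := ⟨j, hj⟩ ^ 2 with hz
  have hzv : ((z : GL (Fin 7) F) : M7 F) = Zm := by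
    rw [hz, Subgroup.coe_pow, Units.val_pow_eq_pow_val, hjv]
  have hcoe : ∀ a b : K0 X, ((a : GL (Fin 7) F) : M7 F) = ((b : GL (Fin 7) F) : M7 F) → a = b :=
    fun a b h => Subtype.ext (Units.ext h)
  have hz2 : orderOf z = 2 := by
    haveI : Fact (Nat.Prime 2) := ⟨Nat.prime_two⟩
    refine orderOf_eq_prime (hcoe _ _ ?_) fun h1 => zm_ne_one (F := F) ?_
    · rw [Subgroup.coe_pow, Units.val_pow_eq_pow_val, hzv, sq, zm_mul_zm]; rfl
    · rw [← hzv, h1]; rfl
  have hker : ∀ h : K0 X, π h = 1 ↔ h = 1 ∨ h = z := by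
    intro h
    constructor
    · intro h1
      have h2 : Bm ((h : GL (Fin 7) F) : M7 F) = 1 := by
        have := congrArg (fun x : GL (Fin 3) F => (x : Matrix (Fin 3) (Fin 3) F)) h1
        simpa [hπ] using this
      exact (kerB (K0_le X h.2) h2).imp (fun e => hcoe _ _ (by rw [e]; rfl))
        fun e => hcoe _ _ (by rw [e, hzv])
    · rintro (rfl | rfl)
      · exact map_one π
      · exact Units.ext (by simp [hπ, hzv])
  have hN : ∀ N : Subgroup (K0 X), N.Normal → N.index ≠ 2 := by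
    intro N hn hi
    haveI := hn
    have hle : K0 X ≤ N.map (K0 X).subtype := by
      refine (Subgroup.closure_le _).2 fun x hx => ?_
      set a : K0 X := ⟨x, mem_K0 hx.1 hx.2⟩ with ha
      refine ⟨a, ?_, rfl⟩
      rw [SetLike.mem_coe, ← QuotientGroup.eq_one_iff, ← orderOf_eq_one_iff]
      refine Nat.eq_one_of_dvd_coprimes (k := orderOf (a : K0 X ⧸ N))
        (show Nat.Coprime 2 (orderOf x) from Nat.coprime_two_left.2 hx.2) ?_ ?_
      · rw [← hi, Subgroup.index_eq_card]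
        exact orderOf_dvd_natCard _
      · exact (orderOf_map_dvd (QuotientGroup.mk' N) a).trans
          (by rw [← Subgroup.orderOf_coe a])
    have htop : N = ⊤ := eq_top_iff.2 fun x _ => by
      obtain ⟨y, hy, hyx⟩ := hle x.2
      exact Subtype.ext hyx ▸ hy
    rw [htop, Subgroup.index_top] at hi
    omega
  intro h hh ho
  have := unique_involution hG.two_ne_zero π z hz2 hker hN ⟨j, hj⟩ hz.symm ⟨h, hh⟩
    (by rw [← ho, ← Subgroup.orderOf_coe])
  rw [← hzv, ← this]

end Cfsg.Agent.CSixSeven
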