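import Cfsg.Agent.CSixSeven.PlaneDickson
import Cfsg.Agent.CSixSeven.Transfer
import Cfsg.Agent.CSixSeven.UniqZero

/-!
# No homology among the odd-vector actions of the centraliser of the parity involution

A homology and a conjugate of it under the Fourier element generate, on the plane of their centres,
a group whose image in `PGL(2, F)` has a four-group inside the derived group of the subgroup
generated by its elements of odd order; lifting it gives a quaternion group, which the uniqueness of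
the involution excludes.
-/

set_option autoImplicit false
set_option linter.unusedSectionVars false
set_option linter.unusedSimpArgs false
set_option linter.style.haveILetI false

namespace Cfsg.Agent.CSixSeven

open Matrix MulAction Cfsg.Agent.MaxSub
open Cfsg.Agent.MaxSub.CSixFive (exists_smul_of_mk_eq exists_smul_one_of_mk)
open scoped MatrixGroups OnePoint Cfsg.Agent.MaxSub.Dickson commutatorElement

namespace Homology

section Four

/-- A four-group inside the derived group of the part generated by elements of odd order. -/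
def HasFour {G : Type*} [Group G] (H : Subgroup G) : Prop :=
  ∃ i ∈ ⁅Subgroup.closure {x | x ∈ H ∧ Odd (orderOf x)}, Subgroup.closure {x | x ∈ H ∧ Odd (orderOf x)}⁆,
    ∃ j ∈ ⁅Subgroup.closure {x | x ∈ H ∧ Odd (orderOf x)},
      Subgroup.closure {x | x ∈ H ∧ Odd (orderOf x)}⁆,
      i * i = 1 ∧ j * j = 1 ∧ i ≠ 1 ∧ j ≠ 1 ∧ i ≠ j ∧ i * j = j * i

theorem hasFour_of_equiv {G P : Type*} [Group G] [Group P] {H : Subgroup G} (e : P ≃* H)
    (x y x' y' : P) (hx : x ^ 3 = 1) (hy : y ^ 3 = 1) (hx' : x' ^ 3 = 1) (hy' : y' ^ 3 = 1)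
    (hi : ⁅x, y⁆ * ⁅x, y⁆ = 1) (hj : ⁅x', y'⁆ * ⁅x', y'⁆ = 1) (hi1 : ⁅x, y⁆ ≠ 1)
    (hj1 : ⁅x', y'⁆ ≠ 1) (hne : ⁅x, y⁆ ≠ ⁅x', y'⁆)
    (hcomm : ⁅x, y⁆ * ⁅x', y'⁆ = ⁅x', y'⁆ * ⁅x, y⁆) : HasFour H := by
  set f : P →* G := H.subtype.comp e.toMonoidHom with hf
  have hinj : Function.Injective f := H.subtype_injective.comp e.injective
  have hmem : ∀ z : P, z ^ 3 = 1 → f z ∈ Subgroup.closure {t | t ∈ H ∧ Odd (orderOf t)} :=
    fun z hz => Subgroup.subset_closure ⟨(e z).2, Odd.of_dvd_nat (by decide)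
      (orderOf_dvd_of_pow_eq_one (show f z ^ 3 = 1 by rw [← map_pow, hz, map_one]))⟩
  refine ⟨f ⁅x, y⁆, ?_, f ⁅x', y'⁆, ?_, ?_, ?_, ?_, ?_, hinj.ne hne, ?_⟩
  · rw [map_commutatorElement]
    exact Subgroup.commutator_mem_commutator (hmem x hx) (hmem y hy)
  · rw [map_commutatorElement]
    exact Subgroup.commutator_mem_commutator (hmem x' hx') (hmem y' hy')
  · rw [← map_mul, hi, map_one]
  · rw [← map_mul, hj, map_one]
  · exact (map_ne_one_iff f hinj).2 hi1
  · exact (map_ne_one_iff f hinj).2 hj1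
  · rw [← map_mul, hcomm, map_mul]

/-- The three-cycle `(a b c)`. -/
def cyc {n : ℕ} (a b c : Fin n) : Equiv.Perm (Fin n) := Equiv.swap a b * Equiv.swap b c

theorem cyc_mem {n : ℕ} {a b c : Fin n} (h1 : a ≠ b) (h2 : b ≠ c) :
    cyc a b c ∈ alternatingGroup (Fin n) := by
  rw [cyc, Equiv.Perm.mem_alternatingGroup, map_mul, Equiv.Perm.sign_swap h1,
    Equiv.Perm.sign_swap h2]
  decide

theorem hasFour_a4 {G : Type*} [Group G] {H : Subgroup G} (e : H ≃* alternatingGroup (Fin 4)) :
    HasFour H := by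
  let u : alternatingGroup (Fin 4) := ⟨cyc 0 1 2, cyc_mem (by decide) (by decide)⟩
  let v : alternatingGroup (Fin 4) := ⟨cyc 0 1 3, cyc_mem (by decide) (by decide)⟩
  let v' : alternatingGroup (Fin 4) := ⟨cyc 1 2 3, cyc_mem (by decide) (by decide)⟩
  exact hasFour_of_equiv e.symm u v u v' (by decide +kernel) (by decide +kernel) (by decide +kernel)
    (by decide +kernel) (by decide +kernel) (by decide +kernel) (by decide +kernel)
    (by decide +kernel) (by decide +kernel) (by decide +kernel)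

theorem hasFour_s4 {G : Type*} [Group G] {H : Subgroup G} (e : H ≃* Equiv.Perm (Fin 4)) :
    HasFour H :=
  hasFour_of_equiv e.symm (cyc 0 1 2) (cyc 0 1 3) (cyc 0 1 2) (cyc 1 2 3) (by decide +kernel)
    (by decide +kernel) (by decide +kernel) (by decide +kernel) (by decide +kernel)
    (by decide +kernel) (by decide +kernel) (by decide +kernel) (by decide +kernel)
    (by decide +kernel)

theorem hasFour_a5 {G : Type*} [Group G] {H : Subgroup G} (e : H ≃* alternatingGroup (Fin 5)) :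
    HasFour H := by
  let u : alternatingGroup (Fin 5) := ⟨cyc 0 1 2, cyc_mem (by decide) (by decide)⟩
  let v : alternatingGroup (Fin 5) := ⟨cyc 0 1 3, cyc_mem (by decide) (by decide)⟩
  let v' : alternatingGroup (Fin 5) := ⟨cyc 1 2 3, cyc_mem (by decide) (by decide)⟩
  exact hasFour_of_equiv e.symm u v u v' (by decide +kernel) (by decide +kernel) (by decide +kernel)
    (by decide +kernel) (by decide +kernel) (by decide +kernel) (by decide +kernel)
    (by decide +kernel) (by decide +kernel) (by decide +kernel)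

variable {F : Type*} [Field F] [Fintype F] [DecidableEq F]

/-- A subgroup containing a conjugate of `PSL(2, F₀)`, `|F₀|` odd, has the four-group. -/
theorem hasFour_of_sub {p : ℕ} [Fact p.Prime] [CharP F p] (hp2 : p ≠ 2) {F₀ : Subfield F}
    (φ : PGL(2, F₀) →* PGL(2, F)) (hφ : Function.Injective φ) (h4 : 4 ≤ Nat.card F₀)
    {H : Subgroup PGL(2, F)} (hφH : ∀ s ∈ Dickson.lsub F₀, φ s ∈ H) : HasFour H := by
  classical
  haveI : Fintype F₀ := Fintype.ofFinite _
  haveI : CharP F₀ p := charP_of_injective_ringHom F₀.subtype.injective p |> fun _ =>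
    (RingHom.charP_iff F₀.subtype F₀.subtype.injective p).2 inferInstance
  haveI : NeZero p := ⟨(Fact.out : p.Prime).ne_zero⟩
  have h20 : (2 : F₀) ≠ 0 := fun e => hp2
    ((Nat.prime_dvd_prime_iff_eq (Fact.out : p.Prime) Nat.prime_two).1
      ((CharP.cast_eq_zero_iff F₀ p 2).1 (by exact_mod_cast e)))
  haveI hsimp : IsSimpleGroup (Dickson.lsub F₀) := by
    haveI := Linear.isSimpleGroup_PSL_fin (F := F₀) 2 le_rfl fun _ => h4
    exact (Dickson.pslEquiv (F := F₀)).symm.isSimpleGroup
  set Od : Subgroup PGL(2, F) := Subgroup.closure {x | x ∈ H ∧ Odd (orderOf x)} with hOd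
  -- the unipotent generators do not commute
  set U : PGL(2, F₀) := ProjGenLinGroup.mk (CSixFive.uGL (1 : F₀)) with hU
  set L : PGL(2, F₀) := ProjGenLinGroup.mk CSixFive.lGL with hL
  have hUL : U * L ≠ L * U := by
    intro e
    have hc := CSixFive.commute_of_mk_commute h20 (A := CSixFive.uGL (1 : F₀)) (B := CSixFive.lGL)
      (by simp [CSixFive.val_lGL, trace_fin_two, one_add_one_eq_two]) e
    have hm := congrArg Units.val hc
    rw [Units.val_mul, Units.val_mul] at hm
    have h00 := congrFun (congrFun hm 0) 0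
    simp [CSixFive.val_uGL, CSixFive.val_lGL, CSixFive.u2, Matrix.mul_apply] at h00
  have hUp : U ^ p = 1 := by
    rw [hU, ← map_pow, show CSixFive.uGL (1 : F₀) ^ p = 1 from Units.ext (by
      rw [Units.val_pow_eq_pow_val, CSixFive.val_uGL, CSixFive.u2_pow, CharP.cast_eq_zero F₀ p,
        zero_mul, Units.val_one]
      ext i j; fin_cases i <;> fin_cases j <;> simp [CSixFive.u2]), map_one]
  -- the odd part contains the image of `L`
  have hodd : ∀ s ∈ Dickson.lsub F₀, φ s ∈ Od := by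
    let N : Subgroup (Dickson.lsub F₀) := (Od.comap φ).subgroupOf (Dickson.lsub F₀)
    have hN : N.Normal := by
      refine ⟨fun t ht g => ?_⟩
      simp only [N, Subgroup.mem_subgroupOf, Subgroup.mem_comap, Subgroup.coe_mul, Subgroup.coe_inv,
        map_mul, map_inv] at ht ⊢
      have hgH := hφH _ g.2
      set k := φ (g : PGL(2, F₀))
      have hle : Od.map (MulAut.conj k).toMonoidHom ≤ Od := by
        rw [hOd, MonoidHom.map_closure]
        refine Subgroup.closure_mono ?_
        rintro _ ⟨x, ⟨hxH, hxo⟩, rfl⟩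
        exact ⟨H.mul_mem (H.mul_mem hgH hxH) (H.inv_mem hgH),
          by rw [MulEquiv.coe_toMonoidHom, MulEquiv.orderOf_eq]; exact hxo⟩
      exact hle ⟨_, ht, rfl⟩
    intro s hs
    have hU1 : (⟨U, CSixFive.mk_uGL_mem 1⟩ : Dickson.lsub F₀) ∈ N := by
      refine Subgroup.subset_closure ⟨hφH _ (CSixFive.mk_uGL_mem 1), ?_⟩
      exact Odd.of_dvd_nat ((Fact.out : p.Prime).odd_of_ne_two hp2)
        (orderOf_dvd_of_pow_eq_one (show φ U ^ p = 1 by rw [← map_pow, hUp, map_one]))
    rcases hN.eq_bot_or_eq_top with hb | ht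
    · rw [hb, Subgroup.mem_bot] at hU1
      have h1 : U = 1 := congrArg Subtype.val hU1
      exact absurd (by rw [h1, one_mul, mul_one]) hUL
    · have : (⟨s, hs⟩ : Dickson.lsub F₀) ∈ N := ht ▸ Subgroup.mem_top _
      exact this
  have hperf : Dickson.lsub F₀ ≤ ⁅Dickson.lsub F₀, Dickson.lsub F₀⁆ := by
    have h1 : commutator (Dickson.lsub F₀) = ⊤ :=
      (Subgroup.Normal.eq_bot_or_eq_top inferInstance).resolve_left fun hb => hUL (by
        have hm := Subgroup.commutator_mem_commutator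
          (Subgroup.mem_top (⟨U, CSixFive.mk_uGL_mem 1⟩ : Dickson.lsub F₀))
          (Subgroup.mem_top (⟨L, CSixFive.mk_lGL_mem⟩ : Dickson.lsub F₀))
        rw [← commutator_def, hb, Subgroup.mem_bot, commutatorElement_eq_one_iff_mul_comm] at hm
        exact congrArg Subtype.val hm)
    intro s hs
    have hm : (⟨s, hs⟩ : Dickson.lsub F₀) ∈ commutator (Dickson.lsub F₀) := h1 ▸ Subgroup.mem_top _
    rw [commutator_def] at hm
    have := Subgroup.mem_map_of_mem (Dickson.lsub F₀).subtype hm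
    rwa [Subgroup.map_commutator, ← MonoidHom.range_eq_map, Subgroup.range_subtype] at this
  have hT : ∀ s ∈ Dickson.lsub F₀, φ s ∈ ⁅Od, Od⁆ := fun s hs => by
    have h1 := Subgroup.mem_map_of_mem φ (hperf hs)
    rw [Subgroup.map_commutator] at h1
    exact Subgroup.commutator_mono (by rintro _ ⟨t, ht, rfl⟩; exact hodd t ht)
      (by rintro _ ⟨t, ht, rfl⟩; exact hodd t ht) h1
  -- the four-group in `PSL₂`
  obtain ⟨a, b, hab⟩ := CharP.sq_add_sq F₀ p (-1)
  set x : F₀ := (a : F₀)
  set y : F₀ := (b : F₀)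
  replace hab : x ^ 2 + y ^ 2 = -1 := by simpa [x, y] using hab
  let I : GL (Fin 2) F₀ := Matrix.SpecialLinearGroup.toGL ⟨!![0, 1; -1, 0], by simp [det_fin_two_of]⟩
  let J : GL (Fin 2) F₀ := Matrix.SpecialLinearGroup.toGL ⟨!![x, y; y, -x], by
    simp [det_fin_two_of]; linear_combination -hab⟩
  have hab' : (x : F) ^ 2 + (y : F) ^ 2 = -1 := by
    have := congrArg (Subtype.val : F₀ → F) hab
    push_cast at this
    exact this
  have hI : (I : Matrix (Fin 2) (Fin 2) F₀) = !![0, 1; -1, 0] := rfl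
  have hJ : (J : Matrix (Fin 2) (Fin 2) F₀) = !![x, y; y, -x] := rfl
  have sc : ∀ A : GL (Fin 2) F₀, (A : Matrix (Fin 2) (Fin 2) F₀) = (-1 : F₀) • 1 →
      ProjGenLinGroup.mk A = 1 := fun A h => isSc_iff_mk.1 (by rw [h]; exact isSc_smul_one _)
  refine ⟨φ (ProjGenLinGroup.mk I), hT _ ⟨_, rfl⟩, φ (ProjGenLinGroup.mk J), hT _ ⟨_, rfl⟩,
    ?_, ?_, ?_, ?_, hφ.ne ?_, ?_⟩
  · rw [← map_mul, ← map_mul, sc (I * I), map_one]
    rw [Units.val_mul, hI]; ext i j; fin_cases i <;> fin_cases j <;> simp [Matrix.mul_apply]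
  · rw [← map_mul, ← map_mul, sc (J * J), map_one]
    rw [Units.val_mul, hJ]
    ext i j
    fin_cases i <;> fin_cases j <;> simp [Matrix.mul_apply] <;>
      first | linear_combination hab | linear_combination hab' | ring
  · refine (map_ne_one_iff φ hφ).2 fun e => ?_
    have h := isSc_iff_mk.2 e
    rw [hI] at h
    simp [IsSc] at h
  · refine (map_ne_one_iff φ hφ).2 fun e => ?_
    have h := isSc_iff_mk.2 e
    rw [hJ] at h
    simp [IsSc] at h
    have hx : x = 0 := by
      have : (2 : F₀) * x = 0 := by linear_combination h.2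
      exact (mul_eq_zero.1 this).resolve_left h20
    rw [hx, h.1] at hab
    simp at hab
  · intro e
    obtain ⟨t, -, ht⟩ := exists_smul_of_mk_eq e
    rw [hI, hJ] at ht
    have e1 := congrFun (congrFun ht 0) 1
    have e2 := congrFun (congrFun ht 1) 0
    simp at e1 e2
    exact h20 (by linear_combination e1 - e2)
  · rw [← map_mul, ← map_mul, ← map_mul, ← map_mul]
    congr 1
    rw [← mul_inv_eq_one, ← map_inv, ← map_mul]
    refine sc _ ?_
    have e : ((I * J : GL (Fin 2) F₀) : Matrix (Fin 2) (Fin 2) F₀) =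
        (-1 : F₀) • ((J * I : GL (Fin 2) F₀) : Matrix (Fin 2) (Fin 2) F₀) := by
      rw [Units.val_mul, Units.val_mul, hI, hJ]
      ext i j
      fin_cases i <;> fin_cases j <;> simp [Matrix.mul_apply]
    rw [Units.val_mul, e, Matrix.smul_mul, ← Units.val_mul, mul_inv_cancel, Units.val_one]

/-- Two semisimple elements with four distinct fixed points generate a group with the four-group. -/
theorem hasFour_of_pair (h2 : (2 : F) ≠ 0) {R R' : GL (Fin 2) F} {c A B C D : F}
    (hR : (R : Matrix (Fin 2) (Fin 2) F) = !![c, 0; 0, 1])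
    (hR' : (R' : Matrix (Fin 2) (Fin 2) F) = !![A, B; C, D])
    (hB : B ≠ 0) (hC : C ≠ 0) (htr : A + D = c + 1) (hc : c ^ 2 ≠ 1) :
    HasFour ((Subgroup.closure ({R, R'} : Set (GL (Fin 2) F))).map ProjGenLinGroup.mk) := by
  classical
  obtain ⟨p, hpF⟩ := CharP.exists F
  haveI := hpF
  haveI : Fact p.Prime := ⟨CharP.char_is_prime F p⟩
  have hp2 : p ≠ 2 := by
    rintro rfl
    exact h2 (CharP.cast_eq_zero F 2)
  have hc1 : c ≠ 1 := fun e => hc (by rw [e, one_pow])
  set H : Subgroup PGL(2, F) :=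
    (Subgroup.closure ({R, R'} : Set (GL (Fin 2) F))).map ProjGenLinGroup.mk with hH
  have hRH : ProjGenLinGroup.mk R ∈ H :=
    Subgroup.mem_map_of_mem _ (Subgroup.subset_closure (by simp))
  have hR'H : ProjGenLinGroup.mk R' ∈ H :=
    Subgroup.mem_map_of_mem _ (Subgroup.subset_closure (by simp))
  have hdet := R.det_ne_zero
  rw [hR] at hdet
  simp [det_fin_two_of] at hdet
  have hnc : ProjGenLinGroup.mk R * ProjGenLinGroup.mk R' ≠
      ProjGenLinGroup.mk R' * ProjGenLinGroup.mk R := by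
    intro e
    rw [← map_mul, ← map_mul] at e
    obtain ⟨t, -, et⟩ := exists_smul_of_mk_eq e
    rw [Units.val_mul, Units.val_mul, hR, hR'] at et
    have e1 := congrFun (congrFun et 0) 1
    have e2 := congrFun (congrFun et 1) 0
    simp [Matrix.mul_apply] at e1 e2
    have t1 : t = c := (e1.resolve_right hB).symm
    subst t1
    have t2 : C * (t ^ 2 - 1) = 0 := by linear_combination -e2
    exact hc (sub_eq_zero.1 ((mul_eq_zero.1 t2).resolve_left hC))
  let K := AlgebraicClosure F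
  haveI : CharP K p := charP_of_injective_algebraMap (algebraMap F K).injective p
  rcases Dickson.classifyF (K := K) (p := p) H with
    ⟨a, b, m, -, hcy, -⟩ | ⟨a, b, m, n, hab, hle, -⟩ | ⟨x, hfix, -⟩ | ⟨-, -, ⟨e⟩⟩ | ⟨-, -, ⟨e⟩⟩ |
    ⟨-, -, ⟨e⟩⟩ | ⟨F₀, h, h4, he⟩ | ⟨F₀, h, h4, hodd, he⟩
  · haveI := hcy
    obtain ⟨g, hg⟩ := hcy.exists_generator
    obtain ⟨i, hi⟩ := hg ⟨_, hRH⟩
    obtain ⟨j, hj⟩ := hg ⟨_, hR'H⟩
    refine absurd ?_ hnc
    have := ((Commute.refl g).zpow_zpow i j).eq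
    rw [show g ^ i = ⟨_, hRH⟩ from hi, show g ^ j = ⟨_, hR'H⟩ from hj] at this
    exact congrArg Subtype.val this
  · -- a stabilised pair would have to consist of the coordinate points
    exfalso
    have hsq : Dickson.emb K (ProjGenLinGroup.mk (R * R)) • a = a ∧
        Dickson.emb K (ProjGenLinGroup.mk (R * R)) • b = b := by
      rw [map_mul, map_mul, mul_smul, mul_smul]
      rcases hle hRH with ⟨e1, e2⟩ | ⟨e1, e2⟩
      · exact ⟨by rw [e1, e1], by rw [e2, e2]⟩
      · exact ⟨by rw [e1, e2], by rw [e2, e1]⟩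
    have hRR : ((R * R : GL (Fin 2) F) : Matrix (Fin 2) (Fin 2) F) = !![c ^ 2, 0; 0, 1] := by
      rw [Units.val_mul, hR]
      ext i j; fin_cases i <;> fin_cases j <;> simp [Matrix.mul_apply, pow_two]
    have hpts : ∀ x : OnePoint K, Dickson.emb K (ProjGenLinGroup.mk (R * R)) • x = x →
        x = Dickson.pt₀ K (∞ : OnePoint F) ∨ x = Dickson.pt₀ K ((0 : F) : OnePoint F) := by
      intro x hx
      induction x using OnePoint.rec with
      | infty => exact Or.inl rfl
      | coe k =>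
        right
        rw [Dickson.pt₀_coe, map_zero]
        rw [Dickson.emb, ProjGenLinGroup.map_mk, ProjGenLinGroup.mk_smul,
          OnePoint.smul_some_eq_ite] at hx
        simp [GeneralLinearGroup.map, -Units.val_mul, -map_mul, hRR] at hx
        have hne : (algebraMap F K) c ^ 2 - 1 ≠ 0 := sub_ne_zero.2 fun e =>
          hc ((algebraMap F K).injective (by rw [map_pow, map_one]; exact e))
        have : ((algebraMap F K) c ^ 2 - 1) * k = 0 := by linear_combination hx
        rw [(mul_eq_zero.1 this).resolve_left hne]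
    have hpair : (ProjGenLinGroup.mk R' • (∞ : OnePoint F) = ∞) ∨
        (ProjGenLinGroup.mk R' • (∞ : OnePoint F) = ((0 : F) : OnePoint F) ∧
          ProjGenLinGroup.mk R' • ((0 : F) : OnePoint F) = ∞) := by
      have key : ∀ x y : OnePoint F, Dickson.emb K (ProjGenLinGroup.mk R') • Dickson.pt₀ K x =
          Dickson.pt₀ K y → ProjGenLinGroup.mk R' • x = y := by
        intro x y e
        rw [Dickson.emb_pt] at e
        exact Dickson.pt₀_injective e
      rcases hpts a hsq.1 with rfl | rfl <;> rcases hpts b hsq.2 with rfl | rfl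
      · exact absurd rfl hab.1
      · rcases hle hR'H with ⟨e1, -⟩ | ⟨e1, e2⟩
        · exact Or.inl (key _ _ e1)
        · exact Or.inr ⟨key _ _ e1, key _ _ e2⟩
      · rcases hle hR'H with ⟨-, e2⟩ | ⟨e1, e2⟩
        · exact Or.inl (key _ _ e2)
        · exact Or.inr ⟨key _ _ e2, key _ _ e1⟩
      · exact absurd rfl hab.1
    rcases hpair with e1 | ⟨e1, e2⟩
    · rw [ProjGenLinGroup.mk_smul, OnePoint.smul_infty_eq_self_iff, hR'] at e1
      simp at e1
      exact hC e1
    · rw [ProjGenLinGroup.mk_smul, OnePoint.smul_infty_eq_ite, hR'] at e1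
      rw [ProjGenLinGroup.mk_smul, OnePoint.smul_some_eq_ite, hR'] at e2
      simp [hC] at e1
      simp at e2
      rw [e1, e2, add_zero] at htr
      have : c = -1 := by linear_combination -htr
      exact hc (by rw [this]; ring)
  · exfalso
    have e := hfix _ hRH
    have e' := hfix _ hR'H
    rw [ProjGenLinGroup.mk_smul] at e e'
    induction x using OnePoint.rec with
    | infty =>
      rw [OnePoint.smul_infty_eq_self_iff, hR'] at e'
      simp at e'
      exact hC e'
    | coe k =>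
      rw [OnePoint.smul_some_eq_ite, hR] at e
      simp at e
      have hk : k = 0 := by
        have : (c - 1) * k = 0 := by linear_combination e
        exact (mul_eq_zero.1 this).resolve_left (sub_ne_zero.2 hc1)
      subst hk
      rw [OnePoint.smul_some_eq_ite, hR'] at e'
      simp [hB] at e'
      split_ifs at e' with hD
      · exact OnePoint.infty_ne_coe _ e'
      · simp [hB, hD] at e'
  · exact hasFour_a4 e
  · exact hasFour_s4 e
  · exact hasFour_a5 e
  all_goals
    let φ : PGL(2, F₀) →* PGL(2, F) := (MulAut.conj h).toMonoidHom.comp (Dickson.subPGL F₀)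
    refine hasFour_of_sub hp2 φ ((MulAut.conj h).injective.comp (Dickson.subPGL_injective F₀)) h4
      fun s hs => ?_
    have hmem : Dickson.subPGL F₀ s ∈ H.map (MulAut.conj h⁻¹).toMonoidHom := by
      rw [he]
      first
      | exact ⟨s, rfl⟩
      | (rw [Dickson.range_subPSL]; exact Subgroup.mem_map_of_mem _ hs)
    obtain ⟨g, hg, hgs⟩ := hmem
    show MulAut.conj h (Dickson.subPGL F₀ s) ∈ H
    rw [← hgs]
    simpa [mul_assoc] using hg

end Four

section Lift

variable {F : Type*} [Field F]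

/-- A two-by-two matrix extended by a fixed vector. -/
def blockMat : Matrix (Fin 2) (Fin 2) F →* Matrix (Fin 3) (Fin 3) F where
  toFun A := !![A 0 0, A 0 1, 0; A 1 0, A 1 1, 0; 0, 0, 1]
  map_one' := by ext i j; fin_cases i <;> fin_cases j <;> simp
  map_mul' A B := by
    ext i j
    fin_cases i <;> fin_cases j <;> simp [Matrix.mul_apply, Fin.sum_univ_two, Fin.sum_univ_three]

/-- The embedding of `GL₂` fixing a vector. -/
def block : GL (Fin 2) F →* GL (Fin 3) F := Units.map blockMat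

theorem block_injective : Function.Injective (block : GL (Fin 2) F →* GL (Fin 3) F) := by
  intro A B h
  have e : ∀ i j, blockMat (A : Matrix (Fin 2) (Fin 2) F) i j = blockMat (B : Matrix _ _ F) i j :=
    fun i j => by
      have := congrArg (fun M : GL (Fin 3) F => (M : Matrix (Fin 3) (Fin 3) F) i j) h
      exact this
  refine Units.ext (Matrix.ext fun i j => ?_)
  fin_cases i <;> fin_cases j
  · exact e 0 0
  · exact e 0 1
  · exact e 1 0
  · exact e 1 1

/-- A lifted involution of determinant one squares to minus one. -/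
theorem sq_eq_neg_one [Fintype F] {I : GL (Fin 2) F}
    (hd : (I : Matrix (Fin 2) (Fin 2) F).det = 1)
    (hsq : ProjGenLinGroup.mk I * ProjGenLinGroup.mk I = 1) (hne : ProjGenLinGroup.mk I ≠ 1) :
    (I : Matrix (Fin 2) (Fin 2) F) * I = -1 := by
  rw [← map_mul] at hsq
  obtain ⟨μ, -, hμ⟩ := exists_smul_one_of_mk hsq
  rw [Units.val_mul] at hμ
  have hns : ¬ IsSc (I : Matrix (Fin 2) (Fin 2) F) := fun h => hne (isSc_iff_mk.1 h)
  set M := (I : Matrix (Fin 2) (Fin 2) F)
  rw [Matrix.det_fin_two] at hd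
  have e00 := congrFun (congrFun hμ 0) 0
  have e01 := congrFun (congrFun hμ 0) 1
  have e10 := congrFun (congrFun hμ 1) 0
  have e11 := congrFun (congrFun hμ 1) 1
  simp [Matrix.mul_apply, Fin.sum_univ_two] at e00 e01 e10 e11
  have ht : M 0 0 + M 1 1 = 0 := by
    by_contra ht
    refine hns ⟨?_, ?_, ?_⟩
    · exact (mul_eq_zero.1 (show (M 0 0 + M 1 1) * M 0 1 = 0 by
        linear_combination e01)).resolve_left ht
    · exact (mul_eq_zero.1 (show (M 0 0 + M 1 1) * M 1 0 = 0 by
        linear_combination e10)).resolve_left ht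
    · exact sub_eq_zero.1 ((mul_eq_zero.1 (show (M 0 0 + M 1 1) * (M 0 0 - M 1 1) = 0 by
        linear_combination e00 - e11)).resolve_left ht)
  ext i j
  fin_cases i <;> fin_cases j <;> simp [Matrix.mul_apply, Fin.sum_univ_two]
  · linear_combination M 0 0 * ht - hd
  · linear_combination M 0 1 * ht
  · linear_combination M 1 0 * ht
  · linear_combination M 1 1 * ht - hd

/-- Lifts of a four-group generate a quaternion group. -/
theorem conj_eq_inv [Fintype F] (h2 : (2 : F) ≠ 0) {I J : GL (Fin 2) F}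
    (hI : (I : Matrix (Fin 2) (Fin 2) F) * I = -1) (hJ : (J : Matrix (Fin 2) (Fin 2) F) * J = -1)
    (hdI : (I : Matrix (Fin 2) (Fin 2) F).det = 1) (hdJ : (J : Matrix (Fin 2) (Fin 2) F).det = 1)
    (hc : ProjGenLinGroup.mk I * ProjGenLinGroup.mk J = ProjGenLinGroup.mk J * ProjGenLinGroup.mk I)
    (hne : ProjGenLinGroup.mk I ≠ ProjGenLinGroup.mk J) : J * I * J⁻¹ = I⁻¹ := by
  rw [← map_mul, ← map_mul] at hc
  obtain ⟨ν, -, hν⟩ := exists_smul_of_mk_eq hc
  rw [Units.val_mul, Units.val_mul] at hν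
  have hν2 : ν * ν = 1 := by
    have := congrArg Matrix.det hν
    rw [Matrix.det_smul, Matrix.det_mul, Matrix.det_mul, hdI, hdJ, Fintype.card_fin] at this
    linear_combination -this
  have hII : I * I * (I * I) = 1 := Units.ext (by
    rw [Units.val_mul, Units.val_mul, hI, Units.val_one, neg_mul_neg, one_mul])
  rcases mul_self_eq_one_iff.1 hν2 with rfl | rfl
  · exfalso
    rw [one_smul] at hν
    -- commuting square roots of minus one are proportional
    have hcomm : I * J = J * I := Units.ext (by rw [Units.val_mul, Units.val_mul, hν])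
    have hP : ((I * J : GL (Fin 2) F) : Matrix (Fin 2) (Fin 2) F) * (I * J : GL (Fin 2) F) = 1 := by
      rw [Units.val_mul]
      rw [show (I : Matrix (Fin 2) (Fin 2) F) * J * (I * J) =
        (I : Matrix (Fin 2) (Fin 2) F) * ((J : Matrix (Fin 2) (Fin 2) F) * I) * J by
          simp only [Matrix.mul_assoc], ← hν, ← Matrix.mul_assoc, hI, Matrix.mul_assoc, hJ,
        neg_mul_neg, one_mul]
    set P : GL (Fin 2) F := I * J
    have hdP : (P : Matrix (Fin 2) (Fin 2) F).det = 1 := by
      rw [show P = I * J from rfl, Units.val_mul, Matrix.det_mul, hdI, hdJ, one_mul]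
    have hPP : ProjGenLinGroup.mk P * ProjGenLinGroup.mk P = 1 := by
      rw [← map_mul, show P * P = 1 from Units.ext (by rw [Units.val_mul, hP, Units.val_one]),
        map_one]
    by_cases hP1 : ProjGenLinGroup.mk P = 1
    · refine hne ?_
      have hJJ : ProjGenLinGroup.mk J * ProjGenLinGroup.mk J = 1 := by
        rw [← map_mul]
        refine isSc_iff_mk.1 ?_
        rw [Units.val_mul, hJ]
        simp [IsSc]
      rw [show P = I * J from rfl, map_mul] at hP1
      rw [← mul_one (ProjGenLinGroup.mk I), ← hJJ, ← mul_assoc, hP1, one_mul]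
    · have h := sq_eq_neg_one hdP hPP hP1
      rw [hP] at h
      have h00 := congrFun (congrFun h 0) 0
      simp at h00
      exact h2 (by linear_combination h00)
  · have e : J * I * J⁻¹ = I⁻¹ := by
      rw [mul_inv_eq_iff_eq_mul, eq_inv_mul_iff_mul_eq]
      refine Units.ext ?_
      rw [Units.val_mul, Units.val_mul, ← Matrix.mul_assoc, hν, neg_one_smul, Matrix.neg_mul,
        Matrix.mul_assoc, hI, mul_neg, mul_one, neg_neg]
    exact e

end Lift

section Concrete

variable {F : Type*} [Field F] {ω : F} {X : Subgroup (GL (Fin 7) F)}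

theorem bm_conj {k h : GL (Fin 7) F} (hk : k ∈ Kz X) (hh : h ∈ Kz X)
    {T : Matrix (Fin 3) (Fin 3) F} (hT : T * Bm (k : M7 F) = Bm (k : M7 F) * Bm (h : M7 F)) :
    Bm ((k * h * k⁻¹ : GL (Fin 7) F) : M7 F) = T := by
  set a : Kz X := ⟨k, hk⟩ with ha
  set b : Kz X := ⟨h, hh⟩ with hb
  have e : ((bHom X (a * b * a⁻¹) : GL (Fin 3) F) : Matrix (Fin 3) (Fin 3) F) =
      Bm ((k * h * k⁻¹ : GL (Fin 7) F) : M7 F) := rfl
  rw [← e, map_mul, map_mul, map_inv, Units.val_mul, Units.val_mul]
  rw [show (bHom X a : Matrix (Fin 3) (Fin 3) F) * (bHom X b : Matrix (Fin 3) (Fin 3) F) =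
    T * (bHom X a : Matrix (Fin 3) (Fin 3) F) from hT.symm, Matrix.mul_assoc, Units.mul_inv,
    Matrix.mul_one]

theorem bm_fm_mul_fm (hω : Omega ω) :
    Bm (Fm ω) * Bm (Fm ω) = (-7 : F) • (1 : Matrix (Fin 3) (Fin 3) F) := by
  rw [← bm_mul sym_fm sym_fm, fm_mul_fm hω, bm_smul, bm_zm]

theorem bm_fm_symm (r s : Fin 3) : Bm (Fm ω) r s = Bm (Fm ω) s r := by
  simp [Bm, Fm, mul_comm]

theorem exists_good (hω : Omega ω) :
    ∃ a : Fin 3, a ≠ 2 ∧ Bm (Fm ω) 0 a * Bm (Fm ω) 0 a ≠ -7 := by
  by_contra hcon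
  push Not at hcon
  have e0 := hcon 0 (by decide)
  have e1 := hcon 1 (by decide)
  simp only [Bm, Fm, Matrix.of_apply, kb, Matrix.cons_val_zero, Matrix.cons_val_one] at e0 e1
  rw [show (1 : Fin 7) * 1 = 1 by decide, show (1 : Fin 7) * -1 = 6 by decide] at e0
  rw [show (1 : Fin 7) * 2 = 2 by decide, show (1 : Fin 7) * -2 = 5 by decide] at e1
  simp only [w, Fin.val_one, show ((6 : Fin 7) : ℕ) = 6 from rfl,
    show ((2 : Fin 7) : ℕ) = 2 from rfl, show ((5 : Fin 7) : ℕ) = 5 from rfl, pow_one] at e0 e1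
  have h7' := hω.pow_seven
  have key : (ω ^ 2 - ω ^ 4) * (ω ^ 6 - 1) = 0 := by
    linear_combination ω ^ 6 * e0 - ω ^ 6 * e1 + (ω ^ 2 - ω ^ 4) * (ω ^ 7 + 1) * h7'
  rcases mul_eq_zero.1 key with h | h
  · have := w_inj hω (i := 2) (j := 4) (by
      simp only [w, show ((2 : Fin 7) : ℕ) = 2 from rfl, show ((4 : Fin 7) : ℕ) = 4 from rfl]
      exact sub_eq_zero.1 h)
    exact absurd this (by decide)
  · have := w_inj hω (i := 6) (j := 0) (by
      rw [w_zero]
      simp only [w, show ((6 : Fin 7) : ℕ) = 6 from rfl]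
      exact sub_eq_zero.1 h)
    exact absurd this (by decide)

/-- Conjugates of a homology by the Fourier element. -/
theorem exists_conj [Finite F] (hG : Gen ω X) {h : GL (Fin 7) F} (hK : h ∈ Kz X) {c : F}
    (hB : Bm (h : M7 F) = Matrix.diagonal ![c, 1, 1]) :
    ∃ (h' : GL (Fin 7) F) (u : Fin 3 → F), h' ∈ Kz X ∧ (∀ r, u r ≠ 0) ∧
      u 0 * u 0 + u 1 * u 1 + u 2 * u 2 = -7 ∧ u 0 * u 0 ≠ -7 ∧
      Bm (h' : M7 F) = 1 + (-(c - 1) / 7) • Matrix.vecMulVec u u := by
  have hω := hG.omega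
  have h7 : (7 : F) ≠ 0 := Omega.seven_ne_zero hω
  obtain ⟨t, ht, htv⟩ := hG.s
  have htK : t ∈ Kz X := ⟨ht, by rw [htv]; exact sym_iff_commute.1 sym_sm⟩
  obtain ⟨d, f, hf, hfv⟩ := hG.f
  have hfK : f ∈ Kz X := ⟨hf, by rw [hfv]; exact (sym_iff_commute.1 sym_fm).smul_left d⟩
  have hd : d ≠ 0 := fun h0 => f.ne_zero (by rw [hfv, h0, zero_smul])
  obtain ⟨a, ha2, hgood⟩ := exists_good hω
  obtain ⟨ha, haK, hav⟩ : ∃ ha : GL (Fin 7) F, ha ∈ Kz X ∧
      Bm (ha : M7 F) = Matrix.diagonal (fun s => if s = a then c else 1) := by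
    fin_cases a
    · refine ⟨h, hK, hB.trans (congrArg Matrix.diagonal (funext fun s => ?_))⟩
      fin_cases s <;> simp
    · refine ⟨t * h * t⁻¹, mul_mem (mul_mem htK hK) (inv_mem htK), bm_conj htK hK ?_⟩
      rw [hB, htv]
      refine Matrix.ext fun r s => ?_
      fin_cases r <;> fin_cases s <;> simp +decide [Bm, Sm, kb, Matrix.diagonal_mul, Matrix.mul_diagonal]
    · exact absurd rfl ha2
  refine ⟨f * ha * f⁻¹, fun r => Bm (Fm ω) r a, mul_mem (mul_mem hfK haK) (inv_mem hfK),
    fun r => bm_fm_ne_zero hω r a, ?_, hgood, bm_conj hfK haK ?_⟩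
  · have e := congrFun (congrFun (bm_fm_mul_fm hω) a) a
    simp only [Matrix.mul_apply, Fin.sum_univ_three, bm_fm_symm a, Matrix.smul_apply,
      Matrix.one_apply_eq, smul_eq_mul, mul_one] at e
    exact e
  · rw [hfv, bm_smul, hav, Matrix.mul_smul, Matrix.smul_mul]
    congr 1
    refine Matrix.ext fun r s => ?_
    have e := congrFun (congrFun (bm_fm_mul_fm hω) a) s
    simp only [Matrix.mul_apply, Fin.sum_univ_three, bm_fm_symm a, Matrix.smul_apply,
      Matrix.one_apply, smul_eq_mul] at e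
    rw [Matrix.mul_diagonal, Matrix.add_mul, Matrix.one_mul, Matrix.add_apply, Matrix.smul_mul,
      Matrix.smul_apply]
    simp only [Matrix.mul_apply, Matrix.vecMulVec_apply, Fin.sum_univ_three, smul_eq_mul]
    by_cases hs : s = a
    · subst hs
      simp only [if_true, mul_one] at e ⊢
      field_simp
      linear_combination (-(c - 1) * Bm (Fm ω) r s) * e
    · rw [if_neg (fun h => hs h.symm), mul_zero] at e
      rw [if_neg hs]
      linear_combination (-(c - 1) / 7 * Bm (Fm ω) r a) * e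

/-- The action of the centraliser on the odd vectors contains no homology. -/
theorem false_of_homology [Finite F] (hG : Gen ω X) (hu : UniqZero X)
    (kerB : ∀ h : GL (Fin 7) F, h ∈ Kz X → Bm (h : M7 F) = 1 →
      (h : M7 F) = 1 ∨ (h : M7 F) = Zm)
    {h : GL (Fin 7) F} (hK : h ∈ Kz X) {c : F}
    (hB : Bm (h : M7 F) = Matrix.diagonal ![c, 1, 1]) (hc : c ^ 2 ≠ 1) : False := by
  classical
  haveI : Fintype F := Fintype.ofFinite F
  have h2 := hG.two_ne_zero
  have h7 : (7 : F) ≠ 0 := Omega.seven_ne_zero hG.omega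
  obtain ⟨h', u, hK', hu0, hsum, hgood, hB'⟩ := exists_conj hG hK hB
  set kk : F := -(c - 1) / 7 with hkk
  have hk7 : kk * 7 = -(c - 1) := div_mul_cancel₀ _ h7
  set σ : F := u 1 * u 1 + u 2 * u 2 with hσ
  have hσ0 : σ ≠ 0 := fun e => hgood (by linear_combination hsum - e)
  have hkk0 : kk ≠ 0 := fun e => hc (by
    rw [e, zero_mul] at hk7
    rw [show c = 1 by linear_combination hk7, one_pow])
  -- the change of basis
  let Q : Matrix (Fin 3) (Fin 3) F := !![1, 0, 0; 0, u 1, u 2; 0, u 2, -u 1]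
  have hQ : Q.det ≠ 0 := by
    intro e
    refine hσ0 ?_
    simp [Q, Matrix.det_fin_three] at e
    linear_combination -e
  let P : GL (Fin 3) F := Matrix.GeneralLinearGroup.mkOfDetNeZero Q hQ
  let θ : Kz X →* GL (Fin 3) F := (MulAut.conj P⁻¹).toMonoidHom.comp (bHom X)
  have hθ : ∀ (k : Kz X) (A : GL (Fin 2) F),
      Bm ((k : GL (Fin 7) F) : M7 F) * Q = Q * blockMat (A : Matrix (Fin 2) (Fin 2) F) →
      θ k = block A := by
    intro k A e
    show P⁻¹ * bHom X k * P⁻¹⁻¹ = block A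
    rw [inv_inv, mul_assoc, inv_mul_eq_iff_eq_mul]
    exact Units.ext e
  have hdetR : (!![c, 0; 0, 1] : Matrix (Fin 2) (Fin 2) F).det ≠ 0 := by
    intro e
    simp [Matrix.det_fin_two_of] at e
    have := congrArg Matrix.det hB
    rw [Matrix.det_diagonal, Fin.prod_univ_three] at this
    simp [e] at this
    exact ((Matrix.isUnit_iff_isUnit_det _).1 (bHom X ⟨h, hK⟩).isUnit).ne_zero this
  let R : GL (Fin 2) F := Matrix.GeneralLinearGroup.mkOfDetNeZero _ hdetR
  have hR : θ ⟨h, hK⟩ = block R := hθ _ _ (by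
    show Bm (h : M7 F) * Q = Q * blockMat !![c, 0; 0, 1]
    rw [hB]
    refine Matrix.ext fun i j => ?_
    fin_cases i <;> fin_cases j <;>
      simp [Q, blockMat, Matrix.mul_apply, Fin.sum_univ_three, Matrix.diagonal])
  set M' : Matrix (Fin 2) (Fin 2) F :=
    !![1 + kk * (u 0 * u 0), kk * σ * u 0; kk * u 0, 1 + kk * σ] with hM'
  have hblk : Bm (h' : M7 F) * Q = Q * blockMat M' := by
    rw [hB']
    refine Matrix.ext fun i j => ?_
    fin_cases i <;> fin_cases j <;>
      simp [Q, M', hσ, blockMat, Matrix.mul_apply, Fin.sum_univ_three, Matrix.vecMulVec_apply,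
        Matrix.one_apply] <;> ring
  have hdetR' : M'.det ≠ 0 := by
    intro e
    have := congrArg Matrix.det hblk
    rw [Matrix.det_mul, Matrix.det_mul,
      show (blockMat M').det = M'.det by
        simp [blockMat, Matrix.det_fin_three, Matrix.det_fin_two], e, mul_zero, mul_eq_zero] at this
    exact ((Matrix.isUnit_iff_isUnit_det _).1 (bHom X ⟨h', hK'⟩).isUnit).ne_zero
      (this.resolve_right hQ)
  let R' : GL (Fin 2) F := Matrix.GeneralLinearGroup.mkOfDetNeZero M' hdetR'
  have hR' : θ ⟨h', hK'⟩ = block R' := hθ _ _ hblk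
  -- the four-group
  set G : Subgroup (GL (Fin 2) F) := Subgroup.closure {R, R'} with hGdef
  obtain ⟨i₀, hi₀, j₀, hj₀, hii, hjj, hi1, hj1, hij, hcomm⟩ :=
    hasFour_of_pair h2 (R := R) (R' := R') rfl rfl (mul_ne_zero (mul_ne_zero hkk0 hσ0) (hu0 0))
      (mul_ne_zero hkk0 (hu0 0)) (by linear_combination kk * hsum + kk * hσ - hk7) hc
  -- lifting
  set G0 : Subgroup (GL (Fin 2) F) := (((K0 X).subgroupOf (Kz X)).map θ).comap block with hG0
  have hGθ : G ≤ θ.range.comap block := by
    rw [hGdef, Subgroup.closure_le]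
    intro A hA
    rcases hA with rfl | rfl
    · exact ⟨_, hR⟩
    · exact ⟨_, hR'⟩
  have hOd : Subgroup.closure {x | x ∈ G.map ProjGenLinGroup.mk ∧ Odd (orderOf x)} ≤
      G0.map ProjGenLinGroup.mk := by
    rw [Subgroup.closure_le]
    rintro x ⟨⟨A, hA, rfl⟩, hodd⟩
    obtain ⟨g, hg⟩ := hGθ hA
    obtain ⟨e, m, hm, hord⟩ := Nat.exists_eq_two_pow_mul_odd (orderOf_pos (g : GL (Fin 7) F)).ne'
    have hA0 : A ^ (2 ^ e) ∈ G0 := by
      refine ⟨g ^ (2 ^ e), ?_, by rw [map_pow, map_pow, hg]⟩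
      show ((g ^ (2 ^ e) : Kz X) : GL (Fin 7) F) ∈ K0 X
      rw [Subgroup.coe_pow]
      refine mem_K0 (pow_mem g.2 _) (Odd.of_dvd_nat hm ?_)
      exact orderOf_dvd_of_pow_eq_one (by rw [← pow_mul, ← hord, pow_orderOf_eq_one])
    obtain ⟨l, hl⟩ := exists_pow_eq_self_of_coprime (n := 2 ^ e) (x := ProjGenLinGroup.mk A)
      (Nat.Coprime.pow_left _ (Nat.coprime_two_left.2 hodd))
    refine ⟨(A ^ (2 ^ e)) ^ l, pow_mem hA0 l, ?_⟩
    rw [map_pow, map_pow, hl]
  have hT : ∀ x ∈ ⁅Subgroup.closure {x | x ∈ G.map ProjGenLinGroup.mk ∧ Odd (orderOf x)},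
      Subgroup.closure {x | x ∈ G.map ProjGenLinGroup.mk ∧ Odd (orderOf x)}⁆,
      ∃ I ∈ G0, (I : Matrix (Fin 2) (Fin 2) F).det = 1 ∧ ProjGenLinGroup.mk I = x := by
    intro x hx
    have hx' := Subgroup.commutator_mono hOd hOd hx
    rw [← Subgroup.map_commutator] at hx'
    obtain ⟨I, hI, rfl⟩ := hx'
    refine ⟨I, Subgroup.commutator_le_self G0 hI, ?_, rfl⟩
    have hle : ⁅G0, G0⁆ ≤ (Matrix.GeneralLinearGroup.det).ker := by
      rw [Subgroup.commutator_le]
      intro p _ q _
      rw [MonoidHom.mem_ker, map_commutatorElement, commutatorElement_eq_one_iff_mul_comm,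
        mul_comm]
    exact congrArg Units.val (MonoidHom.mem_ker.1 (hle hI))
  obtain ⟨I, hI0, hIdet, hImk⟩ := hT _ hi₀
  obtain ⟨J, hJ0, hJdet, hJmk⟩ := hT _ hj₀
  rw [← hImk] at hii hi1 hij hcomm
  rw [← hJmk] at hjj hj1 hij hcomm
  have hI2 := sq_eq_neg_one hIdet hii hi1
  have hJ2 := sq_eq_neg_one hJdet hjj hj1
  obtain ⟨gi, hgi, hgiv⟩ := hI0
  obtain ⟨gj, hgj, hgjv⟩ := hJ0
  -- the double cover
  set π : K0 X →* GL (Fin 3) F := θ.comp (Subgroup.inclusion (K0_le X)) with hπ
  obtain ⟨j, hj, hjv⟩ := zm_mem_K0 hG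
  set z : K0 X := ⟨j, hj⟩ ^ 2 with hz
  have hzv : ((z : GL (Fin 7) F) : M7 F) = Zm := by
    rw [hz, Subgroup.coe_pow, Units.val_pow_eq_pow_val, hjv]
  have hker : ∀ k : K0 X, π k = 1 ↔ k = 1 ∨ k = z := by
    intro k
    have hcj : π k = 1 ↔ bHom X (Subgroup.inclusion (K0_le X) k) = 1 := map_eq_one_iff _
      (MulAut.conj P⁻¹).injective
    rw [hcj]
    constructor
    · intro h1
      have hb : Bm ((k : GL (Fin 7) F) : M7 F) = 1 := congrArg Units.val h1
      exact (kerB _ (K0_le X k.2) hb).imp (fun e => Subtype.ext (Units.ext e))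
        fun e => Subtype.ext (Units.ext (e.trans hzv.symm))
    · rintro (rfl | rfl)
      · simp
      · exact Units.ext (by simp [hzv])
  have huz : ∀ k : K0 X, orderOf k = 2 → k = z := fun k hk =>
    Subtype.ext (Units.ext ((hu _ k.2 (by rw [Subgroup.orderOf_coe, hk])).trans hzv.symm))
  set i' : K0 X := ⟨(gi : GL (Fin 7) F), hgi⟩
  set j' : K0 X := ⟨(gj : GL (Fin 7) F), hgj⟩
  have hi' : π i' = block I := hgiv
  have hj' : π j' = block J := hgjv
  have hIJ : I * I = J * J := Units.ext (by rw [Units.val_mul, Units.val_mul, hI2, hJ2])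
  have hI4 : I * I * (I * I) = 1 := Units.ext (by
    rw [Units.val_mul, Units.val_mul, hI2, Units.val_one, neg_mul_neg, one_mul])
  refine no_quaternion_image π z hker huz i' j' ?_ ?_ ?_ ?_
  · rw [hi', hj', pow_two, pow_two, ← map_mul, ← map_mul, hIJ]
  · rw [hi', pow_two, ← map_mul, ne_eq, map_eq_one_iff _ block_injective]
    intro e
    have e' : (I : Matrix (Fin 2) (Fin 2) F) * I = 1 := by rw [← Units.val_mul, e, Units.val_one]
    have := congrFun (congrFun e' 0) 0
    rw [hI2] at this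
    simp at this
    exact h2 (by linear_combination -this)
  · rw [hi', show 4 = 2 + 2 from rfl, pow_add, pow_two, ← map_mul, ← map_mul, hI4, map_one]
  · rw [hi', hj', ← map_inv, ← map_inv, ← map_mul, ← map_mul,
      conj_eq_inv h2 hI2 hJ2 hIdet hJdet hcomm hij]

end Concrete

end Homology

/-- No element of the centraliser of the parity involution acts on the odd vectors as a homology
of order at least three. -/
theorem no_homology {F : Type*} [Field F] [Finite F] {ω : F} {X : Subgroup (GL (Fin 7) F)}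
    (hG : Gen ω X) (hu : UniqZero X)
    (kerB : ∀ h : GL (Fin 7) F, h ∈ Kz X → Bm (h : M7 F) = 1 →
      (h : M7 F) = 1 ∨ (h : M7 F) = Zm)
    {h : GL (Fin 7) F} (hK : h ∈ Kz X) {c : F}
    (hB : Bm (h : M7 F) = Matrix.diagonal ![c, 1, 1]) (hc : c ^ 2 ≠ 1) : False :=
  Homology.false_of_homology hG hu kerB hK hB hc

end Cfsg.Agent.CSixSeven
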