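import Cfsg.Agent.CSixSeven.Basic
import Cfsg.Agent.CSixSeven.CommFix
import Mathlib

/-!
The elements of the centraliser of the parity involution acting trivially on the odd vectors.
-/

set_option autoImplicit false
set_option linter.unusedSectionVars false

namespace Cfsg.Agent.CSixSeven.Kernel

open Cfsg Cfsg.Geo Matrix

variable {F : Type*} [Field F] {ω : F}

lemma w_mul (hω : Omega ω) (i j : Fin 7) : w ω (i + j) = w ω i * w ω j := by
  rw [w, w, w, ← pow_add, Fin.val_add, ← pow_eq_pow_mod _ hω.pow_seven]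

lemma w_ne_zero (hω : Omega ω) (i : Fin 7) : w ω i ≠ 0 :=
  pow_ne_zero _ fun h => by simpa [h] using hω.pow_seven

lemma orderOf_omega (hω : Omega ω) : orderOf ω = 7 :=
  haveI : Fact (Nat.Prime 7) := ⟨by norm_num⟩
  orderOf_eq_prime hω.pow_seven hω.ne_one

lemma w_inj (hω : Omega ω) {i j : Fin 7} (h : w ω i = w ω j) : i = j :=
  Fin.ext (pow_injOn_Iio_orderOf (by simp only [Set.mem_Iio, orderOf_omega hω]; exact i.2)
    (by simp only [Set.mem_Iio, orderOf_omega hω]; exact j.2) h)

lemma eq_or_neg_of_sq : ∀ i j : Fin 7, i * i = j * j → i = j ∨ i = -j := by decide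

lemma perm_eq : ∀ j p : Fin 7, p = j ∨ p = -j →
    ((1 - j) * (1 - j) = (1 - p) * (1 - p) → p = j) ∧
      ((1 - j) * (1 - j) = (-1 - p) * (-1 - p) → p = -j) := by decide

lemma two_mul_inj : ∀ a b : Fin 7, -2 * a + -2 * a = -2 * b + -2 * b → a = b := by decide

lemma gauss_id : ∀ i m j : Fin 7,
    -2 * ((i - (m + (i + 2 * j))) * (i - (m + (i + 2 * j)))) + (m + (i + 2 * j)) * j =
      (i * j + j * j) + -2 * (m * m) := by decide

/-- Kernel elements fix the odd vectors. -/
abbrev Fix1 (M : M7 F) : Prop := M * (1 + Zm) = 1 + Zm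

lemma mul_Zm_apply (M : M7 F) (i j : Fin 7) : (M * (Zm : M7 F)) i j = -M i (-j) := by
  rw [Matrix.mul_apply, Finset.sum_eq_single (-j)]
  · simp [Zm]
  · intro k _ hk; simp [Zm, hk]
  · simp

lemma Zm_mul_apply (M : M7 F) (i j : Fin 7) : ((Zm : M7 F) * M) i j = -M (-i) j := by
  rw [Matrix.mul_apply, Finset.sum_eq_single (-i)]
  · simp [Zm]
  · intro k _ hk
    have : i ≠ -k := fun h => hk (by rw [h, neg_neg])
    simp [Zm, this]
  · simp

lemma symm_apply {M : M7 F} (h : Commute M (Zm : M7 F)) (i j : Fin 7) :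
    M (-i) (-j) = M i j := by
  have := congrFun (congrFun h.eq i) (-j)
  rw [mul_Zm_apply, Zm_mul_apply, neg_inj, neg_neg] at this
  exact this.symm

lemma fix1_of_Bm {M : M7 F} (h : Commute M (Zm : M7 F)) (hB : Bm M = 1) : Fix1 M := by
  have hs : ∀ i j, M (-i) (-j) = M i j := symm_apply h
  have key : ∀ r s : Fin 3, M (kb r) (kb s) - M (kb r) (-kb s) = if r = s then 1 else 0 :=
    fun r s => by simpa [Bm, Matrix.one_apply] using congrFun (congrFun hB r) s
  have hcase : ∀ i : Fin 7, i = 0 ∨ ∃ r : Fin 3, i = kb r ∨ i = -kb r := by decide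
  have hδ : ∀ r s : Fin 3, kb r ≠ 0 ∧ (kb r = kb s ↔ r = s) ∧ kb r ≠ -kb s ∧ -kb r ≠ kb s := by
    decide
  ext i j
  rw [Matrix.mul_add, Matrix.mul_one, Matrix.add_apply, mul_Zm_apply, Matrix.add_apply,
    Matrix.one_apply, Zm, Matrix.of_apply, ← sub_eq_add_neg]
  rcases hcase i with rfl | ⟨r, rfl | rfl⟩ <;> rcases hcase j with rfl | ⟨t, rfl | rfl⟩
  · simp
  · have h1 := hs 0 (kb t)
    rw [neg_zero] at h1
    simp [h1, (hδ t t).1, (hδ t t).1.symm]
  · have h1 := hs 0 (kb t)
    rw [neg_zero] at h1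
    simp [h1, (hδ t t).1, (hδ t t).1.symm]
  · simp [(hδ r r).1]
  · have h1 := key r t
    simp only [if_neg (hδ r t).2.2.1, (hδ r t).2.1]
    split_ifs at h1 ⊢ <;> linear_combination h1
  · have h1 := key r t
    simp only [neg_neg, if_neg (hδ r t).2.2.1, (hδ r t).2.1]
    split_ifs at h1 ⊢ <;> linear_combination -h1
  · simp [(hδ r r).1]
  · have h1 := key r t
    have h2 := hs (kb r) (kb t)
    have h3 := hs (kb r) (-kb t)
    rw [neg_neg] at h3
    simp only [if_neg (hδ r t).2.2.2, neg_inj, (hδ r t).2.1]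
    split_ifs at h1 ⊢ <;> linear_combination -h1 + h3 - h2
  · have h1 := key r t
    have h2 := hs (kb r) (kb t)
    have h3 := hs (kb r) (-kb t)
    rw [neg_neg] at h3
    simp only [neg_neg, neg_inj, if_neg (hδ r t).2.2.2, (hδ r t).2.1]
    split_ifs at h1 ⊢ <;> linear_combination h1 + h2 - h3

/-- A kernel element commuting with the quadratic phase is a signed monomial involution. -/
lemma mono_shape (hω : Omega ω) {M : M7 F} (hz : Commute M (Zm : M7 F)) (hB : Fix1 M)
    (hg : Commute M (Gm ω)) (hm : IsMono M) (hdet : M.det = 1) :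
    ∃ (π : Fin 7 → Fin 7) (s : Fin 7 → F), (∀ i j, M i j = if i = π j then s j else 0) ∧
      (∀ j, π j = j ∨ π j = -j) ∧ (∀ j, π (π j) = j) ∧ (∀ j, s j = 1 ∨ s j = -1) ∧
      (π 1 = 1 → s 1 = 1) ∧ (π 1 ≠ 1 → s 1 = -1) ∧ M * M = 1 := by
  classical
  have hsupp : ∀ i j, M i j ≠ 0 → i = j ∨ i = -j := by
    intro i j h
    apply eq_or_neg_of_sq
    have h1 := congrFun (congrFun hg.eq i) j
    rw [Gm, Dm, Matrix.mul_diagonal, Matrix.diagonal_mul, mul_comm] at h1
    exact (w_inj hω (mul_right_cancel₀ h h1)).symm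
  have hfix : ∀ i j, M i j - M i (-j) = (if i = j then 1 else 0) - (if i = -j then 1 else 0) := by
    intro i j
    have h1 := congrFun (congrFun hB i) j
    rw [Matrix.mul_add, Matrix.mul_one, Matrix.add_apply, mul_Zm_apply, Matrix.add_apply,
      Matrix.one_apply, Zm, Matrix.of_apply, ← sub_eq_add_neg] at h1
    rw [h1]
    by_cases h2 : i = -j <;> simp [h2, sub_eq_add_neg]
  have hnz : ∀ j, M j j ≠ 0 ∨ M (-j) j ≠ 0 := by
    intro j
    by_contra h
    push Not at h
    have : M.det = 0 := Matrix.det_eq_zero_of_column_eq_zero j fun i => by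
      by_contra hi
      rcases hsupp i j hi with rfl | rfl
      · exact hi h.1
      · exact hi h.2
    rw [hdet] at this
    exact one_ne_zero this
  have hne : ∀ j : Fin 7, j ≠ 0 → j ≠ -j := by decide
  have hcol : ∀ j : Fin 7, j ≠ 0 →
      (M j j = 1 ∧ M (-j) j = 0) ∨ (M j j = 0 ∧ M (-j) j = -1) := by
    intro j hj
    have h1 := hfix j j
    rw [if_pos rfl, if_neg (hne j hj), sub_zero] at h1
    have h2 : M j (-j) = M (-j) j := by
      have := symm_apply hz (-j) j
      rw [neg_neg] at this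
      exact this
    rw [h2] at h1
    by_cases h3 : M j j = 0
    · right; exact ⟨h3, by rw [h3] at h1; linear_combination -h1⟩
    · have h4 : M (-j) j = 0 := by
        by_contra h4
        exact hne j hj (hm _ _ _ h3 h4)
      left; exact ⟨by rw [h4, sub_zero] at h1; exact h1, h4⟩
  let π : Fin 7 → Fin 7 := fun j => if M j j = 0 then -j else j
  let s : Fin 7 → F := fun j => M (π j) j
  have hπ : ∀ j, π j = j ∨ π j = -j := fun j => by
    by_cases h : M j j = 0 <;> simp [π, h]
  have hπneg : ∀ j, π (-j) = -π j := fun j => by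
    by_cases h : M j j = 0 <;> simp [π, symm_apply hz j j, h]
  have hinv : ∀ j, π (π j) = j := fun j => by
    rcases hπ j with h | h
    · rw [h, h]
    · rw [h, hπneg, h, neg_neg]
  have hform : ∀ i j, M i j = if i = π j then s j else 0 := by
    intro i j
    split_ifs with h
    · rw [h]
    · by_contra hij
      apply h
      have h1 : M (π j) j ≠ 0 := by
        rcases hnz j with h1 | h1
        · simp [π, h1]
        · by_cases h2 : M j j = 0
          · simp [π, h2, h1]
          · simp [π, h2]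
      exact hm _ _ _ hij h1
  have hsneg : ∀ j, s (-j) = s j := fun j => by
    show M (π (-j)) (-j) = M (π j) j
    rw [hπneg, symm_apply hz]
  have hs0 : ∀ j : Fin 7, j ≠ 0 → s j = 1 ∨ s j = -1 := fun j hj => by
    rcases hcol j hj with ⟨h1, h2⟩ | ⟨h1, h2⟩
    · left; simp [s, π, h1]
    · right; simp [s, π, h1, h2]
  have hsq : M * M = Matrix.diagonal fun j => s j * s j := by
    ext i j
    rw [Matrix.mul_apply, Finset.sum_eq_single (π j)]
    · rw [hform i (π j), hform (π j) j, if_pos rfl, hinv, Matrix.diagonal_apply]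
      by_cases h : i = j
      · subst h
        rcases hπ i with h' | h'
        · simp [h']
        · simp [h', hsneg]
      · simp [h]
    · intro k _ hk; rw [hform k j, if_neg hk, mul_zero]
    · simp
  have h0 : s 0 * s 0 = 1 := by
    have h1 := congrArg Matrix.det hsq
    rw [Matrix.det_mul, hdet, one_mul, Matrix.det_diagonal, Fin.prod_univ_succ] at h1
    rw [Finset.prod_eq_one fun k _ => by
      rcases hs0 k.succ (Fin.succ_ne_zero k) with e | e <;> rw [e] <;> ring, mul_one] at h1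
    exact h1.symm
  have hs : ∀ j, s j = 1 ∨ s j = -1 := fun j => by
    by_cases hj : j = 0
    · subst hj; exact mul_self_eq_one_iff.1 h0
    · exact hs0 j hj
  refine ⟨π, s, hform, hπ, hinv, hs, ?_, ?_, ?_⟩
  · intro h
    rcases hcol 1 (by decide) with ⟨h1, h2⟩ | ⟨h1, h2⟩
    · simp [s, π, h1]
    · simp [π, h1] at h
      exact absurd h (by decide)
  · intro h
    rcases hcol 1 (by decide) with ⟨h1, h2⟩ | ⟨h1, h2⟩
    · simp [π, h1] at h
    · simp [s, π, h1, h2]
  · rw [hsq, ← Matrix.diagonal_one]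
    congr 1
    funext j
    rcases hs j with e | e <;> simp [e]

/-- Such an element commuting with a conjugate of the phase is `1` or the parity involution. -/
lemma shape_eq (hω : Omega ω) {M U : M7 F} {κ : F} {π : Fin 7 → Fin 7}
    {s : Fin 7 → F} (hform : ∀ i j, M i j = if i = π j then s j else 0)
    (hπ : ∀ j, π j = j ∨ π j = -j) (hinv : ∀ j, π (π j) = j) (hs : ∀ j, s j = 1 ∨ s j = -1)
    (hp : π 1 = 1 → s 1 = 1) (hn : π 1 ≠ 1 → s 1 = -1)
    (hU : (Matrix.of fun i j => w ω (-2 * ((i - j) * (i - j)))) = κ • U) (hc : Commute M U) :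
    M = 1 ∨ M = Zm := by
  classical
  have hc' : Commute M (Matrix.of fun i j => w ω (-2 * ((i - j) * (i - j)))) :=
    hU ▸ hc.smul_right κ
  have key : ∀ i j, s i = s j ∧ (i - j) * (i - j) = (π i - π j) * (π i - π j) := by
    intro i j
    have h := congrFun (congrFun hc'.eq (π i)) j
    rw [Matrix.mul_apply, Finset.sum_eq_single i, Matrix.mul_apply, Finset.sum_eq_single (π j)] at h
    · rw [hform, if_pos rfl, hform, if_pos rfl] at h
      simp only [Matrix.of_apply] at h
      have h' : w ω (-2 * ((i - j) * (i - j)) + -2 * ((i - j) * (i - j))) =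
          w ω (-2 * ((π i - π j) * (π i - π j)) + -2 * ((π i - π j) * (π i - π j))) := by
        rw [w_mul hω, w_mul hω]
        have e : ∀ j, s j * s j = 1 := fun j => by rcases hs j with e | e <;> rw [e] <;> ring
        linear_combination congrArg (fun x => x * x) h +
          (w ω (-2 * ((π i - π j) * (π i - π j))) * w ω (-2 * ((π i - π j) * (π i - π j)))) * e j -
          (w ω (-2 * ((i - j) * (i - j))) * w ω (-2 * ((i - j) * (i - j)))) * e i
      have h3 := two_mul_inj _ _ (w_inj hω h')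
      refine ⟨?_, h3⟩
      rw [h3, mul_comm (w ω _) (s j)] at h
      exact mul_right_cancel₀ (w_ne_zero hω _) h
    · intro k _ hk; rw [hform, if_neg hk, mul_zero]
    · simp
    · intro k _ hk
      rw [hform, if_neg (fun e => hk ?_), zero_mul]
      rw [← hinv k, ← e, hinv]
    · simp
  by_cases h1 : π 1 = 1
  · left
    ext i j
    have hj : π j = j := (perm_eq j (π j) (hπ j)).1 (by rw [(key 1 j).2, h1])
    rw [hform, hj, Matrix.one_apply, ← (key 1 j).1, hp h1]
  · right
    have h1' : π 1 = -1 := (hπ 1).resolve_left h1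
    ext i j
    have hj : π j = -j := (perm_eq j (π j) (hπ j)).2 (by rw [(key 1 j).2, h1'])
    rw [hform, hj, Zm, Matrix.of_apply, ← (key 1 j).1, hn h1]

lemma det_eq_one {X : Subgroup (GL (Fin 7) F)} (hX : X ≤ specialLinear (Fin 7) F)
    {h : GL (Fin 7) F} (hh : h ∈ X) : (h : M7 F).det = 1 := by
  have h1 := congrArg Units.val (MonoidHom.mem_ker.1 (hX hh))
  simpa using h1

lemma gm_pow_seven (hω : Omega ω) : (Gm ω : M7 F) ^ 7 = 1 := by
  rw [Gm, Dm, Matrix.diagonal_pow, ← Matrix.diagonal_one]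
  congr 1
  funext i
  rw [Pi.pow_apply, w, ← pow_mul, mul_comm, pow_mul, hω.pow_seven, one_pow]

lemma fm_comm_Zm : Commute (Fm ω : M7 F) (Zm : M7 F) := by
  show _ * _ = _ * _
  ext i j
  rw [mul_Zm_apply, Zm_mul_apply, Fm, Matrix.of_apply, Matrix.of_apply]
  congr 2
  exact (by decide : ∀ i j : Fin 7, i * -j = -i * j) i j

lemma gm_comm_Zm : Commute (Gm ω : M7 F) (Zm : M7 F) := by
  show _ * _ = _ * _
  ext i j
  rw [mul_Zm_apply, Zm_mul_apply, Gm, Dm, Matrix.diagonal_apply, Matrix.diagonal_apply]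
  by_cases h : i = -j
  · subst h
    simp [neg_neg, (by decide : ∀ j : Fin 7, -j * -j = j * j)]
  · have h' : -i ≠ j := fun e => h (by rw [← e, neg_neg])
    simp [h, h']

/-- The kernel of the action of the centraliser on odd vectors. -/
def Yk (X : Subgroup (GL (Fin 7) F)) : Subgroup (GL (Fin 7) F) where
  carrier := {h | h ∈ Kz X ∧ Fix1 (h : M7 F)}
  one_mem' := ⟨one_mem _, by simp [Fix1]⟩
  mul_mem' := fun {a b} ha hb => ⟨mul_mem ha.1 hb.1, by
    show _ * _ = _
    rw [Units.val_mul, mul_assoc, hb.2, ha.2]⟩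
  inv_mem' := fun {a} ha => ⟨inv_mem ha.1, by
    show _ * _ = _
    have h : (a⁻¹ : GL (Fin 7) F).val * ((a : M7 F) * (1 + Zm)) = (a⁻¹).val * (1 + Zm) := by
      rw [ha.2]
    rw [← mul_assoc, ← Units.val_mul, inv_mul_cancel, Units.val_one, one_mul] at h
    exact h.symm⟩

lemma mem_Yk {X : Subgroup (GL (Fin 7) F)} {h : GL (Fin 7) F} :
    h ∈ Yk X ↔ h ∈ Kz X ∧ Fix1 (h : M7 F) := Iff.rfl

lemma Yk_conj {X : Subgroup (GL (Fin 7) F)} {k h : GL (Fin 7) F} (hk : k ∈ Kz X)
    (hh : h ∈ Yk X) : k * h * k⁻¹ ∈ Yk X := by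
  refine ⟨mul_mem (mul_mem hk hh.1) (inv_mem hk), ?_⟩
  show _ * _ = _
  have hc : Commute (k⁻¹ : GL (Fin 7) F).val (1 + Zm : M7 F) :=
    (Commute.one_right _).add_right (inv_mem hk).2
  rw [Units.val_mul, Units.val_mul, mul_assoc, mul_assoc, hc.eq, ← mul_assoc _ _ (k⁻¹).val, hh.2,
    ← hc.eq, ← mul_assoc, ← Units.val_mul, mul_inv_cancel, Units.val_one, one_mul]

lemma fixVec {X : Subgroup (GL (Fin 7) F)} :
    ∃ v : Fin 7 → F, v ≠ 0 ∧ ∀ h ∈ Yk X, (h : M7 F) *ᵥ v = v := by
  refine ⟨(1 + Zm : M7 F) *ᵥ Pi.single 1 1, fun h => ?_, fun h hh => ?_⟩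
  · have := congrFun h 1
    simp [Zm, (by decide : (1 : Fin 7) ≠ -1)] at this
  · rw [Matrix.mulVec_mulVec, hh.2]

lemma natCast_prime_ne_zero {p l : ℕ} [CharP F p] (hl : l.Prime) (h : l ≠ p) : (l : F) ≠ 0 := by
  rw [ne_eq, CharP.cast_eq_zero_iff F p]
  intro hd
  rcases (Nat.dvd_prime hl).1 hd with h1 | h1
  · exact CharP.char_ne_one F p h1
  · exact h h1.symm

/-- Bilinearity of commutation among elements with commutators in a central group of order two. -/
lemma chi_orbit {c : ℕ → ZMod 2} (_hper : c 7 = c 0) (h0 : c 0 = 0)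
    (hsym : c 6 = c 1 ∧ c 5 = c 2 ∧ c 4 = c 3)
    (h : (c 3 = c 1 ∧ c 2 = c 1 ∧ c 1 = c 2 + c 1) ∨ (c 3 = c 2 ∧ c 2 = c 1 + c 1 ∧ c 1 = c 2)) :
    ∀ k, k < 7 → c k = 0 := by
  have h2 : c 2 = 0 := by
    rcases h with ⟨_, _, h3⟩ | ⟨_, h2, _⟩
    · linear_combination -h3
    · rw [h2]; exact CharTwo.add_self_eq_zero _
  have h1 : c 1 = 0 := by
    rcases h with ⟨_, h1, _⟩ | ⟨_, _, h3⟩
    · rw [← h1, h2]
    · rw [h3, h2]
  have h3 : c 3 = 0 := by
    rcases h with ⟨h3, _, _⟩ | ⟨h3, _, _⟩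
    · rw [h3, h1]
    · rw [h3, h2]
  intro k hk
  interval_cases k <;> simp [h0, h1, h2, h3, hsym]

variable {X : Subgroup (GL (Fin 7) F)}

/-- An element of order seven centralises the second centre of the kernel. -/
lemma fix_second (hω : Omega ω) {g z : GL (Fin 7) F} (hg : g ^ 7 = 1)
    (hz : z * z = 1) (hgz : Commute g z)
    {W : Subgroup (GL (Fin 7) F)} (hzW : z ∈ W) (hzc : ∀ x ∈ W, Commute z x)
    (hcomm : ∀ a ∈ W, ∀ b ∈ W, a * b = b * a ∨ a * b = z * (b * a))
    (hsq : ∀ a ∈ W, a * a = 1 ∨ a * a = z) (hinv : ∀ a ∈ W, g * a * g⁻¹ ∈ W)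
    (hfix : ∀ A : Subgroup (GL (Fin 7) F), A ≤ W → (∀ a ∈ A, ∀ b ∈ A, a * b = b * a) →
      (∀ a ∈ A, g⁻¹ * a * g ∈ A) → ∀ a ∈ A, g * a = a * g) :
    ∀ a ∈ W, g * a = a * g := by
  classical
  rcases eq_or_ne z 1 with hz1 | hz1
  · subst hz1
    refine fun a ha => hfix W le_rfl (fun a ha b hb => by simpa using hcomm a ha b hb) ?_ a ha
    intro a ha
    have : ∀ k : ℕ, g ^ k * a * (g ^ k)⁻¹ ∈ W := by
      intro k
      induction k with
      | zero => simpa using ha
      | succ k ih => rw [pow_succ', _root_.mul_inv_rev]; simpa [mul_assoc] using hinv _ ih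
    have h6 := this 6
    rwa [show g ^ 6 = g⁻¹ from eq_inv_of_mul_eq_one_left (by rw [← pow_succ, hg]), inv_inv] at h6
  -- conjugates
  let r : ℕ → GL (Fin 7) F → GL (Fin 7) F := fun k a => g ^ k * a * (g ^ k)⁻¹
  have r0 : ∀ a, r 0 a = a := fun a => by simp [r]
  have radd : ∀ j k a, r (j + k) a = r j (r k a) := fun j k a => by
    simp [r, pow_add, mul_assoc]
  have rmul : ∀ k a b, r k (a * b) = r k a * r k b := fun k a b => by simp [r, mul_assoc]
  have r7 : ∀ a, r 7 a = a := fun a => by simp [r, hg]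
  have rz : ∀ k, r k z = z := fun k => by
    simp only [r]
    rw [(hgz.pow_left k).eq, mul_inv_cancel_right]
  have rW : ∀ k a, a ∈ W → r k a ∈ W := by
    intro k
    induction k with
    | zero => intro a ha; rwa [r0]
    | succ k ih =>
      intro a ha
      rw [add_comm, radd]
      simpa [r] using hinv _ (ih a ha)
  -- equality up to `z`
  let E : GL (Fin 7) F → GL (Fin 7) F → Prop := fun a b => a = b ∨ a = z * b
  let χ : GL (Fin 7) F → GL (Fin 7) F → ZMod 2 := fun a b => if a * b = b * a then 0 else 1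
  have hneq : ∀ x : GL (Fin 7) F, z * x ≠ x := fun x h => hz1 (by simpa using h)
  have χsymm : ∀ a b, χ a b = χ b a := fun a b => by simp only [χ, eq_comm]
  have χmul : ∀ a ∈ W, ∀ b ∈ W, ∀ t ∈ W, χ (a * b) t = χ a t + χ b t := by
    intro a ha b hb t ht
    have hzb : ∀ x ∈ W, z * x = x * z := fun x hx => (hzc x hx).eq
    rcases hcomm a ha t ht with h1 | h1 <;> rcases hcomm b hb t ht with h2 | h2
    · have e : a * b * t = t * (a * b) := by rw [mul_assoc, h2, ← mul_assoc, h1, mul_assoc]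
      simp [χ, h1, h2, e]
    · have e : a * b * t = z * (t * (a * b)) := by
        rw [mul_assoc, h2, ← mul_assoc, ← hzb a ha, mul_assoc, ← mul_assoc a, h1, mul_assoc]
      simp [χ, h1, h2, e, hneq]
    · have e : a * b * t = z * (t * (a * b)) := by
        rw [mul_assoc, h2, ← mul_assoc, h1, mul_assoc, mul_assoc, ]
      simp [χ, h1, h2, e, hneq]
    · have e : a * b * t = t * (a * b) := by
        rw [mul_assoc, h2, ← mul_assoc, ← hzb a ha, mul_assoc, ← mul_assoc a, h1, ← mul_assoc,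
          ← mul_assoc, ← mul_assoc, hz, one_mul, mul_assoc]
      simp [χ, h1, h2, e, hneq, show (1 : ZMod 2) + 1 = 0 from rfl]
  have χz : ∀ t ∈ W, χ z t = 0 := fun t ht => by simp [χ, (hzc t ht).eq]
  have χE : ∀ a b, b ∈ W → E a b → ∀ t ∈ W, χ a t = χ b t := by
    rintro a b hb (rfl | rfl) t ht
    · rfl
    · rw [χmul z hzW b hb t ht, χz t ht, zero_add]
  have χr : ∀ k a b, χ (r k a) (r k b) = χ a b := by
    intro k a b
    simp only [χ, ← rmul]
    have : r k (a * b) = r k (b * a) ↔ a * b = b * a := by simp [r]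
    simp [this]
  have χself : ∀ a, χ a a = 0 := fun a => by simp [χ]
  -- an element whose conjugates satisfy a recurrence is fixed modulo `z`
  have orbit : ∀ b ∈ W, (E (r 3 b) (r 1 b * b) ∨ E (r 3 b) (r 2 b * b)) → g * b = b * g := by
    intro b hb h
    have hw : ∀ k, r k b ∈ W := fun k => rW k b hb
    have hsy : ∀ j k, j + k = 7 → χ b (r j b) = χ b (r k b) := by
      intro j k hjk
      rw [← χr k b (r j b), ← radd, add_comm k j, hjk, r7, χsymm]
    have hc : ∀ k, k < 7 → χ b (r k b) = 0 := by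
      refine chi_orbit (c := fun k => χ b (r k b)) (by simp [r7, r0]) (by simp [r0, χself])
        ⟨hsy 6 1 rfl, hsy 5 2 rfl, hsy 4 3 rfl⟩ ?_
      have hstep : ∀ j k, χ (r j b) (r (j + k) b) = χ b (r k b) := fun j k => by rw [radd, χr]
      have hback : ∀ j k, χ (r (j + k) b) (r j b) = χ b (r k b) := fun j k => by
        rw [χsymm, hstep]
      rcases h with h | h
      · left
        have e := χE _ _ (mul_mem (hw 1) hb) h
        refine ⟨?_, ?_, ?_⟩
        · have := e b hb
          rw [χmul _ (hw 1) b hb b hb, χself, add_zero, χsymm (r 3 b), χsymm (r 1 b)] at this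
          exact this
        · have := e _ (hw 1)
          rw [χmul _ (hw 1) b hb _ (hw 1), χself, zero_add, show (3 : ℕ) = 1 + 2 from rfl,
            hback] at this
          exact this
        · have := e _ (hw 2)
          rw [χmul _ (hw 1) b hb _ (hw 2), show (3 : ℕ) = 2 + 1 from rfl, hback,
            show r 2 b = r (1 + 1) b from rfl, hstep] at this
          simpa [add_comm] using this
      · right
        have e := χE _ _ (mul_mem (hw 2) hb) h
        refine ⟨?_, ?_, ?_⟩
        · have := e b hb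
          rw [χmul _ (hw 2) b hb b hb, χself, add_zero, χsymm (r 3 b), χsymm (r 2 b)] at this
          exact this
        · have := e _ (hw 1)
          rw [χmul _ (hw 2) b hb _ (hw 1), show (3 : ℕ) = 1 + 2 from rfl, hback,
            show r 2 b = r (1 + 1) b from rfl, hback] at this
          exact this
        · have := e _ (hw 2)
          rw [χmul _ (hw 2) b hb _ (hw 2), χself, zero_add, show (3 : ℕ) = 2 + 1 from rfl,
            hback] at this
          exact this
    have hcom : ∀ i j, r i b * r j b = r j b * r i b := by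
      have hk : ∀ k, b * r k b = r k b * b := by
        intro k
        have hm : r k b = r (k % 7) b := by
          conv_lhs => rw [← Nat.div_add_mod k 7]
          simp [r, pow_add, pow_mul, hg]
        have := hc (k % 7) (Nat.mod_lt _ (by norm_num))
        rw [hm]
        by_contra hne
        simp [χ, hne] at this
      intro i j
      rcases le_total i j with hij | hij <;> obtain ⟨k, rfl⟩ := Nat.exists_eq_add_of_le hij
      · rw [radd, ← rmul, ← rmul, hk]
      · rw [radd, ← rmul, ← rmul, hk]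
    let A := Subgroup.closure (Set.range fun k => r k b)
    have hA : A ≤ W := (Subgroup.closure_le _).2 (by rintro _ ⟨k, rfl⟩; exact hw k)
    have hAc : ∀ x ∈ A, ∀ y ∈ A, x * y = y * x := by
      intro x hx y hy
      induction hx, hy using Subgroup.closure_induction₂ with
      | mem x y hx hy => obtain ⟨i, rfl⟩ := hx; obtain ⟨j, rfl⟩ := hy; exact hcom i j
      | one_left x hx => simp
      | one_right x hx => simp
      | mul_left x y z hx hy hz h1 h2 => exact Commute.mul_left h1 h2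
      | mul_right y z x hy hz hx h1 h2 => exact Commute.mul_right h1 h2
      | inv_left x y hx hy h1 => exact Commute.inv_left h1
      | inv_right x y hx hy h1 => exact Commute.inv_right h1
    refine hfix A hA hAc ?_ b (Subgroup.subset_closure ⟨0, r0 b⟩)
    intro a ha
    induction ha using Subgroup.closure_induction with
    | mem x hx =>
      obtain ⟨k, rfl⟩ := hx
      refine Subgroup.subset_closure ⟨6 + k, ?_⟩
      simp only [radd]
      have e6 : g ^ 6 = g⁻¹ := eq_inv_of_mul_eq_one_left (by rw [← pow_succ, hg])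
      simp [r, e6]
    | one => simp
    | mul x y hx hy h1 h2 => simpa [mul_assoc] using mul_mem h1 h2
    | inv x hx h1 => simpa [mul_assoc] using inv_mem h1
  -- exponent two modulo `z`
  let Zw : Subgroup W := (Subgroup.zpowers z).subgroupOf W
  haveI : Zw.Normal := ⟨fun n hn x => by
    rw [Subgroup.mem_subgroupOf] at hn ⊢
    obtain ⟨m, hm⟩ := Subgroup.mem_zpowers_iff.1 hn
    have : Commute (n : GL (Fin 7) F) (x : GL (Fin 7) F) := hm ▸ (hzc _ x.2).zpow_left m
    rwa [Subgroup.coe_mul, Subgroup.coe_mul, InvMemClass.coe_inv, ← this.eq,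
      mul_inv_cancel_right]⟩
  have hzmem : ∀ x : W, (x : GL (Fin 7) F) = 1 ∨ (x : GL (Fin 7) F) = z → x ∈ Zw := by
    intro x hx
    rw [Subgroup.mem_subgroupOf]
    rcases hx with h | h <;> rw [h]
    exacts [one_mem _, Subgroup.mem_zpowers z]
  let πq : W →* W ⧸ Zw := QuotientGroup.mk' Zw
  have qE : ∀ x y : W, πq x = πq y ↔ E x y := by
    intro x y
    constructor
    · intro h
      obtain ⟨m, hm⟩ := Subgroup.mem_zpowers_iff.1 (Subgroup.mem_subgroupOf.1
        (QuotientGroup.eq_iff_div_mem.1 h))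
      have hzz : z ^ (2 : ℤ) = 1 := by rw [zpow_two, hz]
      rcases Int.even_or_odd' m with ⟨l, rfl | rfl⟩
      · rw [_root_.zpow_mul, hzz, _root_.one_zpow] at hm
        left; simpa [div_eq_mul_inv, eq_comm, mul_inv_eq_one] using hm
      · rw [_root_.zpow_add, _root_.zpow_mul, hzz, _root_.one_zpow, _root_.zpow_one, one_mul] at hm
        right; simp [hm]
    · intro h
      refine QuotientGroup.eq_iff_div_mem.2 (hzmem _ ?_)
      rcases h with h | h
      · left; simp [Subtype.ext h]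
      · right; simp [h]
  letI : CommGroup (W ⧸ Zw) :=
    { (inferInstance : Group (W ⧸ Zw)) with
      mul_comm := fun a b => by
        obtain ⟨a, rfl⟩ := QuotientGroup.mk'_surjective Zw a
        obtain ⟨b, rfl⟩ := QuotientGroup.mk'_surjective Zw b
        rw [← map_mul, ← map_mul]
        exact (qE _ _).2 (hcomm _ a.2 _ b.2) }
  have q2 : ∀ a : W ⧸ Zw, a * a = 1 := fun a => by
    obtain ⟨a, rfl⟩ := QuotientGroup.mk'_surjective Zw a
    rw [← map_mul, ← map_one (QuotientGroup.mk' Zw)]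
    refine (qE _ _).2 ((hsq _ a.2).imp (fun h => h) fun h => ?_)
    show ((a : GL (Fin 7) F) * a) = z * 1
    rw [mul_one, h]
  let rq : ℕ → W → W ⧸ Zw := fun k a => πq ⟨r k a, rW k _ a.2⟩
  have rq0 : ∀ a, rq 0 a = πq a := fun a => congrArg πq (Subtype.ext (r0 _))
  have rqmul : ∀ k a b, rq k (a * b) = rq k a * rq k b := fun k a b => by
    show πq _ = πq _ * πq _
    rw [← map_mul]
    exact congrArg πq (Subtype.ext (rmul k _ _))
  have rqr : ∀ (j k : ℕ) (a : W), rq j ⟨r k a, rW k _ a.2⟩ = rq (j + k) a := fun j k a =>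
    congrArg πq (Subtype.ext (radd j k _).symm)
  intro a ha
  let A : W := ⟨a, ha⟩
  let d : W := A * ⟨r 1 a, rW 1 a ha⟩
  let e : W := d * ⟨r 1 d, rW 1 _ d.2⟩ * ⟨r 3 d, rW 3 _ d.2⟩
  have qd : ∀ k, rq k d = rq k A * rq (k + 1) A := fun k => by
    rw [show d = A * ⟨r 1 a, rW 1 a ha⟩ from rfl, rqmul, rqr k 1 A]
  have qe : ∀ k, rq k e = rq k d * rq (k + 1) d * rq (k + 3) d := fun k => by
    rw [show e = d * ⟨r 1 d, rW 1 _ d.2⟩ * ⟨r 3 d, rW 3 _ d.2⟩ from rfl, rqmul, rqmul,
      rqr k 1 d, rqr k 3 d]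
  have hsum : rq 0 e * rq 2 e * rq 3 e = 1 := by
    have h7 : rq 7 A = rq 0 A := congrArg πq (Subtype.ext (by
      show r 7 a = r 0 a
      rw [r7, r0]))
    simp only [qe, qd, h7, Nat.reduceAdd]
    calc _ = rq 0 A * rq 0 A * (rq 1 A * rq 1 A) * (rq 2 A * rq 2 A) *
          (rq 3 A * rq 3 A * (rq 3 A * rq 3 A)) * (rq 4 A * rq 4 A * (rq 4 A * rq 4 A)) *
          (rq 5 A * rq 5 A) * (rq 6 A * rq 6 A) := by ac_rfl
      _ = 1 := by simp only [q2, mul_one]
  have hrec : ∀ (b : W) (k : ℕ), rq 0 b * rq k b * rq 3 b = 1 → E (r 3 b) (r k b * b) := by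
    intro b k h
    refine (qE ⟨r 3 b, rW 3 _ b.2⟩ (⟨r k b, rW k _ b.2⟩ * b)).1 ?_
    rw [map_mul]
    show rq 3 b = rq k b * πq b
    rw [← rq0, mul_comm (rq k b)]
    calc rq 3 b = (rq 0 b * rq k b) * (rq 0 b * rq k b * rq 3 b) := by
          rw [← mul_assoc, q2, one_mul]
      _ = _ := by rw [h, mul_one]
  have hfixq : ∀ b : W, g * (b : GL (Fin 7) F) = b * g → ∀ k, rq k b = rq 0 b := by
    intro b h k
    refine congrArg πq (Subtype.ext ?_)
    show r k b = r 0 b
    rw [r0]
    simp only [r, ((show Commute g (b : GL (Fin 7) F) from h).pow_left k).eq, mul_inv_cancel_right]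
  have he : rq 0 e = 1 := by
    have h := hfixq e (orbit e e.2 (Or.inr (hrec e 2 hsum)))
    rw [h 2, h 3, q2, one_mul] at hsum
    exact hsum
  have hd : rq 0 d = 1 := by
    rw [qe] at he
    have h := hfixq d (orbit d d.2 (Or.inl (hrec d 1 (by simpa using he))))
    rw [h (0 + 1), h (0 + 3), q2, one_mul] at he
    exact he
  -- `g a g⁻¹` is `a` up to `z`
  have h1 : E (r 1 a) a := by
    refine (qE ⟨r 1 a, rW 1 a ha⟩ A).1 ?_
    rw [qd] at hd
    show rq 1 A = πq A
    rw [← rq0]
    calc rq 1 A = rq 0 A * (rq 0 A * rq 1 A) := by rw [← mul_assoc, q2, one_mul]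
      _ = rq 0 A := by rw [hd, mul_one]
  rcases h1 with h1 | h1
  · have : g * a * g⁻¹ = a := by simpa [r] using h1
    exact mul_inv_eq_iff_eq_mul.1 this
  · exfalso
    have hstep : ∀ k, r k a = z ^ k * a := by
      intro k
      induction k with
      | zero => simp [r0]
      | succ k ih => rw [radd, h1, rmul, rz, ih, ← mul_assoc, ← pow_succ']
    have h7 := hstep 7
    rw [r7, show z ^ 7 = z * (z * z) * (z * z) * (z * z) by simp [pow_succ, mul_assoc], hz] at h7
    simp only [mul_one] at h7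
    exact hz1 (right_eq_mul.1 h7)

lemma sq_of_commute (hω : Omega ω) (hX : X ≤ specialLinear (Fin 7) F)
    (hmono : ∀ {h : GL (Fin 7) F}, h ∈ X → Commute (h : M7 F) (Gm ω) → IsMono (h : M7 F))
    {h : GL (Fin 7) F} (hh : h ∈ Yk X) (hc : Commute (h : M7 F) (Gm ω)) : h * h = 1 := by
  obtain ⟨π, s, -, -, -, -, -, -, hsq⟩ :=
    mono_shape hω hh.1.2 hh.2 hc (hmono hh.1.1 hc) (det_eq_one hX hh.1.1)
  exact Units.ext (by simpa using hsq)

lemma eq_one_of_sq_of_odd {G : Type*} [Group G] {Q : Subgroup G} {l v : ℕ}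
    (hQ : Nat.card Q = l ^ v) (hl : Odd l) {a : G} (ha : a ∈ Q) (h : a * a = 1) : a = 1 := by
  have h1 : orderOf a ∣ 2 := orderOf_dvd_of_pow_eq_one (by rw [pow_two, h])
  have h2 : orderOf a ∣ l ^ v := hQ ▸ Subgroup.orderOf_dvd_natCard Q ha
  have hcop : Nat.Coprime 2 (l ^ v) := (Nat.coprime_two_left.2 hl).pow_right v
  exact orderOf_eq_one_iff.1 (Nat.eq_one_of_dvd_coprimes hcop h1 h2)

/-- A non-abelian group of prime power order has a non-central element of its second centre. -/
lemma second_centre {G : Type*} [Group G] [Finite G] {l : ℕ} [Fact l.Prime] (h : IsPGroup l G)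
    (hne : ¬ ∀ a b : G, a * b = b * a) :
    ∃ b : G, b ∉ Subgroup.center G ∧ ∀ x, x * b / (b * x) ∈ Subgroup.center G := by
  haveI : Nontrivial (G ⧸ Subgroup.center G) := QuotientGroup.nontrivial_iff.2 fun e => hne
    fun a b => (Subgroup.mem_center_iff.1 (e ▸ Subgroup.mem_top b) a)
  haveI : Nontrivial (Subgroup.center (G ⧸ Subgroup.center G)) :=
    (h.to_quotient (Subgroup.center G)).center_nontrivial
  obtain ⟨⟨q, hq⟩, hq1⟩ := exists_ne (1 : Subgroup.center (G ⧸ Subgroup.center G))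
  obtain ⟨b, rfl⟩ := QuotientGroup.mk_surjective q
  refine ⟨b, fun hb => hq1 (Subtype.ext ((QuotientGroup.eq_one_iff b).2 hb)), fun x => ?_⟩
  have h1 := Subgroup.mem_center_iff.1 hq (QuotientGroup.mk x)
  rwa [← QuotientGroup.mk_mul, ← QuotientGroup.mk_mul, QuotientGroup.eq_iff_div_mem] at h1

set_option maxHeartbeats 1000000 in
open scoped Pointwise in
theorem kerB [Finite F] (hG : Gen ω X)
    (hmono : ∀ {h : GL (Fin 7) F}, h ∈ X → Commute (h : M7 F) (Gm ω) → IsMono (h : M7 F))
    (hp : ∀ (p : ℕ) [Fact p.Prime] [CharP F p] (U : Subgroup (GL (Fin 7) F)), U ≤ Kz X →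
      IsPGroup p U → (∀ u ∈ U, Bm (u : M7 F) = 1) →
      (∀ g ∈ X, (g : M7 F) = Gm ω → ∀ u ∈ U, g * u * g⁻¹ ∈ U) → U = ⊥)
    {h : GL (Fin 7) F} (hK : h ∈ Kz X) (hB : Bm (h : M7 F) = 1) :
    (h : M7 F) = 1 ∨ (h : M7 F) = Zm := by
  classical
  have hω := hG.omega
  obtain ⟨g, hgX, hgm⟩ := hG.g
  obtain ⟨z, hzX, hzm⟩ := hG.z
  obtain ⟨c, f, hfX, hfm⟩ := hG.f
  have hgK : g ∈ Kz X := ⟨hgX, by rw [hgm]; exact gm_comm_Zm⟩
  have hzK : z ∈ Kz X := ⟨hzX, by rw [hzm]⟩
  have hfK : f ∈ Kz X := ⟨hfX, by rw [hfm]; exact fm_comm_Zm.smul_left c⟩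
  have hg7 : g ^ 7 = 1 := Units.ext (by
    rw [Units.val_pow_eq_pow_val, hgm, gm_pow_seven hω, Units.val_one])
  have hzc : ∀ k ∈ Kz X, Commute z k := fun k hk => by
    show _ = _
    exact Units.ext (by rw [Units.val_mul, Units.val_mul, hzm]; exact hk.2.eq.symm)
  have hzz : z * z = 1 := Units.ext (by
    rw [Units.val_mul, hzm, Units.val_one]
    ext i j
    rw [mul_Zm_apply, Zm, Matrix.of_apply, Matrix.one_apply, neg_neg]
    by_cases e : i = j <;> simp [e])
  have hzY : z ∈ Yk X := ⟨hzK, by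
    show _ * _ = _
    rw [hzm, Matrix.mul_add, Matrix.mul_one, ← hzm, ← Units.val_mul, hzz, Units.val_one,
      add_comm]⟩
  set u := f * g * f⁻¹ with hu
  have huK : u ∈ Kz X := mul_mem (mul_mem hfK hgK) (inv_mem hfK)
  have hu7 : u ^ 7 = 1 := by rw [hu, conj_pow, hg7, mul_one, mul_inv_cancel]
  have hY : ∀ x ∈ Yk X, x ∈ Kz X := fun x hx => hx.1
  have hconj : ∀ k ∈ Kz X, ∀ x ∈ Yk X, k⁻¹ * x * k ∈ Yk X := fun k hk x hx => by
    simpa using Yk_conj (inv_mem hk) hx
  obtain ⟨v, hv0, hv⟩ := fixVec (X := X)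
  obtain ⟨p, hcp⟩ := CharP.exists F
  have hpp : p.Prime := (CharP.char_is_prime_or_zero F p).resolve_right fun h0 => by
    subst h0
    haveI : CharZero F := CharP.charP_to_charZero F
    exact not_finite F
  haveI := Fact.mk hpp
  -- elements of the kernel commuting with `g` and `u`
  have hfinal : ∀ x ∈ Yk X, g * x = x * g → u * x = x * u → x = 1 ∨ x = z := by
    intro x hx hxg hxu
    have hc : Commute (x : M7 F) (Gm ω) := by
      rw [← hgm]
      exact (congrArg Units.val hxg).symm.trans rfl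
    obtain ⟨π, s, hform, hπ, hinv, hs, h1, hn1, -⟩ :=
      mono_shape hω hx.1.2 hx.2 hc (hmono hx.1.1 hc) (det_eq_one hG.le_sl hx.1.1)
    have hUF : (u : M7 F) * ((f : M7 F)) = (f : M7 F) * (g : M7 F) := by
      rw [← Units.val_mul, ← Units.val_mul, hu, inv_mul_cancel_right]
    have hU : (Matrix.of fun i j => w ω (-2 * ((i - j) * (i - j)))) =
        (∑ m : Fin 7, w ω (-2 * (m * m))) • (u : M7 F) := by
      have hc0 : c ≠ 0 := fun h0 => by
        have h1 := det_eq_one hG.le_sl hfX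
        rw [hfm, h0, zero_smul, Matrix.det_zero] at h1
        exact zero_ne_one h1
      have e : (Matrix.of fun i j => w ω (-2 * ((i - j) * (i - j)))) * (f : M7 F) =
          ((∑ m : Fin 7, w ω (-2 * (m * m))) • (u : M7 F)) * (f : M7 F) := by
        rw [smul_mul_assoc, hUF, hfm, hgm, Matrix.smul_mul, Matrix.mul_smul, smul_comm]
        congr 1
        ext i j
        rw [Matrix.smul_apply, Gm, Dm, Matrix.mul_diagonal, Matrix.mul_apply, smul_eq_mul,
          ← Equiv.sum_comp (Equiv.addRight (i + 2 * j)), Finset.sum_mul]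
        refine Finset.sum_congr rfl fun m _ => ?_
        simp only [Fm, Matrix.of_apply, Equiv.coe_addRight]
        rw [← w_mul hω, gauss_id, w_mul hω, w_mul hω]
        ring
      exact f.isUnit.mul_right_cancel e
    rcases shape_eq hω hform hπ hinv hs h1 hn1 hU ((congrArg Units.val hxu).symm.trans rfl) with e | e
    · exact Or.inl (Units.ext (by rw [e, Units.val_one]))
    · exact Or.inr (Units.ext (by rw [e, hzm]))
  -- the kernel has order prime to seven
  have h7 : ¬ 7 ∣ Nat.card (Yk X) := by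
    intro hd
    haveI : Fact (Nat.Prime 7) := ⟨by norm_num⟩
    let P := Subgroup.zpowers g
    letI : MulAction P (Yk X) :=
      { smul := fun k x => ⟨(k : GL (Fin 7) F) * x * (k : GL (Fin 7) F)⁻¹,
          Yk_conj ((Subgroup.zpowers_le.2 hgK) k.2) x.2⟩
        one_smul := fun x => Subtype.ext (show ((1 : P) : GL (Fin 7) F) * (x : GL (Fin 7) F) *
          ((1 : P) : GL (Fin 7) F)⁻¹ = x by simp)
        mul_smul := fun a b x => Subtype.ext (show ((a * b : P) : GL (Fin 7) F) *
          (x : GL (Fin 7) F) * ((a * b : P) : GL (Fin 7) F)⁻¹ =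
          (a : GL (Fin 7) F) * ((b : GL (Fin 7) F) * x * (b : GL (Fin 7) F)⁻¹) *
            (a : GL (Fin 7) F)⁻¹ by simp [mul_assoc]) }
    have hP : IsPGroup 7 P := fun k => ⟨1, by
      obtain ⟨m, hm⟩ := Subgroup.mem_zpowers_iff.1 k.2
      apply Subtype.ext
      rw [SubmonoidClass.coe_pow, ← hm, pow_one, ← zpow_natCast, ← _root_.zpow_mul, mul_comm,
        _root_.zpow_mul, zpow_natCast, hg7, _root_.one_zpow, Subgroup.coe_one]⟩
    let C : Subgroup (Yk X) := (Subgroup.centralizer {g}).subgroupOf (Yk X)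
    have hC : MulAction.fixedPoints P (Yk X) = (C : Set (Yk X)) := by
      ext x
      constructor
      · intro hx
        have h1 := congrArg Subtype.val (hx ⟨g, Subgroup.mem_zpowers g⟩)
        exact Subgroup.mem_centralizer_singleton_iff.2 (mul_inv_eq_iff_eq_mul.1 h1).symm
      · intro hx k
        have h1 : Commute (x : GL (Fin 7) F) g :=
          (Subgroup.mem_centralizer_singleton_iff.1 hx)
        obtain ⟨m, hm⟩ := Subgroup.mem_zpowers_iff.1 k.2
        apply Subtype.ext
        show (k : GL (Fin 7) F) * _ * _ = _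
        rw [← hm, ← (h1.zpow_right m).eq, mul_inv_cancel_right]
    have hC2 : IsPGroup 2 C := fun x => ⟨1, by
      apply Subtype.ext; apply Subtype.ext
      rw [pow_one, pow_two]
      refine sq_of_commute hω hG.le_sl hmono (x : Yk X).2 ?_
      rw [← hgm]
      exact (congrArg Units.val (Subgroup.mem_centralizer_singleton_iff.1 x.2) :)⟩
    haveI : Fact (Nat.Prime 2) := ⟨Nat.prime_two⟩
    obtain ⟨n, hn⟩ := IsPGroup.iff_card.1 hC2
    have h1 := hP.card_modEq_card_fixedPoints (Yk X)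
    rw [hC] at h1
    rw [show Nat.card (C : Set (Yk X)) = 2 ^ n from hn] at h1
    have h2 : 7 ∣ 2 ^ n := Nat.modEq_zero_iff_dvd.1 (h1.symm.trans (Nat.modEq_zero_iff_dvd.2 hd))
    exact absurd (Nat.le_of_dvd two_pos ((by norm_num : Nat.Prime 7).dvd_of_dvd_pow h2)) (by norm_num)
  -- commutative normalised subgroups of order prime to the characteristic
  have hcf : ∀ (A : Subgroup (GL (Fin 7) F)) (k : GL (Fin 7) F), k ^ 7 = 1 → A ≤ Yk X →
      (∀ a ∈ A, ∀ b ∈ A, a * b = b * a) → (∀ a ∈ A, ((orderOf a : ℕ) : F) ≠ 0) →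
      (∀ a ∈ A, k⁻¹ * a * k ∈ A) → ∀ a ∈ A, k * a = a * k := fun A k hk hle hab hord hn =>
    commFix_eq hab (fun a ha => ⟨orderOf a, hord a ha, pow_orderOf_eq_one a⟩) hk hn hv0
      fun a ha => hv a (hle ha)
  -- the kernel is a two-group
  have h2grp : IsPGroup 2 (Yk X) := by
    haveI : Fact (Nat.Prime 2) := ⟨Nat.prime_two⟩
    rw [IsPGroup.iff_card]
    refine ⟨(Nat.card (Yk X)).primeFactorsList.length,
      Nat.eq_prime_pow_of_unique_prime_dvd Nat.card_pos.ne' fun {l} hl hld => ?_⟩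
    by_contra hl2
    have hlodd : Odd l := hl.odd_of_ne_two hl2
    haveI := Fact.mk hl
    let φ : MulAut (Yk X) :=
      { toFun := fun x => ⟨g * x * g⁻¹, Yk_conj hgK x.2⟩
        invFun := fun x => ⟨g⁻¹ * x * g, hconj g hgK x x.2⟩
        left_inv := fun x => Subtype.ext (by simp [mul_assoc])
        right_inv := fun x => Subtype.ext (by simp [mul_assoc])
        map_mul' := fun x y => Subtype.ext (by simp [mul_assoc]) }
    have hφ : ∀ (k : ℕ) (x : Yk X),
        (((φ ^ k) x : Yk X) : GL (Fin 7) F) = g ^ k * x * (g ^ k)⁻¹ := by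
      intro k
      induction k with
      | zero => intro x; simp
      | succ k ih =>
        intro x
        rw [pow_succ', MulAut.mul_apply, pow_succ', _root_.mul_inv_rev]
        show g * _ * g⁻¹ = _
        rw [ih]
        simp [mul_assoc]
    have hφ7 : φ ^ 7 = 1 := MulEquiv.ext fun x => Subtype.ext (by rw [hφ, hg7]; simp)
    haveI : Fact (Nat.Prime 7) := ⟨by norm_num⟩
    have hP : IsPGroup 7 (Subgroup.zpowers φ) := fun k => ⟨1, by
      obtain ⟨m, hm⟩ := Subgroup.mem_zpowers_iff.1 k.2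
      apply Subtype.ext
      rw [SubmonoidClass.coe_pow, ← hm, pow_one, ← zpow_natCast, ← _root_.zpow_mul, mul_comm,
        _root_.zpow_mul, zpow_natCast, hφ7, _root_.one_zpow, Subgroup.coe_one]⟩
    have hnd : ¬ 7 ∣ Nat.card (Sylow l (Yk X)) := fun hd => by
      obtain ⟨Q⟩ := (inferInstance : Nonempty (Sylow l (Yk X)))
      exact h7 ((hd.trans Q.card_dvd_index).trans (Subgroup.index_dvd_card _))
    obtain ⟨Q, hQ⟩ := hP.nonempty_fixed_point_of_prime_not_dvd_card (Sylow l (Yk X)) hnd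
    let U : Subgroup (GL (Fin 7) F) := (Q : Subgroup (Yk X)).map (Yk X).subtype
    have hUle : U ≤ Yk X := Subgroup.map_subtype_le _
    have hUg : ∀ x ∈ U, g * x * g⁻¹ ∈ U := by
      rintro _ ⟨x, hx, rfl⟩
      have h1 : φ • (Q : Subgroup (Yk X)) = (Q : Subgroup (Yk X)) :=
        congrArg (fun R : Sylow l (Yk X) => (R : Subgroup (Yk X)))
          (hQ ⟨φ, Subgroup.mem_zpowers φ⟩)
      refine ⟨φ x, ?_, rfl⟩
      rw [SetLike.mem_coe, ← h1]
      exact Subgroup.smul_mem_pointwise_smul _ _ _ hx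
    have hUg' : ∀ x ∈ U, g⁻¹ * x * g ∈ U := by
      intro x hx
      have : ∀ k : ℕ, g ^ k * x * (g ^ k)⁻¹ ∈ U := by
        intro k
        induction k with
        | zero => simpa using hx
        | succ k ih => rw [pow_succ', _root_.mul_inv_rev]; simpa [mul_assoc] using hUg _ ih
      have h6 := this 6
      rwa [show g ^ 6 = g⁻¹ from eq_inv_of_mul_eq_one_left (by rw [← pow_succ, hg7]), inv_inv]
        at h6
    have hUp : IsPGroup l U := Q.isPGroup'.map _
    obtain ⟨n, hn⟩ := IsPGroup.iff_card.1 hUp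
    have hUbot : U = ⊥ := by
      rcases eq_or_ne l p with rfl | hlp
      · refine hp l U (hUle.trans hY) hUp (fun x hx => ?_) fun g' hg' e => ?_
        · have h1 := (hUle hx).2
          ext r s
          have h2 := congrFun (congrFun h1 (kb r)) (kb s)
          rw [Matrix.mul_add, Matrix.mul_one, Matrix.add_apply, mul_Zm_apply, Matrix.add_apply,
            Matrix.one_apply, Zm, Matrix.of_apply, ← sub_eq_add_neg] at h2
          have hk : ∀ r s : Fin 3, (kb r = kb s ↔ r = s) ∧ kb r ≠ -kb s := by decide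
          simpa [Bm, Matrix.one_apply, hk] using h2
        · rw [show g' = g from Units.ext (e.trans hgm.symm)]
          exact hUg
      · by_contra hne
        haveI : Nontrivial U := U.nontrivial_iff_ne_bot.2 hne
        obtain ⟨⟨⟨a, haU⟩, hac⟩, ha1⟩ :=
          (@exists_ne _ hUp.center_nontrivial (1 : Subgroup.center U))
        let A : Subgroup (GL (Fin 7) F) := U ⊓ Subgroup.centralizer (U : Set (GL (Fin 7) F))
        have haA : a ∈ A := ⟨haU, fun x hx => congrArg Subtype.val
          (Subgroup.mem_center_iff.1 hac ⟨x, hx⟩)⟩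
        have hfx := hcf A g hg7 (inf_le_left.trans hUle) (fun a ha b hb => hb.2 a ha.1)
          (fun b hb => by
            obtain ⟨i, -, hi⟩ := (Nat.dvd_prime_pow hl).1
              (hn ▸ Subgroup.orderOf_dvd_natCard U hb.1)
            rw [hi, Nat.cast_pow]
            exact pow_ne_zero _ (natCast_prime_ne_zero hl hlp))
          (fun b hb => ⟨hUg' b hb.1, fun x hx => by
            have h1 := hb.2 (g * x * g⁻¹) (hUg x hx)
            calc x * (g⁻¹ * b * g) = g⁻¹ * ((g * x * g⁻¹) * b) * g := by simp [mul_assoc]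
              _ = g⁻¹ * (b * (g * x * g⁻¹)) * g := by rw [h1]
              _ = (g⁻¹ * b * g) * x := by simp [mul_assoc]⟩) a haA
        have hc : Commute (a : M7 F) (Gm ω) := by
          rw [← hgm]
          exact (congrArg Units.val hfx).symm.trans rfl
        apply ha1
        apply Subtype.ext; apply Subtype.ext
        exact eq_one_of_sq_of_odd hn hlodd haU (sq_of_commute hω hG.le_sl hmono (hUle haU) hc)
    have hQ1 : Nat.card (Q : Subgroup (Yk X)) = 1 := by
      rw [← Subgroup.card_map_of_injective (Yk X).subtype_injective]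
      exact Subgroup.card_eq_one.2 hUbot
    obtain ⟨x, hx⟩ := exists_prime_orderOf_dvd_card' l hld
    have := Q.dvd_card_of_dvd_card hld
    rw [hQ1] at this
    exact hl.one_lt.ne' (Nat.dvd_one.1 this)
  haveI : Fact (Nat.Prime 2) := ⟨Nat.prime_two⟩
  obtain ⟨n, hn⟩ := IsPGroup.iff_card.1 h2grp
  have hord : ∀ a ∈ Yk X, ((orderOf a : ℕ) : F) ≠ 0 := by
    intro a ha
    obtain ⟨i, -, hi⟩ := (Nat.dvd_prime_pow Nat.prime_two).1
      (hn ▸ Subgroup.orderOf_dvd_natCard (Yk X) ha)
    rw [hi, Nat.cast_pow, Nat.cast_two]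
    exact pow_ne_zero _ hG.two_ne_zero
  -- the centre of the kernel
  have hcent : ∀ a ∈ Yk X, (∀ x ∈ Yk X, a * x = x * a) → a = 1 ∨ a = z := by
    intro a ha hac
    let A : Subgroup (GL (Fin 7) F) := Yk X ⊓ Subgroup.centralizer (Yk X : Set (GL (Fin 7) F))
    have hA : ∀ k ∈ Kz X, ∀ b ∈ A, k⁻¹ * b * k ∈ A := fun k hk b hb =>
      ⟨hconj k hk b hb.1, fun x hx => by
        have h1 := hb.2 (k * x * k⁻¹) (Yk_conj hk hx)
        calc x * (k⁻¹ * b * k) = k⁻¹ * ((k * x * k⁻¹) * b) * k := by simp [mul_assoc]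
          _ = k⁻¹ * (b * (k * x * k⁻¹)) * k := by rw [h1]
          _ = (k⁻¹ * b * k) * x := by simp [mul_assoc]⟩
    have haA : a ∈ A := ⟨ha, fun x hx => (hac x hx).symm⟩
    exact hfinal a ha
      (hcf A g hg7 inf_le_left (fun a ha b hb => hb.2 a ha.1) (fun b hb => hord b hb.1)
        (hA g hgK) a haA)
      (hcf A u hu7 inf_le_left (fun a ha b hb => hb.2 a ha.1) (fun b hb => hord b hb.1)
        (hA u huK) a haA)
  -- the second centre
  let D : GL (Fin 7) F → Prop := fun a => ∀ x ∈ Yk X, a * x = x * a ∨ a * x = z * (x * a)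
  let W : Subgroup (GL (Fin 7) F) :=
    { carrier := {a | a ∈ Yk X ∧ D a}
      one_mem' := ⟨one_mem _, fun x _ => Or.inl (by simp)⟩
      mul_mem' := by
        rintro a b ⟨ha, ha'⟩ ⟨hb, hb'⟩
        refine ⟨mul_mem ha hb, fun x hx => ?_⟩
        have haz : a * z = z * a := (hzc a ha.1).eq.symm
        rcases ha' x hx with h1 | h1 <;> rcases hb' x hx with h2 | h2
        · left; rw [mul_assoc, h2, ← mul_assoc, h1, mul_assoc]
        · right; rw [mul_assoc, h2, ← mul_assoc, haz, mul_assoc, ← mul_assoc a, h1, mul_assoc]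
        · right; rw [mul_assoc, h2, ← mul_assoc, h1, mul_assoc, mul_assoc]
        · left
          rw [mul_assoc, h2, ← mul_assoc, haz, mul_assoc, ← mul_assoc a, h1, ← mul_assoc,
            ← mul_assoc, ← mul_assoc, hzz, one_mul, mul_assoc]
      inv_mem' := by
        rintro a ⟨ha, ha'⟩
        refine ⟨inv_mem ha, fun x hx => ?_⟩
        rcases ha' x hx with h1 | h1
        · left; exact (Commute.inv_left h1).eq
        · right
          have haz : a * z = z * a := (hzc a ha.1).eq.symm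
          calc a⁻¹ * x = a⁻¹ * (z * z) * x * a * a⁻¹ := by rw [hzz]; simp [mul_assoc]
            _ = a⁻¹ * z * (z * (x * a)) * a⁻¹ := by simp only [mul_assoc]
            _ = a⁻¹ * z * (a * x) * a⁻¹ := by rw [h1]
            _ = a⁻¹ * (z * a) * (x * a⁻¹) := by simp only [mul_assoc]
            _ = z * (x * a⁻¹) := by rw [← haz, ← mul_assoc a⁻¹, inv_mul_cancel, one_mul] }
  have hWY : W ≤ Yk X := fun a ha => ha.1
  have hWconj : ∀ k ∈ Kz X, ∀ a ∈ W, k * a * k⁻¹ ∈ W := by
    rintro k hk a ⟨ha, ha'⟩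
    refine ⟨Yk_conj hk ha, fun x hx => ?_⟩
    have hzk : k * z = z * k := (hzc k hk).eq.symm
    rcases ha' (k⁻¹ * x * k) (hconj k hk x hx) with h1 | h1
    · left
      calc k * a * k⁻¹ * x = k * (a * (k⁻¹ * x * k)) * k⁻¹ := by simp [mul_assoc]
        _ = k * ((k⁻¹ * x * k) * a) * k⁻¹ := by rw [h1]
        _ = x * (k * a * k⁻¹) := by simp [mul_assoc]
    · right
      calc k * a * k⁻¹ * x = k * (a * (k⁻¹ * x * k)) * k⁻¹ := by simp [mul_assoc]
        _ = (k * z) * ((k⁻¹ * x * k) * a) * k⁻¹ := by rw [h1]; simp [mul_assoc]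
        _ = (z * k) * ((k⁻¹ * x * k) * a) * k⁻¹ := by rw [hzk]
        _ = z * (x * (k * a * k⁻¹)) := by simp [mul_assoc]
  have hWz : z ∈ W := ⟨hzY, fun x hx => Or.inl (hzc x hx.1).eq⟩
  have hWsq : ∀ a ∈ W, a * a = 1 ∨ a * a = z := by
    rintro a ⟨ha, ha'⟩
    refine hcent _ (mul_mem ha ha) fun x hx => ?_
    rcases ha' x hx with h1 | h1
    · exact (Commute.mul_left h1 h1).eq
    · have haz : a * z = z * a := (hzc a ha.1).eq.symm
      calc a * a * x = a * (z * (x * a)) := by rw [mul_assoc, h1]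
        _ = z * (a * x) * a := by rw [← mul_assoc, haz]; simp [mul_assoc]
        _ = z * (z * (x * a)) * a := by rw [h1]
        _ = x * (a * a) := by rw [← mul_assoc, hzz, one_mul, mul_assoc]
  have hW1 : ∀ k ∈ Kz X, k ^ 7 = 1 → ∀ a ∈ W, k * a = a * k := fun k hk hk7 =>
    fix_second hω hk7 hzz (hzc k hk).symm hWz (fun x hx => hzc x hx.1.1)
      (fun a ha b hb => ha.2 b hb.1) hWsq (hWconj k hk) fun A hAW hab hn =>
        hcf A k hk7 (hAW.trans hWY) hab (fun a ha => hord a (hWY (hAW ha))) hn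
  have hWtriv : ∀ a ∈ W, a = 1 ∨ a = z := fun a ha =>
    hfinal a (hWY ha) (hW1 g hgK hg7 a ha) (hW1 u huK hu7 a ha)
  have hYtriv : ∀ a ∈ Yk X, a = 1 ∨ a = z := by
    by_contra hne
    push Not at hne
    obtain ⟨a, ha, ha1, haz⟩ := hne
    obtain ⟨b, hb1, hb⟩ := second_centre h2grp fun e => by
      rcases hcent a ha fun x hx => (congrArg Subtype.val
        (e ⟨a, ha⟩ ⟨x, hx⟩)) with e | e
      · exact ha1 e
      · exact haz e
    have hbW : (b : GL (Fin 7) F) ∈ W := ⟨b.2, fun x hx => by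
      have h1 := hb ⟨x, hx⟩
      generalize hc : (⟨x, hx⟩ * b / (b * ⟨x, hx⟩) : Yk X) = c at h1
      have hx' : (⟨x, hx⟩ : Yk X) * b = c * (b * ⟨x, hx⟩) := by rw [← hc, div_mul_cancel]
      have hx'' : x * (b : GL (Fin 7) F) = (c : GL (Fin 7) F) * ((b : GL (Fin 7) F) * x) := by
        simpa only [Subgroup.coe_mul] using congrArg Subtype.val hx'
      have hcy : ∀ y ∈ Yk X, (c : GL (Fin 7) F) * y = y * (c : GL (Fin 7) F) := fun y hy => by
        have h2 := congrArg Subtype.val (Subgroup.mem_center_iff.1 h1 ⟨y, hy⟩)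
        simp only [Subgroup.coe_mul] at h2
        exact h2.symm
      rcases hcent _ c.2 hcy with e | e
      · left
        rw [e, one_mul] at hx''
        exact hx''.symm
      · right
        rw [e] at hx''
        rw [hx'', ← mul_assoc, hzz, one_mul]⟩
    apply hb1
    refine Subgroup.mem_center_iff.2 fun x => Subtype.ext ?_
    rcases hWtriv _ hbW with e | e
    · simp [e]
    · simpa [e] using ((hzc x x.2.1).eq).symm
  rcases hYtriv h ⟨hK, fix1_of_Bm hK.2 hB⟩ with e | e
  · exact Or.inl (by rw [e, Units.val_one])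
  · exact Or.inr (by rw [e, hzm])

end Cfsg.Agent.CSixSeven.Kernel
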