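import Cfsg.Agent.GeoClasses.TransvGen
import Cfsg.Agent.GeoClasses.SimMax
import Cfsg.Agent.GeoClasses.UnitSimMax
import Cfsg.Agent.GeoClasses.OrthSimMax
import Cfsg.Agent.GeoClasses.UnitNondeg
import Cfsg.Agent.GeoClasses.UnitSubfield
import Cfsg.Agent.GeoClasses.UnitRealSubfield
import Cfsg.Agent.DecompMax.LinearMat
import Cfsg.Agent.MaxSub.SubfieldMax.Main
import Cfsg.Agent.SUFive.FrameOdd

/-!
The clauses of the lists for `SL_7(q)` and `SU_7(q)` that come from the general libraries.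
-/

set_option autoImplicit false
open Cfsg

namespace Cfsg.Agent.CSixSeven.Lists

/-- Clause (1) of the list for `SL_7(q)`. -/
theorem sl7_clause1 {F : Type*} [Field F] [Fintype F] :
    (∀ W : Submodule F (Fin 7 → F), W ≠ ⊥ → W ≠ ⊤ → Cfsg.Geo.IsMaximalIn (Cfsg.Geo.specialLinear (Fin 7) F) (Cfsg.Geo.subspaceStabilizer W ⊓ Cfsg.Geo.specialLinear (Fin 7) F)) :=
  fun W h0 h1 => Cfsg.Agent.GeoClasses.subspaceStabilizer_maximal h0 h1

/-- Clause (2) of the list for `SL_7(q)`. -/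
theorem sl7_clause2 {F : Type*} [Field F] [Fintype F] :
    (5 ≤ Fintype.card F → ∀ D : Fin 7 → Submodule F (Fin 7 → F), Cfsg.Geo.IsMDecomposition 1 D → Cfsg.Geo.IsMaximalIn (Cfsg.Geo.specialLinear (Fin 7) F) (Cfsg.Geo.decompositionStabilizer D ⊓ Cfsg.Geo.specialLinear (Fin 7) F)) :=
  fun hq D hD => by
    have hc : Fintype.card (Fin 7) = 7 := Fintype.card_fin 7
    exact Cfsg.Agent.DecompMax.Lin.specialLinear_decomposition_maximal (by omega) hD (by omega) (by omega)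

/-- Clause (4) of the list for `SL_7(q)`. -/
theorem sl7_clause4 {F : Type*} [Field F] [Fintype F] :
    (∀ (F₀ : Subfield F) (r : ℕ) (P : Matrix.GeneralLinearGroup (Fin 7) F), r.Prime → Fintype.card F = Nat.card F₀ ^ r → Cfsg.Geo.IsMaximalIn (Cfsg.Geo.specialLinear (Fin 7) F) (Cfsg.Geo.subfieldSubgroup F₀ P ⊓ Cfsg.Geo.specialLinear (Fin 7) F)) :=
  fun F₀ r P hr hcard => Cfsg.Agent.MaxSub.SubfieldMax.subfieldSubgroup_maximal hr (by simp) hcard P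

/-- Clause (6) of the list for `SL_7(q)`. -/
theorem sl7_clause6 {F : Type*} [Field F] [Fintype F] :
    (Odd (Fintype.card F) → ∀ Q : (Fin 7 → F) → F, Cfsg.Geo.IsNondegenerateQuadraticForm Q → Cfsg.Geo.IsMaximalIn (Cfsg.Geo.specialLinear (Fin 7) F) (Cfsg.Geo.quadSimilarityGroup Q ⊓ Cfsg.Geo.specialLinear (Fin 7) F)) :=
  fun hodd Q hQ => Cfsg.Agent.GeoClasses.quad_similarity_maximal (by simp)
    (Cfsg.Agent.GeoClasses.two_ne_zero_iff_odd_card.2 hodd) hQ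

/-- Clause (7) of the list for `SL_7(q)`. -/
theorem sl7_clause7 {F : Type*} [Field F] [Fintype F] :
    (∀ (σ : F ≃+* F) (f : (Fin 7 → F) → (Fin 7 → F) → F), Cfsg.Geo.IsUnitaryForm σ f → Cfsg.Geo.IsMaximalIn (Cfsg.Geo.specialLinear (Fin 7) F) (Cfsg.Geo.similarityGroup f ⊓ Cfsg.Geo.specialLinear (Fin 7) F)) :=
  fun σ f hf => Cfsg.Agent.GeoClasses.unitary_similarity_maximal (by norm_num) hf

/-- Clause (1) of the list for `SU_7(q)`. -/
theorem su7_clause1 {F : Type*} [Field F] [Fintype F] (q : ℕ) (hF : Fintype.card F = q ^ 2) :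
    (∀ W : Submodule F (Fin 7 → F), W ≠ ⊥ → Cfsg.Geo.IsTotallySingularFor (Cfsg.hermForm 7 F q) W → Cfsg.Geo.IsMaximalIn (Cfsg.GU 7 F q ⊓ Cfsg.Geo.specialLinear (Fin 7) F) (Cfsg.Geo.subspaceStabilizer W ⊓ (Cfsg.GU 7 F q ⊓ Cfsg.Geo.specialLinear (Fin 7) F))) :=
  fun W h0 hW => Cfsg.Agent.GeoClasses.suGL_singular_maximal
    (Cfsg.Agent.Classical.U.sqField_of_fintype hF) (by norm_num) h0 hW

/-- Clause (2) of the list for `SU_7(q)`. -/
theorem su7_clause2 {F : Type*} [Field F] [Fintype F] (q : ℕ) (hF : Fintype.card F = q ^ 2) :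
    (∀ W : Submodule F (Fin 7 → F), W ≠ ⊥ → Cfsg.Geo.IsNondegenerateOn (Cfsg.hermForm 7 F q) W → 2 * Module.finrank F W < 7 → Cfsg.Geo.IsMaximalIn (Cfsg.GU 7 F q ⊓ Cfsg.Geo.specialLinear (Fin 7) F) (Cfsg.Geo.subspaceStabilizer W ⊓ (Cfsg.GU 7 F q ⊓ Cfsg.Geo.specialLinear (Fin 7) F))) :=
  fun W h0 hW hd => Cfsg.Agent.GeoClasses.suGL_nondeg_maximal_four
    (Cfsg.Agent.Classical.U.sqField_of_fintype hF) (by norm_num) h0 hW hd

/-- Clause (3) of the list for `SU_7(q)`. -/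
theorem su7_clause3 {F : Type*} [Field F] [Fintype F] (q : ℕ) (hF : Fintype.card F = q ^ 2) :
    (∀ D : Fin 7 → Submodule F (Fin 7 → F), Cfsg.Geo.IsNondegenerateMDecomposition (Cfsg.hermForm 7 F q) 1 D → Cfsg.Geo.IsMaximalIn (Cfsg.GU 7 F q ⊓ Cfsg.Geo.specialLinear (Fin 7) F) (Cfsg.Geo.decompositionStabilizer D ⊓ (Cfsg.GU 7 F q ⊓ Cfsg.Geo.specialLinear (Fin 7) F))) :=
  fun D hD => Cfsg.Agent.SUFive.FrameOdd.suGL_frame_maximal_seven
    (Cfsg.Agent.Classical.U.sqField_of_fintype hF) hD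

/-- Clause (5) of the list for `SU_7(q)`. -/
theorem su7_clause5 {F : Type*} [Field F] [Fintype F] (q : ℕ) (hF : Fintype.card F = q ^ 2) :
    (∀ (F₀ : Subfield F) (r : ℕ) (P : Matrix.GeneralLinearGroup (Fin 7) F), r.Prime → Odd r → Fintype.card F = Nat.card F₀ ^ r → Cfsg.Geo.IsFormRationalStructure (Cfsg.hermForm 7 F q) F₀ 1 P → Cfsg.Geo.IsMaximalIn (Cfsg.GU 7 F q ⊓ Cfsg.Geo.specialLinear (Fin 7) F) (Cfsg.Geo.subfieldSubgroup F₀ P ⊓ (Cfsg.GU 7 F q ⊓ Cfsg.Geo.specialLinear (Fin 7) F))) :=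
  fun F₀ r P hr ho hc hP => Cfsg.Agent.GeoClasses.suGL_oddSubfield_maximal
    (Cfsg.Agent.Classical.U.sqField_of_fintype hF) (by norm_num) hr ho hc hP

/-- Clause (6) of the list for `SU_7(q)`. -/
theorem su7_clause6 {F : Type*} [Field F] [Fintype F] (q : ℕ) (hF : Fintype.card F = q ^ 2) :
    (Odd q → ∀ (F₀ : Subfield F) (P : Matrix.GeneralLinearGroup (Fin 7) F), Fintype.card F = Nat.card F₀ ^ 2 → Cfsg.Geo.IsFormRationalStructure (Cfsg.hermForm 7 F q) F₀ 1 P → Cfsg.Geo.IsMaximalIn (Cfsg.GU 7 F q ⊓ Cfsg.Geo.specialLinear (Fin 7) F) (Cfsg.Geo.subfieldSubgroup F₀ P ⊓ (Cfsg.GU 7 F q ⊓ Cfsg.Geo.specialLinear (Fin 7) F))) :=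
  fun hq F₀ P hc hP => by
    have hs := Cfsg.Agent.Classical.U.sqField_of_fintype hF
    refine Cfsg.Agent.GeoClasses.suGL_realSubfield_maximal hs (by norm_num) hc
      (Cfsg.Agent.GeoClasses.ratStr_orth hs (by rw [Nat.card_eq_fintype_card, hc]) ?_ hP)
    rw [Cfsg.Agent.GeoClasses.two_ne_zero_iff_odd_card, hF]
    exact hq.pow

end Cfsg.Agent.CSixSeven.Lists
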