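import Cfsg.Agent.CSixSeven.Standard

/-!
# Maximality of the normaliser of `7^{1+2}` in `SL₇`, odd characteristic
-/

set_option autoImplicit false

namespace Cfsg.Agent.CSixSeven

open Cfsg Cfsg.Geo Matrix
open scoped MatrixGroups

variable {F : Type*} [Field F]

/-- Clause 5 of the list of maximal subgroups of `SL₇` in odd characteristic, from the two halves
of the dichotomy on transvections. -/
theorem symplecticType_seven_maximal_of [Fintype F] (h2 : (2 : F) ≠ 0)
    (R : Subgroup (GL (Fin 7) F)) (hR : IsLinearSymplecticTypeData 7 R)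
    (hTv : ∀ (ω : F) (X : Subgroup (GL (Fin 7) F)), Gen ω X → ¬ NoTv X →
      specialLinear (Fin 7) F ≤ X)
    (hNorm : ∀ (ω : F) (X : Subgroup (GL (Fin 7) F)), Gen ω X → NoTv X →
      ∀ h ∈ X, NormR ω (h : M7 F)) :
    IsMaximalIn (specialLinear (Fin 7) F)
      (subgroupNormalizer R ⊓ specialLinear (Fin 7) F) := by
  refine maximal_of hR h2 fun ω X hG => ?_
  by_cases hns : NoTv X
  · exact Or.inl (hNorm ω X hG hns)
  · exact Or.inr (hTv ω X hG hns)

end Cfsg.Agent.CSixSeven
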