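import Cfsg.Agent.CSixSeven.Plane

/-!
No nontrivial `p`-subgroup is normalised by the diagonal generators; consequences for the elements
acting trivially on the odd vectors.
-/

set_option autoImplicit false
set_option linter.unusedSectionVars false

namespace Cfsg.Agent.CSixSeven

open Cfsg Cfsg.Geo Matrix
open scoped MatrixGroups

variable {F : Type*} [Field F] {ω : F} {X : Subgroup (GL (Fin 7) F)}

/-- Product identity for two commuting coprime endomorphisms of order seven without common traces. -/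
theorem eq_one_of_norms {Z : Type*} [CommGroup Z] (ψ φ : Z →* Z) (hψφ : ∀ z, ψ (φ z) = φ (ψ z))
    (hψ : ∀ z, ψ^[7] z = z) (hy : ∀ z, φ z = z → z = 1)
    (hb : ∀ (b : Fin 7) (z : Z), ψ (φ^[b] z) = z → z = 1) (hφ : ∀ z, φ^[7] z = z)
    (z : Z) (hz7 : z ^ 7 = 1 → z = 1) : z = 1 := by
  have hcomm : Function.Commute ψ φ := hψφ
  have hmod : ∀ θ : Z →* Z, (∀ z, θ^[7] z = z) → ∀ (n : ℕ) (z : Z), θ^[n] z = θ^[n % 7] z :=
    fun θ hθ n z => by
      conv_lhs => rw [← Nat.mod_add_div n 7, Function.iterate_add_apply, Function.iterate_mul,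
        Function.iterate_fixed (hθ z)]
  -- the traces vanish
  have trace : ∀ θ : Z →* Z, (∀ z, θ^[7] z = z) → (∀ z, θ z = z → z = 1) →
      ∀ z, ∏ k : Fin 7, θ^[k] z = 1 := by
    intro θ hθ hfix z
    refine hfix _ ?_
    rw [map_prod]
    refine Fintype.prod_bijective (fun k : Fin 7 => k + 1) (Equiv.addRight (1 : Fin 7)).bijective
      _ _ fun k => ?_
    rw [← Function.iterate_succ_apply' θ, hmod θ hθ, Fin.val_add]
    rfl
  have hcomp : ∀ (b : Fin 7) (k : ℕ) (z : Z),
      (fun w => ψ (φ^[b] w))^[k] z = ψ^[k] (φ^[b * k] z) := by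
    intro b k
    induction k with
    | zero => intro z; rfl
    | succ k ih =>
      intro z
      rw [Function.iterate_succ_apply', ih, Function.iterate_succ_apply' ψ, Nat.mul_succ,
        Nat.add_comm ((b : ℕ) * k), Function.iterate_add_apply, (hcomm.iterate_iterate k b).eq]
  have hlines : ∀ b : Fin 7, ∏ k : Fin 7, ψ^[k] (φ^[(b : ℕ) * k] z) = 1 := by
    intro b
    have hall : ∀ w, (fun w => ψ (φ^[b] w))^[7] w = w := fun w => by
      rw [hcomp, hψ, mul_comm, Function.iterate_mul]
      exact Function.iterate_fixed (hφ w) _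
    let θ : Z →* Z :=
      { toFun := fun w => ψ (φ^[b] w)
        map_one' := by rw [iterate_map_one φ, map_one]
        map_mul' := fun x y => by rw [iterate_map_mul φ, map_mul] }
    refine Eq.trans ?_ (trace θ hall (hb b) z)
    exact Finset.prod_congr rfl fun k _ => (hcomp b k z).symm
  have hall : ∏ b : Fin 7, ∏ k : Fin 7, ψ^[k] (φ^[(b : ℕ) * k] z) = 1 :=
    Finset.prod_eq_one fun b _ => hlines b
  rw [Finset.prod_comm] at hall
  rw [← Finset.mul_prod_erase Finset.univ _ (Finset.mem_univ (0 : Fin 7))] at hall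
  have h0 : ∏ k ∈ Finset.univ.erase (0 : Fin 7), ∏ b : Fin 7, ψ^[k] (φ^[(b : ℕ) * k] z) = 1 := by
    refine Finset.prod_eq_one fun k hk => ?_
    have hk0 : k ≠ 0 := (Finset.mem_erase.1 hk).1
    have hmap : ∀ f : Fin 7 → Z, ∏ b, ψ^[k] (f b) = ψ^[k] (∏ b, f b) := by
      intro f
      induction (Finset.univ : Finset (Fin 7)) using Finset.induction with
      | empty => simp [iterate_map_one]
      | insert a s ha ih => rw [Finset.prod_insert ha, Finset.prod_insert ha, iterate_map_mul, ih]
    rw [hmap fun b => φ^[(b : ℕ) * k] z]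
    have hbij : Function.Bijective fun b : Fin 7 => b * k := by
      refine Finite.injective_iff_bijective.1 fun x y h => ?_
      exact (show ∀ k x y : Fin 7, k ≠ 0 → x * k = y * k → x = y by decide) k x y hk0 h
    have he : ∏ b : Fin 7, φ^[(b : ℕ) * k] z = ∏ i : Fin 7, φ^[i] z :=
      Fintype.prod_bijective _ hbij _ _ fun b => by rw [hmod φ hφ, Fin.val_mul]
    rw [he, trace φ hφ hy, iterate_map_one]
  rw [h0, mul_one] at hall
  simp only [Fin.val_zero, Nat.mul_zero, Function.iterate_zero, id, Finset.prod_const,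
    Finset.card_univ, Fintype.card_fin] at hall
  exact hz7 hall

section Elements

variable [Finite F] (p : ℕ) [Fact p.Prime] [CharP F p]

theorem seven_ne_zero (hω : Omega ω) : (7 : F) ≠ 0 := by
  intro h
  haveI : Fact (Nat.Prime 7) := ⟨by norm_num⟩
  haveI : CharP F 7 := (CharP.charP_iff_prime_eq_zero (by norm_num)).2 (by exact_mod_cast h)
  have : (ω - 1) ^ 7 = 0 := by rw [sub_pow_char, hω.pow_seven, one_pow, sub_self]
  exact hω.ne_one (sub_eq_zero.1 (eq_zero_of_pow_eq_zero this))

/-- A diagonal element of `p`-power order is trivial. -/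
theorem eq_one_of_diagonal {h : GL (Fin 7) F} {n : ℕ} (hn : h ^ p ^ n = 1)
    (hd : ∀ i j, i ≠ j → (h : M7 F) i j = 0) : h = 1 := by
  have he : (h : M7 F) = Matrix.diagonal fun i => (h : M7 F) i i := by
    refine Matrix.ext fun i j => ?_
    by_cases hij : i = j
    · subst hij; simp
    · rw [Matrix.diagonal_apply_ne _ hij, hd i j hij]
  have h1 : ∀ i, (h : M7 F) i i = 1 := fun i => by
    have e := congrArg (fun u : GL (Fin 7) F => (u : M7 F) i i) hn
    simp only [Units.val_pow_eq_pow_val, Units.val_one, Matrix.one_apply_eq] at e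
    rw [he, Matrix.diagonal_pow, Matrix.diagonal_apply_eq, Pi.pow_apply] at e
    refine sub_eq_zero.1 (eq_zero_of_pow_eq_zero (n := p ^ n) ?_)
    rw [sub_pow_char_pow, e, one_pow, sub_self]
  refine Units.ext ?_
  rw [Units.val_one, he]
  simp [h1]

/-- An element of odd prime power order commuting with the phase is trivial. -/
theorem eq_one_of_commute_g (hG : Gen ω X) (hN : NoTv X) (hp2 : p ≠ 2) {h : GL (Fin 7) F}
    (hh : h ∈ X) (hc : Commute (h : M7 F) (Gm ω)) {n : ℕ} (hn : h ^ p ^ n = 1) : h = 1 := by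
  have hm := mono_of_commute_g hG hN hh hc
  have hs : ∀ i j, (h : M7 F) i j ≠ 0 → i = j ∨ i = -j := fun i j e =>
    (show ∀ i j : Fin 7, i * i = j * j → i = j ∨ i = -j by decide) i j
      (Not.imp_symm (apply_eq_zero hG.omega hc) e)
  have hsq : ∀ i j, i ≠ j → ((h * h : GL (Fin 7) F) : M7 F) i j = 0 := by
    intro i j hij
    rw [Units.val_mul, Matrix.mul_apply]
    refine Finset.sum_eq_zero fun k _ => ?_
    by_contra hne
    have h1 := left_ne_zero_of_mul hne
    have h2 := right_ne_zero_of_mul hne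
    rcases hs k j h2 with e | e
    · rw [e] at h1
      exact hij (hm i j j h1 (by rwa [e] at h2))
    rcases hs i k h1 with e' | e'
    · -- two columns in one row
      refine (h : GL (Fin 7) F).det_ne_zero (Matrix.det_eq_zero_of_row_eq_zero j fun l => ?_)
      by_contra hl
      rcases hs j l hl with e'' | e''
      · rw [← e''] at hl
        exact hij (e'.trans (hm k j j h2 hl))
      · have hlk : l = k := by rw [e, e'', neg_neg]
        rw [hlk] at hl
        exact hij (hm i j k h1 hl)
    · exact hij (by rw [e', e, neg_neg])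
  have hn2 : (h * h) ^ p ^ n = 1 := by
    rw [← pow_two, ← pow_mul, mul_comm, pow_mul, hn, one_pow]
  have h2 : h * h = 1 := eq_one_of_diagonal p hn2 hsq
  obtain ⟨m, hm'⟩ := ((Fact.out : p.Prime).odd_of_ne_two hp2).pow (n := n)
  rw [hm', pow_succ, pow_mul, pow_two, h2, one_pow, one_mul] at hn
  exact hn

theorem dm_pow (hω : Omega ω) (f : Fin 7 → Fin 7) (n : ℕ) :
    Dm ω f ^ n = Dm ω fun i => n • f i := by
  induction n with
  | zero => simp [dm_zero]
  | succ n ih => rw [pow_succ, ih, dm_mul hω]; simp [succ_nsmul]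

theorem xm_pow_mul_dm (m : ℕ) (f : Fin 7 → Fin 7) :
    (Xm : M7 F) ^ m * Dm ω f = Dm ω (fun i => f (i - m • (1 : Fin 7))) * Xm ^ m := by
  induction m generalizing f with
  | zero => simp
  | succ m ih =>
    rw [pow_succ, Matrix.mul_assoc, xm_mul_dm, ← Matrix.mul_assoc, ih, Matrix.mul_assoc]
    congr 2
    funext i
    congr 1
    rw [succ_nsmul, sub_sub]

/-- An element of odd prime power order commuting with a twisted phase is trivial. -/
theorem eq_one_of_commute_twist (hG : Gen ω X) (hN : NoTv X) (hp2 : p ≠ 2) (b : Fin 7)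
    {h : GL (Fin 7) F} (hh : h ∈ X) (hc : Commute (h : M7 F) (Dm ω fun i => i * i + b * i)) {n : ℕ}
    (hn : h ^ p ^ n = 1) : h = 1 := by
  obtain ⟨x, hx, hxv⟩ := hG.x
  obtain ⟨m, hm⟩ : ∃ m : ℕ, ∀ i : Fin 7, (i - m • (1 : Fin 7)) * (i - m • (1 : Fin 7)) +
      b * (i - m • (1 : Fin 7)) = i * i + (-(m • (1 : Fin 7)) * (m • (1 : Fin 7))) := by
    obtain ⟨k, hk⟩ := (show ∀ b : Fin 7, ∃ k : Fin 7, ∀ i : Fin 7, (i - (k : ℕ) • (1 : Fin 7)) *
        (i - (k : ℕ) • (1 : Fin 7)) + b * (i - (k : ℕ) • (1 : Fin 7)) =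
        i * i + (-((k : ℕ) • (1 : Fin 7)) * ((k : ℕ) • (1 : Fin 7))) by decide +kernel) b
    exact ⟨k, hk⟩
  set P := x ^ m with hP
  have hPv : (P : M7 F) = Xm ^ m := by rw [hP, Units.val_pow_eq_pow_val, hxv]
  set c : Fin 7 := -(m • (1 : Fin 7)) * (m • (1 : Fin 7)) with hcdef
  have hd : (P : M7 F) * (Dm ω fun i => i * i + b * i) = (w ω c • Gm ω) * (P : M7 F) := by
    rw [hPv, xm_pow_mul_dm]
    congr 1
    refine Matrix.ext fun i j => ?_
    by_cases hij : i = j
    · subst hij
      simp [Gm, Dm, hm, w_add hG.omega, mul_comm]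
    · simp [Gm, Dm, hij]
  have hconj : Commute ((P * h * P⁻¹ : GL (Fin 7) F) : M7 F) (w ω c • Gm ω) := by
    have e : w ω c • Gm ω = (P : M7 F) * (Dm ω fun i => i * i + b * i) * (P⁻¹ : GL (Fin 7) F) := by
      rw [hd, Matrix.mul_assoc, P.mul_inv, Matrix.mul_one]
    rw [e, Units.val_mul, Units.val_mul]
    show _ * _ = _ * _
    simp only [mul_assoc, Units.inv_mul_cancel_left]
    rw [← mul_assoc (h : M7 F), hc.eq, mul_assoc]
  have hg : Commute ((P * h * P⁻¹ : GL (Fin 7) F) : M7 F) (Gm ω) := by
    have := hconj.smul_right (w ω c)⁻¹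
    rwa [smul_smul, inv_mul_cancel₀ (w_ne_zero hG.omega c), one_smul] at this
  have h1 := eq_one_of_commute_g p hG hN hp2
    (X.mul_mem (X.mul_mem (pow_mem hx m) hh) (X.inv_mem (pow_mem hx m))) hg (n := n)
    (by rw [conj_pow, hn, mul_one, mul_inv_cancel])
  exact conj_eq_one_iff.1 h1

/-- No `p`-subgroup is normalised by the diagonal generators. -/
theorem pgroup_eq_bot (hG : Gen ω X) (hN : NoTv X) (U : Subgroup (GL (Fin 7) F)) (hU : U ≤ X)
    (hp : IsPGroup p U) {gy gg : GL (Fin 7) F} (hy : (gy : M7 F) = Ym ω)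
    (hg : (gg : M7 F) = Gm ω) (hyn : ∀ u ∈ U, gy * u * gy⁻¹ ∈ U)
    (hgn : ∀ u ∈ U, gg * u * gg⁻¹ ∈ U) : U = ⊥ := by
  classical
  have hp2 : p ≠ 2 := by
    rintro rfl
    exact hG.two_ne_zero (CharP.cast_eq_zero F 2)
  have hp7 : p ≠ 7 := by
    rintro rfl
    exact seven_ne_zero hG.omega (CharP.cast_eq_zero F 7)
  by_contra hne
  haveI : Nontrivial U := Subgroup.nontrivial_iff_ne_bot U |>.2 hne
  haveI : Nontrivial (Subgroup.center U) := hp.center_nontrivial
  obtain ⟨z, hz⟩ := exists_ne (1 : Subgroup.center U)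
  letI : CommGroup (Subgroup.center U) :=
    { (inferInstance : Group (Subgroup.center U)) with
      mul_comm := fun a b => Subtype.ext (Subgroup.mem_center_iff.1 b.2 a.1) }
  have mk : ∀ a : GL (Fin 7) F, (∀ u ∈ U, a * u * a⁻¹ ∈ U) → (∀ u ∈ U, a⁻¹ * u * a ∈ U) →
      ∃ φ : Subgroup.center U →* Subgroup.center U,
        ∀ c, ((φ c : U) : GL (Fin 7) F) = a * ((c : U) : GL (Fin 7) F) * a⁻¹ := by
    intro a ha ha'
    refine ⟨{ toFun := fun c => ⟨⟨a * ((c : U) : GL (Fin 7) F) * a⁻¹, ha _ (c : U).2⟩,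
                Subgroup.mem_center_iff.2 fun u => ?_⟩
              map_one' := Subtype.ext (Subtype.ext (by simp))
              map_mul' := fun c d => Subtype.ext (Subtype.ext (by simp [mul_assoc])) }, fun c => rfl⟩
    have h := congrArg Subtype.val (Subgroup.mem_center_iff.1 c.2 ⟨_, ha' u u.2⟩)
    simp only [Subgroup.coe_mul] at h
    refine Subtype.ext ?_
    show (u : GL (Fin 7) F) * (a * ((c : U) : GL (Fin 7) F) * a⁻¹) =
      a * ((c : U) : GL (Fin 7) F) * a⁻¹ * u
    calc (u : GL (Fin 7) F) * (a * ((c : U) : GL (Fin 7) F) * a⁻¹)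
        = a * (a⁻¹ * u * a * ((c : U) : GL (Fin 7) F)) * a⁻¹ := by group
      _ = a * (((c : U) : GL (Fin 7) F) * (a⁻¹ * u * a)) * a⁻¹ := by rw [h]
      _ = a * ((c : U) : GL (Fin 7) F) * a⁻¹ * u := by group
  have h7 : ∀ f : Fin 7 → Fin 7, Dm ω f ^ 7 = (1 : M7 F) := fun f => by
    rw [dm_pow hG.omega, ← dm_zero (ω := ω)]
    congr 1
    funext i
    exact (show ∀ a : Fin 7, 7 • a = 0 by decide) (f i)
  have gy7 : gy ^ 7 = 1 := Units.ext (by rw [Units.val_pow_eq_pow_val, hy, Ym, h7, Units.val_one])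
  have gg7 : gg ^ 7 = 1 := Units.ext (by rw [Units.val_pow_eq_pow_val, hg, Gm, h7, Units.val_one])
  have inv6 : ∀ a : GL (Fin 7) F, a ^ 7 = 1 → (∀ u ∈ U, a * u * a⁻¹ ∈ U) →
      ∀ u ∈ U, a⁻¹ * u * a ∈ U := by
    intro a ha7 ha u hu
    have hk : ∀ k : ℕ, a ^ k * u * (a ^ k)⁻¹ ∈ U := by
      intro k
      induction k with
      | zero => simpa using hu
      | succ k ih =>
        have := ha _ ih
        rw [pow_succ']
        simpa [mul_assoc] using this
    have e : a⁻¹ = a ^ 6 := inv_eq_of_mul_eq_one_left (by rw [← pow_succ]; exact ha7)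
    have h6 := hk 6
    rwa [← e, inv_inv] at h6
  obtain ⟨φ, hφ⟩ := mk gy hyn (inv6 gy gy7 hyn)
  obtain ⟨ψ, hψ⟩ := mk gg hgn (inv6 gg gg7 hgn)
  have hit : ∀ (θ : Subgroup.center U →* Subgroup.center U) (a : GL (Fin 7) F),
      (∀ c, ((θ c : U) : GL (Fin 7) F) = a * ((c : U) : GL (Fin 7) F) * a⁻¹) →
      ∀ (k : ℕ) c, ((θ^[k] c : U) : GL (Fin 7) F) = a ^ k * ((c : U) : GL (Fin 7) F) * (a ^ k)⁻¹ := by
    intro θ a hθ k
    induction k with
    | zero => intro c; simp
    | succ k ih =>
      intro c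
      rw [Function.iterate_succ_apply', hθ, ih, pow_succ']
      group
  have hcomm : gg * gy = gy * gg := Units.ext (by
    rw [Units.val_mul, Units.val_mul, hg, hy, Gm, Ym, dm_mul hG.omega, dm_mul hG.omega]
    simp [add_comm])
  have pord : ∀ c : Subgroup.center U, ∃ n, ((c : U) : GL (Fin 7) F) ^ p ^ n = 1 := fun c => by
    obtain ⟨n, hn⟩ := hp (c : U)
    exact ⟨n, by simpa using congrArg Subtype.val hn⟩
  have fixed : ∀ (a : GL (Fin 7) F) (c : Subgroup.center U),
      a * ((c : U) : GL (Fin 7) F) * a⁻¹ = ((c : U) : GL (Fin 7) F) →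
      Commute (((c : U) : GL (Fin 7) F) : M7 F) (a : M7 F) := fun a c e => by
    have := congrArg Units.val (mul_inv_eq_iff_eq_mul.1 e)
    rw [Units.val_mul, Units.val_mul] at this
    exact this.symm
  refine hz (eq_one_of_norms ψ φ (fun c => ?_) (fun c => ?_) (fun c hc => ?_) (fun b c hc => ?_)
    (fun c => ?_) z fun h => ?_)
  · refine Subtype.ext (Subtype.ext ?_)
    rw [hψ, hφ, hφ, hψ]
    have : gg * gy * ((c : U) : GL (Fin 7) F) * (gg * gy)⁻¹ =
        gy * gg * ((c : U) : GL (Fin 7) F) * (gy * gg)⁻¹ := by rw [hcomm]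
    simpa [mul_assoc] using this
  · exact Subtype.ext (Subtype.ext (by rw [hit ψ gg hψ, gg7]; simp))
  · obtain ⟨n, hn⟩ := pord c
    have hc' := fixed gy c (by rw [← hφ, hc])
    rw [hy] at hc'
    refine Subtype.ext (Subtype.ext (eq_one_of_diagonal p hn fun i j hij => ?_))
    have e := congrFun (congrFun hc'.eq i) j
    simp only [Ym, Dm, Matrix.mul_diagonal, Matrix.diagonal_mul] at e
    have hne : w ω j - w ω i ≠ 0 := sub_ne_zero.2 fun e' => hij (w_inj hG.omega e').symm
    exact (mul_eq_zero.1 (show (((c : U) : GL (Fin 7) F) : M7 F) i j * (w ω j - w ω i) = 0 by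
      linear_combination e)).resolve_right hne
  · obtain ⟨n, hn⟩ := pord c
    have hc' := fixed (gg * gy ^ (b : ℕ)) c (by
      have := congrArg (fun d : Subgroup.center U => ((d : U) : GL (Fin 7) F)) hc
      rw [hψ, hit φ gy hφ] at this
      simpa [mul_assoc] using this)
    rw [Units.val_mul, Units.val_pow_eq_pow_val, hg, hy, Gm, Ym, dm_pow hG.omega,
      dm_mul hG.omega] at hc'
    refine Subtype.ext (Subtype.ext (eq_one_of_commute_twist p hG hN hp2 b (hU (c : U).2) ?_ hn))
    convert hc' using 3 with i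
    congr 1
    exact (show ∀ b i : Fin 7, b * i = (b : ℕ) • i by decide) b i
  · exact Subtype.ext (Subtype.ext (by rw [hit φ gy hφ, gy7]; simp))
  · obtain ⟨n, hn⟩ := hp (z : U)
    have h1 : orderOf (z : U) ∣ p ^ n := orderOf_dvd_of_pow_eq_one hn
    have h2 : orderOf (z : U) ∣ 7 := orderOf_dvd_of_pow_eq_one (by simpa using congrArg Subtype.val h)
    have hcop : Nat.Coprime (p ^ n) 7 :=
      Nat.Coprime.pow_left _ ((Nat.coprime_primes (Fact.out : p.Prime) (by norm_num)).2 hp7)
    exact Subtype.ext (orderOf_eq_one_iff.1 (Nat.eq_one_of_dvd_coprimes hcop h1 h2))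

/-- The class of an index up to sign. -/
def cls (i : Fin 7) : Fin 4 := ![0, 1, 2, 3, 3, 2, 1] i

theorem ka_cls (i : Fin 7) : ka (cls i) = i ∨ -ka (cls i) = i := by revert i; decide

/-- An ordering of the even basis in which the group is unitriangular. -/
theorem exists_order (hG : Gen ω X) (U : Subgroup (GL (Fin 7) F)) (hU : U ≤ Kz X)
    (hp : IsPGroup p U) {gg : GL (Fin 7) F} (hg : (gg : M7 F) = Gm ω)
    (hgn : ∀ u ∈ U, gg * u * gg⁻¹ ∈ U) :
    ∃ ρ : Fin 4 → ℕ, (∀ r, ρ r < 5) ∧ ∀ u ∈ U, ∀ r s, ¬ ρ r < ρ s →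
      Am (u : M7 F) r s = if r = s then 1 else 0 := by
  classical
  haveI : Fintype F := Fintype.ofFinite F
  have lam_inj : ∀ r s : Fin 4, w ω (ka r * ka r) = w ω (ka s * ka s) → r = s := fun r s e =>
    (show ∀ r s : Fin 4, ka r * ka r = ka s * ka s → r = s by decide) r s (w_inj hG.omega e)
  suffices ∀ k ≤ 4, ∃ (S : Finset (Fin 4)) (ρ : Fin 4 → ℕ), S.card = k ∧ (∀ r, ρ r ≤ k) ∧
      (∀ r, r ∉ S → ρ r = 0) ∧ (∀ r ∈ S, 0 < ρ r) ∧
      ∀ u ∈ U, ∀ r, ∀ s ∈ S, ¬ (r ∈ S ∧ ρ r < ρ s) →
        Am (u : M7 F) r s = if r = s then 1 else 0 by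
    obtain ⟨S, ρ, hS, hρ, -, -, h⟩ := this 4 le_rfl
    have hall : ∀ r, r ∈ S := fun r => by
      rw [Finset.eq_univ_of_card S (by simpa using hS)]; exact Finset.mem_univ r
    exact ⟨ρ, fun r => Nat.lt_succ_of_le (hρ r), fun u hu r s hrs =>
      h u hu r s (hall s) fun e => hrs e.2⟩
  intro k
  induction k with
  | zero =>
    intro _
    exact ⟨∅, fun _ => 0, rfl, fun _ => le_rfl, fun _ _ => rfl, by simp, by simp⟩
  | succ k ih =>
    intro hk
    obtain ⟨S, ρ, hS, hρ, hρ0, hρ1, h⟩ := ih (by omega)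
    let act : ↥U → (Fin 4 → F) → Fin 4 → F := fun u v r =>
      if r ∈ S then 0 else ∑ s, Am (((u : GL (Fin 7) F)) : M7 F) r s * v s
    let P := {v : Fin 4 → F // ∀ r ∈ S, v r = 0}
    have hzero : ∀ (u : ↥U) (r s : Fin 4), r ∉ S → s ∈ S →
        Am ((u : GL (Fin 7) F) : M7 F) r s = 0 := fun u r s hr hs => by
      rw [h u u.2 r s hs fun e => hr e.1, if_neg fun e : r = s => hr (by rw [e]; exact hs)]
    letI : MulAction U P :=
      { smul := fun u v => ⟨act u v.1, fun r hr => if_pos hr⟩
        one_smul := fun v => Subtype.ext (funext fun r => by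
          show act 1 v.1 r = v.1 r
          by_cases hr : r ∈ S
          · simp [act, hr, v.2 r hr]
          · simp [act, hr, Matrix.one_apply])
        mul_smul := fun u u' v => Subtype.ext (funext fun r => by
          show act (u * u') v.1 r = act u (act u' v.1) r
          by_cases hr : r ∈ S
          · simp [act, hr]
          · simp only [act, if_neg hr, Subgroup.coe_mul, Units.val_mul,
              am_mul (sym_of_mem (hU u.2)) (sym_of_mem (hU u'.2)), Matrix.mul_apply, Finset.sum_mul,
              Finset.mul_sum]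
            rw [Finset.sum_comm]
            refine Finset.sum_congr rfl fun t _ => ?_
            by_cases ht : t ∈ S
            · simp [ht, hzero u r t hr ht]
            · simp [ht, mul_assoc, Finset.mul_sum]) }
    have hsmul : ∀ (u : ↥U) (v : P), ((u • v : P) : Fin 4 → F) = act u v.1 := fun _ _ => rfl
    obtain ⟨r₀, hr₀⟩ : ∃ r₀, r₀ ∉ S := by
      by_contra hcon
      push Not at hcon
      rw [Finset.eq_univ_of_forall hcon] at hS
      simp at hS
      omega
    have hdvd : p ∣ Nat.card P := by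
      let single : F →+ (Fin 4 → F) := AddMonoidHom.single (fun _ : Fin 4 => F) r₀
      let A : AddSubgroup (Fin 4 → F) :=
        { carrier := {v | ∀ r ∈ S, v r = 0}
          zero_mem' := fun r _ => rfl
          add_mem' := fun {a b} ha hb r hr => by simp [ha r hr, hb r hr]
          neg_mem' := fun {a} ha r hr => by simp [ha r hr] }
      have hc : Nat.card F ∣ Nat.card A :=
        AddSubgroup.card_dvd_of_injective
          ({ toFun := fun x => (⟨single x, fun r hr => by
              simp [single, show r ≠ r₀ from fun e => hr₀ (e ▸ hr)]⟩ : A)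
             map_zero' := Subtype.ext (by simp)
             map_add' := fun x y => Subtype.ext (by simp) } : F →+ A)
          fun x y e => by simpa [single] using congrFun (congrArg Subtype.val e) r₀
      refine dvd_trans ?_ (hc.trans (dvd_of_eq (Nat.card_congr (Equiv.refl _))))
      obtain ⟨e, -, he⟩ := FiniteField.card F p
      rw [Nat.card_eq_fintype_card, he]
      exact dvd_pow_self p e.ne_zero
    let zero : P := ⟨0, fun _ _ => rfl⟩
    obtain ⟨v, hv, hv0⟩ := hp.exists_fixed_point_of_prime_dvd_card_of_fixed_point P hdvd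
      (a := zero) (fun u => Subtype.ext (funext fun r => by simp [hsmul, act, zero]))
    -- minimal support
    have hex : ∃ n, ∃ v : P, v ∈ MulAction.fixedPoints U P ∧ v.1 ≠ 0 ∧
        (Finset.univ.filter fun r => v.1 r ≠ 0).card = n :=
      ⟨_, v, hv, fun e => hv0 (Subtype.ext e.symm), rfl⟩
    obtain ⟨v, hv, hv0, hcard⟩ := Nat.find_spec hex
    obtain ⟨r, hr⟩ : ∃ r, v.1 r ≠ 0 := by
      by_contra hcon
      push Not at hcon
      exact hv0 (funext hcon)
    have hrS : r ∉ S := fun e => hr (v.2 r e)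
    have honly : ∀ s, s ≠ r → v.1 s = 0 := by
      intro s hs
      by_contra hsne
      let v' : P := ⟨fun t => (w ω (ka t * ka t) - w ω (ka r * ka r)) * v.1 t,
        fun t ht => by simp [v.2 t ht]⟩
      have hv' : v' ∈ MulAction.fixedPoints U P := fun u => by
        refine Subtype.ext (funext fun t => ?_)
        have e1 := congrFun (congrArg Subtype.val (hv u)) t
        have hmem := hgn _ u.2
        have hinv : gg⁻¹ * (u : GL (Fin 7) F) * gg ∈ U := by
          have h7 : gg ^ 7 = 1 := Units.ext (by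
            rw [Units.val_pow_eq_pow_val, hg, Gm, dm_pow hG.omega, Units.val_one, ← dm_zero (ω := ω)]
            congr 1
            funext i
            exact (show ∀ a : Fin 7, 7 • a = 0 by decide) _)
          have hk : ∀ k : ℕ, gg ^ k * (u : GL (Fin 7) F) * (gg ^ k)⁻¹ ∈ U := by
            intro k
            induction k with
            | zero => simp
            | succ k ih =>
              have := hgn _ ih
              rw [pow_succ']
              simpa [mul_assoc] using this
          have e : gg⁻¹ = gg ^ 6 := inv_eq_of_mul_eq_one_left (by rw [← pow_succ]; exact h7)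
          have h6 := hk 6
          rwa [← e, inv_inv] at h6
        set u' : ↥U := ⟨_, hinv⟩
        have e2 := congrFun (congrArg Subtype.val (hv u')) t
        have hconj : ∀ a b, Am ((u' : GL (Fin 7) F) : M7 F) a b * w ω (ka a * ka a) =
            Am ((u : GL (Fin 7) F) : M7 F) a b * w ω (ka b * ka b) := by
          intro a b
          have e : gg * (u' : GL (Fin 7) F) = (u : GL (Fin 7) F) * gg := by simp [u', mul_assoc]
          have e' := congrArg (fun M : GL (Fin 7) F => Am (M : M7 F) a b) e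
          simp only [Units.val_mul, hg] at e'
          rw [am_mul sym_gm (sym_of_mem (hU u'.2)), am_mul (sym_of_mem (hU u.2)) sym_gm, Gm, am_dm,
            Matrix.diagonal_mul, Matrix.mul_diagonal] at e'
          rw [mul_comm]; exact e'
        rw [hsmul] at e1 e2 ⊢
        simp only [act] at e1 e2 ⊢
        by_cases ht : t ∈ S
        · simp [ht, v', v.2 t ht]
        rw [if_neg ht] at e1 e2 ⊢
        calc ∑ b, Am ((u : GL (Fin 7) F) : M7 F) t b * v'.1 b
            = ∑ b, (Am ((u' : GL (Fin 7) F) : M7 F) t b * v.1 b * w ω (ka t * ka t) -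
                Am ((u : GL (Fin 7) F) : M7 F) t b * v.1 b * w ω (ka r * ka r)) :=
              Finset.sum_congr rfl fun b _ => by
                simp only [v']
                linear_combination -(v.1 b) * hconj t b
          _ = v'.1 t := by
              rw [Finset.sum_sub_distrib, ← Finset.sum_mul, ← Finset.sum_mul, e1, e2]
              simp only [v']
              ring
      have hv'0 : v'.1 ≠ 0 := fun e => by
        have := congrFun e s
        simp only [v', Pi.zero_apply, mul_eq_zero] at this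
        rcases this with h' | h'
        · exact hs (lam_inj s r (sub_eq_zero.1 h'))
        · exact hsne h'
      have hlt : (Finset.univ.filter fun t => v'.1 t ≠ 0).card < Nat.find hex := by
        rw [← hcard]
        refine Finset.card_lt_card ((Finset.ssubset_iff_of_subset fun t ht => ?_).2 ⟨r, ?_, ?_⟩)
        · simp only [Finset.mem_filter, Finset.mem_univ, true_and] at ht ⊢
          exact fun e => ht (by simp [v', e])
        · simpa using hr
        · simp [v']
      exact Nat.find_min hex hlt ⟨v', hv', hv'0, rfl⟩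
    refine ⟨insert r S, Function.update ρ r (k + 1), by rw [Finset.card_insert_of_notMem hrS, hS],
      fun t => ?_, fun t ht => ?_, fun t ht => ?_, fun u hu a s hs hlt => ?_⟩
    · rcases eq_or_ne t r with rfl | ht
      · simp
      · rw [Function.update_of_ne ht]; exact (hρ t).trans (Nat.le_succ k)
    · rw [Finset.mem_insert, not_or] at ht
      rw [Function.update_of_ne ht.1]; exact hρ0 t ht.2
    · rcases eq_or_ne t r with rfl | htr
      · simp
      · rw [Function.update_of_ne htr]
        exact hρ1 t ((Finset.mem_insert.1 ht).resolve_left htr)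
    · rcases eq_or_ne s r with hsr | hsr
      · -- the new column
        subst s
        by_cases ha : a ∈ S
        · exfalso
          refine hlt ⟨Finset.mem_insert_of_mem ha, ?_⟩
          rw [Function.update_of_ne (fun e : a = r => hrS (by rw [← e]; exact ha)),
            Function.update_self]
          exact Nat.lt_succ_of_le (hρ a)
        · have e := congrFun (congrArg Subtype.val (hv ⟨u, hu⟩)) a
          rw [hsmul] at e
          simp only [act, if_neg ha] at e
          rw [Finset.sum_eq_single r (fun b _ hb => by rw [honly b hb, mul_zero]) (by simp)] at e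
          by_cases har : a = r
          · subst har
            rw [if_pos rfl]
            exact mul_right_cancel₀ hr (by rw [one_mul]; exact e)
          · rw [honly a har, mul_eq_zero] at e
            rw [if_neg har]
            exact e.resolve_right hr
      · have hsS := (Finset.mem_insert.1 hs).resolve_left hsr
        refine h u hu a s hsS fun e => hlt ⟨Finset.mem_insert_of_mem e.1, ?_⟩
        rw [Function.update_of_ne (fun e' : a = r => hrS (by rw [← e']; exact e.1)),
          Function.update_of_ne hsr]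
        exact e.2

/-- A `p`-subgroup trivial on the odd vectors and normalised by the phase is trivial. -/
theorem pgroup_kerB_eq_bot (hG : Gen ω X) (hN : NoTv X) (U : Subgroup (GL (Fin 7) F))
    (hU : U ≤ Kz X) (hp : IsPGroup p U) (hB : ∀ u ∈ U, Bm (u : M7 F) = 1) {gg : GL (Fin 7) F}
    (hg : (gg : M7 F) = Gm ω) (hgn : ∀ u ∈ U, gg * u * gg⁻¹ ∈ U) : U = ⊥ := by
  classical
  obtain ⟨ρ, hρ, hord⟩ := exists_order p hG U hU hp hg hgn
  let T : M7 F → Prop := fun M => ∀ i j, ¬ ρ (cls i) < ρ (cls j) → M i j = (1 : M7 F) i j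
  have hTone : T 1 := fun _ _ _ => rfl
  have hTmul : ∀ M N, T M → T N → T (M * N) := by
    intro M N hM hN i j hij
    rw [Matrix.mul_apply, Finset.sum_eq_single i]
    · rw [hM i i (lt_irrefl _), hN i j hij, Matrix.one_apply_eq, one_mul]
    · intro k _ hk
      by_cases hik : ρ (cls i) < ρ (cls k)
      · have hkj : ¬ ρ (cls k) < ρ (cls j) := fun e => hij (hik.trans e)
        have hne : k ≠ j := fun e => hij (e ▸ hik)
        rw [hN k j hkj, Matrix.one_apply_ne hne, mul_zero]
      · rw [hM i k hik, Matrix.one_apply_ne (Ne.symm hk), zero_mul]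
    · simp
  have hnil : ∀ M, T M → (M - 1) ^ 5 = 0 := by
    intro M hM
    have : ∀ k i j, ρ (cls j) < ρ (cls i) + k → ((M - 1) ^ k : M7 F) i j = 0 := by
      intro k
      induction k with
      | zero =>
        intro i j hij
        rw [pow_zero, Matrix.one_apply_ne]
        rintro rfl
        simp at hij
      | succ k ih =>
        intro i j hij
        rw [pow_succ, Matrix.mul_apply]
        refine Finset.sum_eq_zero fun l _ => ?_
        by_cases hl : ρ (cls l) < ρ (cls i) + k
        · rw [ih i l hl, zero_mul]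
        · rw [Matrix.sub_apply, hM l j (by omega), sub_self, mul_zero]
    refine Matrix.ext fun i j => this 5 i j ?_
    have := hρ (cls j)
    omega
  obtain ⟨n, hn⟩ : ∃ n, 5 ≤ p ^ n :=
    ⟨5, (Nat.lt_pow_self (Fact.out : p.Prime).one_lt).le⟩
  have hpow : ∀ h : GL (Fin 7) F, T (h : M7 F) → h ^ p ^ n = 1 := by
    intro h hh
    refine Units.ext ?_
    rw [Units.val_pow_eq_pow_val, Units.val_one, ← sub_eq_zero]
    have e := pow_eq_zero_of_le hn (hnil _ hh)
    rwa [sub_pow_char_pow_of_commute _ _ (Commute.one_right (h : M7 F)), one_pow] at e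
  have hTpow : ∀ M, T M → ∀ k : ℕ, T (M ^ k) := fun M hM k => by
    induction k with
    | zero => rw [pow_zero]; exact hTone
    | succ k ih => rw [pow_succ]; exact hTmul _ _ ih hM
  let V : Subgroup (GL (Fin 7) F) :=
    { carrier := {h | h ∈ X ∧ T (h : M7 F)}
      one_mem' := ⟨one_mem X, hTone⟩
      mul_mem' := fun {a b} ha hb => ⟨mul_mem ha.1 hb.1, hTmul _ _ ha.2 hb.2⟩
      inv_mem' := fun {a} ha => ⟨inv_mem ha.1, by
        have h1 : a⁻¹ = a ^ (p ^ n - 1) := inv_eq_of_mul_eq_one_left (by
          rw [← pow_succ, Nat.sub_add_cancel (Nat.one_le_pow _ _ (Fact.out : p.Prime).pos),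
            hpow a ha.2])
        rw [h1, Units.val_pow_eq_pow_val]
        exact hTpow _ ha.2 _⟩ }
  have hdiag : ∀ a ∈ X, ∀ f, (a : M7 F) = Dm ω f → ∀ u ∈ V, a * u * a⁻¹ ∈ V := by
    intro a ha f hf u hu
    refine ⟨mul_mem (mul_mem ha hu.1) (inv_mem ha), fun i j hij => ?_⟩
    have e : ((a * u * a⁻¹ : GL (Fin 7) F) : M7 F) * Dm ω f = Dm ω f * (u : M7 F) := by
      rw [← hf, ← Units.val_mul, ← Units.val_mul, inv_mul_cancel_right]
    have e' := congrFun (congrFun e i) j
    simp only [Dm, Matrix.mul_diagonal, Matrix.diagonal_mul, hu.2 i j hij] at e'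
    rcases eq_or_ne i j with rfl | hne
    · rw [Matrix.one_apply_eq, mul_one] at e'
      rw [Matrix.one_apply_eq]
      exact (mul_eq_right₀ (w_ne_zero hG.omega _)).1 e'
    · rw [Matrix.one_apply_ne hne, mul_zero, mul_eq_zero] at e'
      rw [Matrix.one_apply_ne hne]
      exact e'.resolve_right (w_ne_zero hG.omega _)
  have hUV : U ≤ V := by
    intro u hu
    refine ⟨(hU hu).1, fun i j hij => ?_⟩
    have hsym := sym_of_mem (hU hu)
    set N : M7 F := (u : M7 F) - 1 with hN'
    suffices N i j = 0 from sub_eq_zero.1 this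
    have hNs : Sym N := fun a b => by simp [hN', hsym a b, Matrix.one_apply]
    have hNb : N * Ub F = 0 := by
      rw [hN', Matrix.sub_mul, Matrix.one_mul, hsym.mul_ub, hB u hu, Matrix.mul_one, sub_self]
    have hrow : ∀ a b, N a (-b) = N a b := by
      intro a b
      rcases (show ∀ b : Fin 7, b = 0 ∨ ∃ s, b = kb s ∨ b = -kb s by decide) b with
        rfl | ⟨s, rfl | rfl⟩
      · rw [neg_zero]
      all_goals
        have e := congrFun (congrFun hNb a) s
        rw [mul_ub_apply, Matrix.zero_apply, sub_eq_zero] at e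
      · exact e.symm
      · rw [neg_neg]; exact e
    have hrow' : ∀ a b, N (-a) b = N a b := fun a b => by
      rw [← hrow (-a) b, hNs a b]
    have key : N i j = N (ka (cls i)) (ka (cls j)) := by
      rcases ka_cls i with e1 | e1 <;> rcases ka_cls j with e2 | e2 <;>
        conv_lhs => rw [← e1, ← e2]
      all_goals simp only [hrow, hrow']
    rw [key]
    have ha := hord u hu (cls i) (cls j) hij
    have hsum : Am N (cls i) (cls j) = 0 := by
      rw [show Am N (cls i) (cls j) = Am (u : M7 F) (cls i) (cls j) -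
        Am (1 : M7 F) (cls i) (cls j) by simp [hN', Am]; split <;> ring, ha, am_one, Matrix.one_apply,
        sub_self]
    simp only [Am, Matrix.of_apply] at hsum
    split at hsum
    · simpa using hsum
    · rw [hrow] at hsum
      exact (mul_eq_zero.1 (show (2 : F) * N (ka (cls i)) (ka (cls j)) = 0 by
        linear_combination hsum)).resolve_left hG.two_ne_zero
  obtain ⟨gy, hy, hyv⟩ := hG.y
  obtain ⟨g', hg', hgv⟩ := hG.g
  have hVp : IsPGroup p V := fun v => ⟨n, Subtype.ext (by
    rw [Subgroup.coe_pow, OneMemClass.coe_one, hpow _ v.2.2])⟩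
  have hV := pgroup_eq_bot p hG hN V (fun v hv => hv.1) hVp hyv hgv (hdiag gy hy _ hyv)
    (hdiag g' hg' _ hgv)
  exact le_bot_iff.1 (hV ▸ hUV)

end Elements

end Cfsg.Agent.CSixSeven
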