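import Cfsg.Agent.CSixSeven.Blocks
import Cfsg.Agent.PSLTwoSub.DicksonGen

/-!
Two transvections with product of pairings generating the field: the whole root group of the first.
-/

set_option autoImplicit false
set_option linter.unusedSectionVars false
set_option linter.unusedSimpArgs false
set_option linter.style.haveILetI false

namespace Cfsg.Agent.CSixSeven

open Matrix
open scoped MatrixGroups

variable {F : Type*} [Field F]

/-- A two by two matrix read through four matrix units. -/
def pairLin (a b c d : M7 F) (A : Matrix (Fin 2) (Fin 2) F) : M7 F :=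
  A 0 0 • a + A 0 1 • b + A 1 0 • c + A 1 1 • d

theorem vecMulVec_mul (u φ v ψ : Fin 7 → F) :
    Matrix.vecMulVec u φ * Matrix.vecMulVec v ψ = dotProduct φ v • Matrix.vecMulVec u ψ := by
  rw [Matrix.vecMulVec_mul_vecMulVec, ← Matrix.smul_vecMulVec]
  ext i j
  simp [Matrix.vecMulVec, mul_comm, mul_left_comm]

/-- Two transvections of `X` whose pairing generates the field give the whole root group. -/
theorem full_of_pair [Finite F] (h2 : (2 : F) ≠ 0) (h9 : Nat.card F ≠ 9)
    {X : Subgroup (GL (Fin 7) F)} {u φ v ψ : Fin 7 → F} (hu : dotProduct φ u = 0)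
    (hv : dotProduct ψ v = 0) (hr : InX X (1 + Matrix.vecMulVec u φ))
    (hs : InX X (1 + Matrix.vecMulVec v ψ)) (hlam : dotProduct φ v * dotProduct ψ u ≠ 0)
    (hgen : Subfield.closure ({dotProduct φ v * dotProduct ψ u} : Set F) = ⊤) :
    ∀ a : F, InX X (1 + a • Matrix.vecMulVec u φ) := by
  classical
  haveI : Fintype F := Fintype.ofFinite F
  set lam := dotProduct φ v * dotProduct ψ u with hl
  set r := Matrix.vecMulVec u φ with hr'
  set s := Matrix.vecMulVec v ψ with hs'
  have rr : r * r = 0 := by rw [hr', vecMulVec_mul, hu, zero_smul]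
  have ss : s * s = 0 := by rw [hs', vecMulVec_mul, hv, zero_smul]
  have rsr : r * (s * r) = lam • r := by
    rw [hr', hs', vecMulVec_mul, Matrix.mul_smul, vecMulVec_mul, smul_smul, hl, mul_comm]
  have srs : s * (r * s) = lam • s := by
    rw [hr', hs', vecMulVec_mul, Matrix.mul_smul, vecMulVec_mul, smul_smul, hl]
  set a := lam⁻¹ • (r * s) with ha'
  set b := lam⁻¹ • r with hb'
  set d := lam⁻¹ • (s * r) with hd'
  have rrs : r * (r * s) = 0 := by rw [← mul_assoc, rr, zero_mul]
  have ssr : s * (s * r) = 0 := by rw [← mul_assoc, ss, zero_mul]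
  have e1 : ∀ M : M7 F, r * (r * M) = 0 := fun M => by rw [← mul_assoc, rr, zero_mul]
  have e2 : ∀ M : M7 F, s * (s * M) = 0 := fun M => by rw [← mul_assoc, ss, zero_mul]
  have e3 : ∀ M : M7 F, r * (s * (r * M)) = lam • (r * M) := fun M => by
    rw [← mul_assoc s, ← mul_assoc r, rsr, smul_mul_assoc]
  have e4 : ∀ M : M7 F, s * (r * (s * M)) = lam • (s * M) := fun M => by
    rw [← mul_assoc r, ← mul_assoc s, srs, smul_mul_assoc]
  have hmul : ∀ A B : Matrix (Fin 2) (Fin 2) F,
      pairLin a b s d (A * B) = pairLin a b s d A * pairLin a b s d B := by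
    intro A B
    simp only [pairLin, ha', hb', hd', Matrix.mul_apply, Fin.sum_univ_two, add_mul, mul_add,
      smul_mul_assoc, mul_smul_comm, smul_smul, mul_assoc, rr, ss, rsr, srs, rrs, ssr, e1, e2, e3, e4,
      mul_zero, smul_zero, add_zero, zero_add]
    match_scalars <;> field_simp
  have hsub : ∀ A B : Matrix (Fin 2) (Fin 2) F,
      pairLin a b s d (A + B) = pairLin a b s d A + pairLin a b s d B := by
    intro A B
    simp only [pairLin, Matrix.add_apply, add_smul]
    abel
  set Φ : Matrix (Fin 2) (Fin 2) F → M7 F := fun A => 1 + pairLin a b s d (A - 1) with hΦ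
  have hΦmul : ∀ A B, Φ (A * B) = Φ A * Φ B := by
    intro A B
    simp only [hΦ]
    rw [show A * B - 1 = (A - 1) * (B - 1) + (A - 1) + (B - 1) by noncomm_ring, hsub, hsub, hmul]
    noncomm_ring
  have hΦone : Φ 1 = 1 := by simp [hΦ, pairLin]
  let Msub : Submonoid SL(2, F) :=
    { carrier := {g | InX X (Φ g.1)}
      one_mem' := by
        show InX X (Φ (1 : SL(2, F)).1)
        rw [Matrix.SpecialLinearGroup.coe_one, hΦone]; exact InX.one
      mul_mem' := fun {x y} hx hy => by
        show InX X (Φ (x * y).1)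
        rw [Matrix.SpecialLinearGroup.coe_mul, hΦmul]; exact InX.mul hx hy }
  let H : Subgroup SL(2, F) :=
    { Msub with
      inv_mem' := fun {g : SL(2, F)} (hg : g ∈ Msub) => by
        show (g⁻¹ : SL(2, F)) ∈ Msub
        rw [inv_eq_of_mul_eq_one_right (show g * g ^ (orderOf g - 1) = 1 by
          rw [← pow_succ', Nat.sub_add_cancel (orderOf_pos g), pow_orderOf_eq_one])]
        exact pow_mem (S := Msub) hg _ }
  have hH : H = ⊤ := by
    rw [eq_top_iff, ← PSLTwoSub.closure_eq_top h2 hlam hgen
      (fun h => h9 (by rw [Nat.card_eq_fintype_card]; exact h.1)), Subgroup.closure_le]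
    rintro g (hg | hg)
    · show InX X (Φ g.1)
      rw [show Φ g.1 = 1 + s by simp [hΦ, hg, pairLin]]
      exact hs
    · show InX X (Φ g.1)
      rw [show Φ g.1 = 1 + r by simp [hΦ, hg, pairLin, hb', smul_smul, hlam]]
      exact hr
  intro t
  let g₁ : SL(2, F) := ⟨!![1, t * lam; 0, 1], by simp [Matrix.det_fin_two]⟩
  have hmem : g₁ ∈ H := hH ▸ Subgroup.mem_top _
  have hmem' : InX X (Φ !![1, t * lam; 0, 1]) := hmem
  have e : Φ !![1, t * lam; 0, 1] = 1 + t • r := by simp [hΦ, pairLin, hb', smul_smul, hlam]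
  rwa [e] at hmem'

end Cfsg.Agent.CSixSeven
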