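import Cfsg.Agent.MaxSub.CSixFive.CentT

/-!
Images in `GL(2, F)` containing a dihedral group of order fourteen: either monomial, or every normal
subgroup acting by more than scalars contains the negative identity and a unipotent element.
-/

set_option autoImplicit false
set_option linter.unusedSectionVars false
set_option linter.style.haveILetI false

namespace Cfsg.Agent.CSixSeven

open Matrix MulAction Cfsg.Agent.MaxSub
open Cfsg.Agent.MaxSub.CSixFive (exists_smul_of_mk_eq exists_smul_one_of_mk mk_eq_one_of_commute)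
open scoped MatrixGroups OnePoint Cfsg.Agent.MaxSub.Dickson commutatorElement

variable {F : Type*} [Field F]

/-- A scalar matrix of size two. -/
def IsSc (A : Matrix (Fin 2) (Fin 2) F) : Prop := A 0 1 = 0 ∧ A 1 0 = 0 ∧ A 0 0 = A 1 1

/-- A monomial matrix of size two. -/
def IsMono2 (A : Matrix (Fin 2) (Fin 2) F) : Prop :=
  (A 0 1 = 0 ∧ A 1 0 = 0) ∨ (A 0 0 = 0 ∧ A 1 1 = 0)

theorem IsSc.eq_smul {A : Matrix (Fin 2) (Fin 2) F} (h : IsSc A) : A = A 0 0 • 1 := by
  obtain ⟨h1, h2, h3⟩ := h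
  ext i j
  fin_cases i <;> fin_cases j <;> simp [h1, h2, h3]

theorem isSc_smul_one (c : F) : IsSc (c • (1 : Matrix (Fin 2) (Fin 2) F)) := by simp [IsSc]

theorem isSc_iff_mk {A : GL (Fin 2) F} [Fintype F] :
    IsSc (A : Matrix (Fin 2) (Fin 2) F) ↔ ProjGenLinGroup.mk A = 1 := by
  constructor
  · intro h
    refine ProjGenLinGroup.mk_eq_one.2 (GeneralLinearGroup.mem_center_iff_val_eq_scalar.2
      ⟨(A : Matrix (Fin 2) (Fin 2) F) 0 0, ?_⟩)
    conv_rhs => rw [h.eq_smul]
    ext i j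
    fin_cases i <;> fin_cases j <;> simp
  · intro h
    obtain ⟨c, -, e⟩ := exists_smul_one_of_mk h
    rw [e]
    exact isSc_smul_one c

variable {Γ : Type*} [Group Γ]

/-- Normal subgroups with non-scalar image have a large image. -/
structure BigPlane (r : Γ →* GL (Fin 2) F) : Prop where
  derived : ∀ n, ∃ k ∈ derivedSeries Γ n, ¬ IsSc (r k : Matrix (Fin 2) (Fin 2) F)
  comm : ∀ (n : ℕ) (g : Γ), ¬ IsSc (r g : Matrix (Fin 2) (Fin 2) F) →
    ∃ k ∈ derivedSeries Γ n, ¬ IsSc (r (g * k * g⁻¹ * k⁻¹) : Matrix (Fin 2) (Fin 2) F)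
  elems : ∀ N : Subgroup Γ, N.Normal → (∀ k ∈ N, (r k : Matrix (Fin 2) (Fin 2) F).det = 1) →
    (∃ k ∈ N, ¬ IsSc (r k : Matrix (Fin 2) (Fin 2) F)) →
    (∃ k ∈ N, (r k : Matrix (Fin 2) (Fin 2) F) = -1) ∧
      ∃ k ∈ N, (r k : Matrix (Fin 2) (Fin 2) F) ≠ 1 ∧
        ((r k : Matrix (Fin 2) (Fin 2) F) - 1) * ((r k : Matrix (Fin 2) (Fin 2) F) - 1) = 0

/-- In the monomial case the second derived group acts by scalars. -/
theorem isSc_derived_of_mono {r : Γ →* GL (Fin 2) F}
    (h : ∀ g, IsMono2 (r g : Matrix (Fin 2) (Fin 2) F)) :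
    ∀ k ∈ derivedSeries Γ 2, IsSc (r k : Matrix (Fin 2) (Fin 2) F) := by
  classical
  have hnz : ∀ g, ((r g : Matrix (Fin 2) (Fin 2) F) 1 0 = 0 →
      (r g : Matrix (Fin 2) (Fin 2) F) 0 0 ≠ 0 ∧ (r g : Matrix (Fin 2) (Fin 2) F) 1 1 ≠ 0) ∧
      ((r g : Matrix (Fin 2) (Fin 2) F) 1 0 ≠ 0 →
      (r g : Matrix (Fin 2) (Fin 2) F) 0 0 = 0 ∧ (r g : Matrix (Fin 2) (Fin 2) F) 1 1 = 0) := by
    intro g
    refine ⟨fun h0 => ?_, fun h0 => (h g).resolve_left fun e => h0 e.2⟩
    have hd := (r g).det_ne_zero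
    rw [Matrix.det_fin_two, h0, mul_zero, sub_zero] at hd
    exact ⟨left_ne_zero_of_mul hd, right_ne_zero_of_mul hd⟩
  let χ : Γ →* ℤˣ :=
    { toFun := fun g => if (r g : Matrix (Fin 2) (Fin 2) F) 1 0 = 0 then 1 else -1
      map_one' := by simp
      map_mul' := fun a b => by
        by_cases ha : (r a : Matrix (Fin 2) (Fin 2) F) 1 0 = 0 <;>
          by_cases hb : (r b : Matrix (Fin 2) (Fin 2) F) 1 0 = 0
        · simp [ha, hb, Matrix.mul_apply, Fin.sum_univ_two]
        · have := mul_ne_zero ((hnz a).1 ha).2 hb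
          simp [ha, hb, Matrix.mul_apply, Fin.sum_univ_two, this]
        · have := mul_ne_zero ha ((hnz b).1 hb).1
          simp [ha, hb, Matrix.mul_apply, Fin.sum_univ_two, this]
        · simp [ha, hb, Matrix.mul_apply, Fin.sum_univ_two, ((hnz a).2 ha).2, ((hnz b).2 hb).1] }
  have hdiag : ∀ g ∈ derivedSeries Γ 1,
      (r g : Matrix (Fin 2) (Fin 2) F) 0 1 = 0 ∧ (r g : Matrix (Fin 2) (Fin 2) F) 1 0 = 0 := by
    intro g hg
    rw [derivedSeries_one] at hg
    have h1 : χ g = 1 := Abelianization.commutator_subset_ker χ hg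
    have h0 : (r g : Matrix (Fin 2) (Fin 2) F) 1 0 = 0 := by
      by_contra h0
      simp [χ, h0] at h1
    exact ⟨((h g).resolve_right fun e => ((hnz g).1 h0).1 e.1).1, h0⟩
  intro k hk
  have hle : derivedSeries Γ 2 ≤ r.ker := by
    rw [derivedSeries_succ, Subgroup.commutator_le]
    intro a ha b hb
    rw [MonoidHom.mem_ker, map_commutatorElement, commutatorElement_eq_one_iff_commute]
    obtain ⟨a1, a2⟩ := hdiag a ha
    obtain ⟨b1, b2⟩ := hdiag b hb
    refine Units.ext (Matrix.ext fun i j => ?_)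
    fin_cases i <;> fin_cases j <;>
      simp [Matrix.mul_apply, Fin.sum_univ_two, a1, a2, b1, b2, mul_comm]
  rw [show r k = 1 from hle hk, Units.val_one]
  simpa using isSc_smul_one (F := F) 1

/-- An image containing a conjugate of `PSL(2, F₀)` and contained in that of `PGL(2, F₀)`. -/
theorem bigPlane_of_sub [Fintype F] [DecidableEq F] (h2 : (2 : F) ≠ 0) (r : Γ →* GL (Fin 2) F)
    {F₀ : Subfield F} (φ : PGL(2, F₀) →* PGL(2, F)) (hφ : Function.Injective φ)
    (h4 : 4 ≤ Nat.card F₀)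
    (hHφ : ∀ g ∈ (ProjGenLinGroup.mk.comp r).range, ∃ g₀, φ g₀ = g)
    (hφH : ∀ s ∈ Dickson.lsub F₀, φ s ∈ (ProjGenLinGroup.mk.comp r).range)
    (hy : ∃ y, ¬ IsSc (r y : Matrix (Fin 2) (Fin 2) F))
    (hconj : ∃ h : PGL(2, F), ∀ s, φ s = MulAut.conj h (Dickson.subPGL F₀ s)) : BigPlane r := by
  classical
  haveI : Fintype F₀ := Fintype.ofFinite _
  have h20 : (2 : F₀) ≠ 0 := fun e =>
    h2 ((map_ofNat F₀.subtype 2).symm.trans ((congrArg _ e).trans (map_zero _)))
  haveI hsimp : IsSimpleGroup (Dickson.lsub F₀) := by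
    haveI := Linear.isSimpleGroup_PSL_fin (F := F₀) 2 le_rfl fun _ => h4
    exact (Dickson.pslEquiv (F := F₀)).symm.isSimpleGroup
  set f : Γ →* PGL(2, F) := ProjGenLinGroup.mk.comp r with hf
  have hnsc : ∀ g, ¬ IsSc (r g : Matrix (Fin 2) (Fin 2) F) ↔ f g ≠ 1 := fun g => not_congr isSc_iff_mk
  have hcentral : ∀ x₀ : PGL(2, F₀), (∀ s ∈ Dickson.lsub F₀, x₀ * s = s * x₀) → x₀ = 1 := by
    intro x₀ hx
    induction x₀ using ProjGenLinGroup.induction_on with | mk A =>
    exact mk_eq_one_of_commute h20 (hx _ (CSixFive.mk_uGL_mem 1)) (hx _ CSixFive.mk_lGL_mem)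
  have hbig : ∀ N : Subgroup Γ, N.Normal → (∃ k ∈ N, f k ≠ 1) →
      ∀ s ∈ Dickson.lsub F₀, φ s ∈ N.map f := by
    intro N hN ⟨k, hk, hk1⟩
    set T : Subgroup (Dickson.lsub F₀) := ((N.map f).comap φ).subgroupOf (Dickson.lsub F₀) with hT
    have hTn : T.Normal := by
      refine ⟨fun t ht g => ?_⟩
      simp only [hT, Subgroup.mem_subgroupOf, Subgroup.mem_comap, Subgroup.coe_mul,
        Subgroup.coe_inv, map_mul, map_inv] at ht ⊢
      obtain ⟨c, hc⟩ := hφH _ g.2
      obtain ⟨n, hn, hne⟩ := ht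
      exact ⟨c * n * c⁻¹, hN.conj_mem n hn c, by rw [map_mul, map_mul, map_inv, hne, hc]⟩
    rcases hTn.eq_bot_or_eq_top with hb | ht
    · exfalso
      obtain ⟨x₀, hx₀⟩ := hHφ _ ⟨k, rfl⟩
      refine hk1 ?_
      rw [← hx₀, hcentral x₀ fun s hs => ?_, map_one]
      have hmem : x₀ * s * x₀⁻¹ * s⁻¹ ∈ Dickson.lsub F₀ :=
        mul_mem (Dickson.lsub_normal.conj_mem s hs x₀) (inv_mem hs)
      have hmem2 : φ (x₀ * s * x₀⁻¹ * s⁻¹) ∈ N.map f := by
        obtain ⟨c, hc⟩ := hφH s hs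
        refine ⟨k * (c * k⁻¹ * c⁻¹), mul_mem hk (hN.conj_mem _ (inv_mem hk) c), ?_⟩
        simp only [map_mul, map_inv]
        rw [← hx₀, hc]
        group
      have h1 : (⟨_, hmem⟩ : Dickson.lsub F₀) ∈ T := by
        rw [hT, Subgroup.mem_subgroupOf, Subgroup.mem_comap]
        exact hmem2
      rw [hb, Subgroup.mem_bot] at h1
      have h2' : x₀ * s * x₀⁻¹ * s⁻¹ = 1 := congrArg Subtype.val h1
      rwa [mul_inv_eq_one, mul_inv_eq_iff_eq_mul] at h2'
    · intro s hs
      have h1 : (⟨s, hs⟩ : Dickson.lsub F₀) ∈ T := ht ▸ Subgroup.mem_top _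
      rw [hT, Subgroup.mem_subgroupOf, Subgroup.mem_comap] at h1
      exact h1
  have hder : ∀ n, ∃ k ∈ derivedSeries Γ n, f k ≠ 1 := by
    intro n
    induction n with
    | zero =>
      obtain ⟨y, hy⟩ := hy
      exact ⟨y, by simp, (hnsc y).1 hy⟩
    | succ n ih =>
      obtain ⟨a, ha, hau⟩ := hbig _ (derivedSeries_normal Γ n) ih _ (CSixFive.mk_uGL_mem 1)
      obtain ⟨b, hb, hbl⟩ := hbig _ (derivedSeries_normal Γ n) ih _ CSixFive.mk_lGL_mem
      refine ⟨⁅a, b⁆, Subgroup.commutator_mem_commutator ha hb, fun e => ?_⟩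
      rw [map_commutatorElement, commutatorElement_eq_one_iff_commute, hau, hbl] at e
      have e' := hφ (by rw [map_mul, map_mul]; exact e.eq :
        φ (ProjGenLinGroup.mk (CSixFive.uGL (1 : F₀)) * ProjGenLinGroup.mk CSixFive.lGL) =
          φ (ProjGenLinGroup.mk CSixFive.lGL * ProjGenLinGroup.mk (CSixFive.uGL (1 : F₀))))
      have hc := CSixFive.commute_of_mk_commute h20 (A := CSixFive.uGL (1 : F₀)) (B := CSixFive.lGL)
        (by simp [CSixFive.val_lGL, trace_fin_two, one_add_one_eq_two]) e'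
      have hm := congrArg Units.val hc
      rw [Units.val_mul, Units.val_mul] at hm
      have h00 := congrFun (congrFun hm 0) 0
      simp [CSixFive.val_uGL, CSixFive.val_lGL, CSixFive.u2, Matrix.mul_apply] at h00
  refine ⟨fun n => (hder n).imp fun k hk => ⟨hk.1, (hnsc k).2 hk.2⟩, fun n g hg => ?_,
    fun N hN hdet hne => ?_⟩
  · by_contra hcon
    push Not at hcon
    obtain ⟨x₀, hx₀⟩ := hHφ _ ⟨g, rfl⟩
    refine (hnsc g).1 hg ?_
    rw [← hx₀, hcentral x₀ fun s hs => ?_, map_one]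
    obtain ⟨k, hk, hks⟩ := hbig _ (derivedSeries_normal Γ n) (hder n) s hs
    have h1 : f (g * k * g⁻¹ * k⁻¹) = 1 := isSc_iff_mk.1 (hcon k hk)
    simp only [map_mul, map_inv] at h1
    rw [← hx₀, hks, mul_inv_eq_one, mul_inv_eq_iff_eq_mul] at h1
    exact hφ (by rw [map_mul, map_mul]; exact h1)
  obtain ⟨h, hh⟩ := hconj
  obtain ⟨P, rfl⟩ := ProjGenLinGroup.mk_surjective h
  have hN1 : ∃ k ∈ N, f k ≠ 1 := hne.imp fun k hk => ⟨hk.1, (hnsc k).1 hk.2⟩
  -- an element of `N` whose square is the conjugate of the square of a given one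
  have key : ∀ S : SL(2, F₀), ∃ k ∈ N, (r (k * k) : Matrix (Fin 2) (Fin 2) F) =
      (P : Matrix (Fin 2) (Fin 2) F) * ((S : Matrix (Fin 2) (Fin 2) F₀).map F₀.subtype *
        (S : Matrix (Fin 2) (Fin 2) F₀).map F₀.subtype) * ((P⁻¹ : GL (Fin 2) F) : Matrix (Fin 2) (Fin 2) F) := by
    intro S
    obtain ⟨k, hk, hks⟩ := hbig N hN hN1 _ ⟨S, rfl⟩
    refine ⟨k, hk, ?_⟩
    set A : GL (Fin 2) F :=
      P * GeneralLinearGroup.map F₀.subtype (Matrix.SpecialLinearGroup.toGL S) * P⁻¹ with hA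
    have e : ProjGenLinGroup.mk (r k) = ProjGenLinGroup.mk A := by
      show f k = _
      rw [hks, hh, hA, map_mul, map_mul, map_inv, MulAut.conj_apply]
      rfl
    obtain ⟨t, -, ht⟩ := exists_smul_of_mk_eq e
    have hdA : (A : Matrix (Fin 2) (Fin 2) F).det = 1 := by
      rw [hA, Units.val_mul, Units.val_mul, Matrix.det_units_conj]
      show ((S : Matrix (Fin 2) (Fin 2) F₀).map F₀.subtype).det = 1
      rw [← RingHom.mapMatrix_apply, ← RingHom.map_det, S.2, map_one]
    have ht2 : t * t = 1 := by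
      have := hdet k hk
      rw [ht, Matrix.det_smul, hdA, Fintype.card_fin, mul_one, pow_two] at this
      exact this
    rw [map_mul, Units.val_mul, ht, smul_mul_smul_comm, ht2, one_smul, hA]
    simp only [Units.val_mul, mul_assoc, Units.inv_mul_cancel_left]
    rfl
  constructor
  · obtain ⟨k, hk, e⟩ := key ⟨!![0, 1; -1, 0], by simp [det_fin_two_of]⟩
    refine ⟨k * k, mul_mem hk hk, ?_⟩
    have e1 : ((!![0, 1; -1, 0] : Matrix (Fin 2) (Fin 2) F₀).map F₀.subtype) *
        ((!![0, 1; -1, 0] : Matrix (Fin 2) (Fin 2) F₀).map F₀.subtype) = -1 := by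
      ext i j; fin_cases i <;> fin_cases j <;> simp [Matrix.mul_apply]
    rw [e, e1, mul_neg_one, neg_mul, Units.mul_inv]
  · obtain ⟨k, hk, e⟩ := key ⟨!![1, 1; 0, 1], by simp [det_fin_two_of]⟩
    refine ⟨k * k, mul_mem hk hk, ?_, ?_⟩
    all_goals
      have e1 : ((!![1, 1; 0, 1] : Matrix (Fin 2) (Fin 2) F₀).map F₀.subtype) *
          ((!![1, 1; 0, 1] : Matrix (Fin 2) (Fin 2) F₀).map F₀.subtype) = !![1, 2; 0, 1] := by
        ext i j; fin_cases i <;> fin_cases j <;> simp [Matrix.mul_apply, one_add_one_eq_two]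
      rw [e, e1]
    · intro e2
      have e3 := congrArg (fun M => ((P⁻¹ : GL (Fin 2) F) : Matrix (Fin 2) (Fin 2) F) * M * P) e2
      simp only [mul_assoc, Units.inv_mul_cancel_left, Units.inv_mul, mul_one, one_mul] at e3
      have := congrFun (congrFun e3 0) 1
      simp at this
      exact h2 this
    · have hU : ((!![1, 2; 0, 1] : Matrix (Fin 2) (Fin 2) F) - 1) * (!![1, 2; 0, 1] - 1) = 0 := by
        ext i j; fin_cases i <;> fin_cases j <;> simp [Matrix.mul_apply]
      have e3 : (P : Matrix (Fin 2) (Fin 2) F) * !![1, 2; 0, 1] *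
          ((P⁻¹ : GL (Fin 2) F) : Matrix (Fin 2) (Fin 2) F) - 1 =
          (P : Matrix (Fin 2) (Fin 2) F) * (!![1, 2; 0, 1] - 1) *
            ((P⁻¹ : GL (Fin 2) F) : Matrix (Fin 2) (Fin 2) F) := by
        rw [mul_sub, mul_one, sub_mul, Units.mul_inv]
      rw [e3]
      simp only [mul_assoc, Units.inv_mul_cancel_left]
      rw [← mul_assoc (!![1, 2; 0, 1] - 1 : Matrix (Fin 2) (Fin 2) F), hU, zero_mul, mul_zero]

/-- The dichotomy. -/
theorem plane_dichotomy [Finite F] (h2 : (2 : F) ≠ 0) (r : Γ →* GL (Fin 2) F) {y z : Γ}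
    {α β c d : F} (hy : (r y : Matrix (Fin 2) (Fin 2) F) = !![α, 0; 0, β]) (hα : α ^ 7 = 1)
    (hβ : β ^ 7 = 1) (hαβ : α ≠ β) (hz : (r z : Matrix (Fin 2) (Fin 2) F) = !![0, c; d, 0]) :
    (∀ g, IsMono2 (r g : Matrix (Fin 2) (Fin 2) F)) ∨ BigPlane r := by
  classical
  haveI : Fintype F := Fintype.ofFinite F
  obtain ⟨p, hchar⟩ := CharP.exists F
  haveI : Fact p.Prime := ⟨CharP.char_is_prime F p⟩
  have hp2 : p ≠ 2 := by
    rintro rfl
    exact h2 (CharP.cast_eq_zero F 2)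
  haveI : Fact (Nat.Prime 7) := ⟨by norm_num⟩
  let f : Γ →* PGL(2, F) := ProjGenLinGroup.mk.comp r
  have hfy : orderOf (f y) = 7 := by
    refine orderOf_eq_prime ?_ fun h => ?_
    · rw [← map_pow]
      show ProjGenLinGroup.mk (r (y ^ 7)) = 1
      refine isSc_iff_mk.1 ?_
      rw [map_pow, Units.val_pow_eq_pow_val, hy, show (!![α, 0; 0, β] : Matrix (Fin 2) (Fin 2) F) =
        diagonal ![α, β] by ext i j; fin_cases i <;> fin_cases j <;> simp, diagonal_pow]
      simp [IsSc, hα, hβ]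
    · have := (isSc_iff_mk (A := r y)).2 h
      rw [hy] at this
      exact hαβ (by simpa [IsSc] using this)
  set H : Subgroup PGL(2, F) := f.range with hH
  have hyH : f y ∈ H := ⟨y, rfl⟩
  have hzH : f z ∈ H := ⟨z, rfl⟩
  have h7 : 7 ∣ Nat.card H := by
    have := _root_.orderOf_dvd_natCard (⟨f y, hyH⟩ : H)
    rwa [Subgroup.orderOf_mk, hfy] at this
  have hα0 : α ≠ 0 := fun e => by simp [e] at hα
  have hβ0 : β ≠ 0 := fun e => by simp [e] at hβ
  have hnc : f z * f y ≠ f y * f z := by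
    intro e
    have e' : ProjGenLinGroup.mk (r z * r y) = ProjGenLinGroup.mk (r y * r z) := by
      rw [map_mul, map_mul]; exact e
    obtain ⟨t, -, et⟩ := exists_smul_of_mk_eq e'
    rw [Units.val_mul, Units.val_mul, hy, hz] at et
    have e1 := congrFun (congrFun et 0) 1
    have e2 := congrFun (congrFun et 1) 0
    simp [Matrix.mul_apply] at e1 e2
    have hdet := (r z).det_ne_zero
    rw [hz] at hdet
    simp [Matrix.det_fin_two_of] at hdet
    have t1 : β = t * α := mul_right_cancel₀ hdet.1 (by linear_combination e1)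
    have t2 : α = t * β := mul_right_cancel₀ hdet.2 (by linear_combination e2)
    have t3 : α * α = β * β := by linear_combination α * t2 - β * t1
    have e8 : ∀ x : F, x ^ 7 = 1 → x = (x * x) ^ 4 := fun x hx => by
      rw [← pow_two, ← pow_mul, pow_succ, hx, one_mul]
    exact hαβ (by rw [e8 α hα, e8 β hβ, t3])
  let K := AlgebraicClosure F
  haveI : CharP K p := charP_of_injective_algebraMap (algebraMap F K).injective p
  rcases Dickson.classifyF (K := K) (p := p) H with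
    ⟨a, b, m, -, hc, -⟩ | ⟨a, b, m, n, hab, hle, -⟩ | ⟨x, hfix, -⟩ | ⟨-, h, -⟩ | ⟨-, h, -⟩ |
    ⟨-, h, -⟩ | ⟨F₀, h, h4, he⟩ | ⟨F₀, h, h4, hodd, he⟩
  · haveI := hc
    obtain ⟨g, hg⟩ := hc.exists_generator
    obtain ⟨i, hi⟩ := hg ⟨f z, hzH⟩
    obtain ⟨j, hj⟩ := hg ⟨f y, hyH⟩
    refine absurd ?_ hnc
    have := ((Commute.refl g).zpow_zpow i j).eq
    rw [show g ^ i = ⟨f z, hzH⟩ from hi, show g ^ j = ⟨f y, hyH⟩ from hj] at this
    exact congrArg Subtype.val this
  · -- dihedral: both coordinate points are stabilised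
    left
    have hsq : ∀ g ∈ H, Dickson.emb K (g * g) • a = a ∧ Dickson.emb K (g * g) • b = b := by
      intro g hg
      rw [map_mul, mul_smul, mul_smul]
      rcases hle hg with ⟨e1, e2⟩ | ⟨e1, e2⟩
      · exact ⟨by rw [e1, e1], by rw [e2, e2]⟩
      · exact ⟨by rw [e1, e2], by rw [e2, e1]⟩
    have hyab : Dickson.emb K (f y) • a = a ∧ Dickson.emb K (f y) • b = b := by
      have e : f y = f y ^ 4 * f y ^ 4 := by
        rw [← pow_add, show 4 + 4 = orderOf (f y) + 1 by omega, pow_succ, pow_orderOf_eq_one, one_mul]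
      rw [e]
      exact hsq _ (pow_mem hyH 4)
    have hpts : ∀ x : OnePoint K, Dickson.emb K (f y) • x = x →
        x = Dickson.pt₀ K (∞ : OnePoint F) ∨ x = Dickson.pt₀ K ((0 : F) : OnePoint F) := by
      intro x hx
      induction x using OnePoint.rec with
      | infty => exact Or.inl rfl
      | coe k =>
        right
        rw [Dickson.pt₀_coe, map_zero]
        change Dickson.emb K (ProjGenLinGroup.mk (r y)) • (k : OnePoint K) = _ at hx
        rw [Dickson.emb, ProjGenLinGroup.map_mk, ProjGenLinGroup.mk_smul,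
          OnePoint.smul_some_eq_ite] at hx
        have hβ' : (algebraMap F K) β ≠ 0 := fun e => hβ0 ((map_eq_zero _).1 e)
        simp [GeneralLinearGroup.map, hy, hβ'] at hx
        have hne : (algebraMap F K) α - (algebraMap F K) β ≠ 0 :=
          sub_ne_zero.2 fun e => hαβ ((algebraMap F K).injective e)
        have : ((algebraMap F K) α - (algebraMap F K) β) * k = 0 := by
          rw [div_eq_iff hβ'] at hx
          linear_combination hx
        rw [(mul_eq_zero.1 this).resolve_left hne]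
    have hab' : a ≠ b := hab.1
    have hpair : ∀ g ∈ H, (g • (∞ : OnePoint F) = ∞ ∧ g • ((0 : F) : OnePoint F) = ((0 : F) : OnePoint F))
        ∨ (g • (∞ : OnePoint F) = ((0 : F) : OnePoint F) ∧ g • ((0 : F) : OnePoint F) = ∞) := by
      intro g hg
      have key : ∀ x y : OnePoint F, Dickson.emb K g • Dickson.pt₀ K x = Dickson.pt₀ K y → g • x = y := by
        intro x y e
        rw [Dickson.emb_pt] at e
        exact Dickson.pt₀_injective e
      rcases hpts a hyab.1 with rfl | rfl <;> rcases hpts b hyab.2 with rfl | rfl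
      · exact absurd rfl hab'
      · rcases hle hg with ⟨e1, e2⟩ | ⟨e1, e2⟩
        · exact Or.inl ⟨key _ _ e1, key _ _ e2⟩
        · exact Or.inr ⟨key _ _ e1, key _ _ e2⟩
      · rcases hle hg with ⟨e1, e2⟩ | ⟨e1, e2⟩
        · exact Or.inl ⟨key _ _ e2, key _ _ e1⟩
        · exact Or.inr ⟨key _ _ e2, key _ _ e1⟩
      · exact absurd rfl hab'
    intro g
    rcases hpair (f g) ⟨g, rfl⟩ with ⟨e1, e2⟩ | ⟨e1, e2⟩
    · change ProjGenLinGroup.mk (r g) • (∞ : OnePoint F) = ∞ at e1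
      change ProjGenLinGroup.mk (r g) • ((0 : F) : OnePoint F) = ((0 : F) : OnePoint F) at e2
      rw [ProjGenLinGroup.mk_smul, OnePoint.smul_infty_eq_self_iff] at e1
      rw [ProjGenLinGroup.mk_smul, OnePoint.smul_some_eq_ite] at e2
      refine Or.inl ⟨?_, e1⟩
      have hd := (r g).det_ne_zero
      rw [Matrix.det_fin_two, e1, mul_zero, sub_zero] at hd
      simp [e1, right_ne_zero_of_mul hd] at e2
      exact e2
    · change ProjGenLinGroup.mk (r g) • (∞ : OnePoint F) = ((0 : F) : OnePoint F) at e1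
      change ProjGenLinGroup.mk (r g) • ((0 : F) : OnePoint F) = ∞ at e2
      rw [ProjGenLinGroup.mk_smul, OnePoint.smul_infty_eq_ite] at e1
      rw [ProjGenLinGroup.mk_smul, OnePoint.smul_some_eq_ite] at e2
      refine Or.inr ⟨?_, ?_⟩
      · split_ifs at e1 with h10
        · exact absurd e1 (OnePoint.infty_ne_coe _)
        · exact (div_eq_zero_iff.1 (OnePoint.coe_eq_coe.1 e1)).resolve_right h10
      · simpa using e2
  · exact (CSixFive.Plane.no_fixed_point hy hαβ hz x (hfix _ hyH) (hfix _ hzH)).elim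
  · rw [h] at h7; norm_num at h7
  · rw [h] at h7; norm_num at h7
  · rw [h] at h7; norm_num at h7
  all_goals right
  all_goals
    let φ : PGL(2, F₀) →* PGL(2, F) := (MulAut.conj h).toMonoidHom.comp (Dickson.subPGL F₀)
    have hφ : Function.Injective φ := (MulAut.conj h).injective.comp (Dickson.subPGL_injective F₀)
    have hHφ : ∀ g ∈ H, ∃ g₀, φ g₀ = g := by
      intro g hg
      have hmem : MulAut.conj h⁻¹ g ∈ H.map (MulAut.conj h⁻¹).toMonoidHom :=
        Subgroup.mem_map_of_mem _ hg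
      rw [he] at hmem
      have hmem' : MulAut.conj h⁻¹ g ∈ (Dickson.subPGL F₀).range := by
        first
        | exact hmem
        | (rw [Dickson.range_subPSL] at hmem
           obtain ⟨g₀, -, hg₀⟩ := hmem
           exact ⟨g₀, hg₀⟩)
      obtain ⟨g₀, hg₀⟩ := hmem'
      refine ⟨g₀, ?_⟩
      show MulAut.conj h (Dickson.subPGL F₀ g₀) = g
      rw [hg₀]
      simp [mul_assoc]
    have hφH : ∀ s ∈ Dickson.lsub F₀, φ s ∈ H := by
      intro s hs
      have hmem : Dickson.subPGL F₀ s ∈ H.map (MulAut.conj h⁻¹).toMonoidHom := by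
        rw [he]
        first
        | exact ⟨s, rfl⟩
        | (rw [Dickson.range_subPSL]; exact Subgroup.mem_map_of_mem _ hs)
      obtain ⟨g, hg, hgs⟩ := hmem
      show MulAut.conj h (Dickson.subPGL F₀ s) ∈ H
      rw [← hgs]
      simpa [mul_assoc] using hg
    exact bigPlane_of_sub h2 r φ hφ h4 hHφ hφH ⟨y, fun e => by
      have := isSc_iff_mk.1 e
      rw [show f y = ProjGenLinGroup.mk (r y) from rfl, this, orderOf_one] at hfy
      norm_num at hfy⟩ ⟨h, fun s => rfl⟩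

end Cfsg.Agent.CSixSeven
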