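import Cfsg.Agent.CSixSeven.Blocks
import Cfsg.Agent.CSixSeven.PlaneDickson

/-!
Elements commuting with the quadratic phase are monomial unless there is a transvection.
-/

set_option autoImplicit false
set_option linter.unusedSectionVars false

namespace Cfsg.Agent.CSixSeven

open Cfsg Cfsg.Geo Matrix
open scoped MatrixGroups commutatorElement

variable {F : Type*} [Field F] {ω : F} {X : Subgroup (GL (Fin 7) F)}

/-- The two indices of a plane. -/
def ix (a : Fin 3) : Fin 2 → Fin 7 := ![kb a, -kb a]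

/-- The block on a plane. -/
def pl (a : Fin 3) (M : M7 F) : Matrix (Fin 2) (Fin 2) F := Matrix.of fun r s => M (ix a r) (ix a s)

theorem ix_cases (i : Fin 7) : i = 0 ∨ ∃ a r, i = ix a r := by
  revert i; decide

theorem ix_sq (a : Fin 3) (r : Fin 2) (k : Fin 7) :
    ix a r * ix a r = k * k ↔ ∃ t, k = ix a t := by
  revert a r k; decide

theorem ix_inj (a : Fin 3) : Function.Injective (ix a) := by revert a; decide

theorem apply_eq_zero (hω : Omega ω) {M : M7 F} (hM : Commute M (Gm ω)) {i j : Fin 7}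
    (hij : i * i ≠ j * j) : M i j = 0 := by
  have e := congrFun (congrFun hM.eq i) j
  simp only [Gm, Dm, Matrix.mul_diagonal, Matrix.diagonal_mul] at e
  have hne : w ω (j * j) - w ω (i * i) ≠ 0 := sub_ne_zero.2 fun e' => hij (w_inj hω e').symm
  exact (mul_eq_zero.1 (show M i j * (w ω (j * j) - w ω (i * i)) = 0 by
    linear_combination e)).resolve_right hne

theorem pl_mul (hω : Omega ω) (a : Fin 3) {M : M7 F} (N : M7 F) (hM : Commute M (Gm ω)) :
    pl a (M * N) = pl a M * pl a N := by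
  refine Matrix.ext fun r s => ?_
  simp only [pl, Matrix.of_apply, Matrix.mul_apply]
  rw [← Finset.sum_image (f := fun k => M (ix a r) k * N k (ix a s)) (g := ix a)
    (fun x _ y _ h => ix_inj a h)]
  refine (Finset.sum_subset (Finset.subset_univ _) fun k _ hk => ?_).symm
  rw [apply_eq_zero hω hM fun e => hk ?_, zero_mul]
  obtain ⟨t, rfl⟩ := (ix_sq a r k).1 e
  exact Finset.mem_image_of_mem _ (Finset.mem_univ t)

theorem zero_mul_apply' (hω : Omega ω) {M : M7 F} (N : M7 F) (hM : Commute M (Gm ω)) :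
    (M * N : M7 F) 0 0 = M 0 0 * N 0 0 := by
  rw [Matrix.mul_apply, Finset.sum_eq_single 0]
  · intro k _ hk
    rw [apply_eq_zero hω hM (i := 0) (j := k) fun e => hk ?_, zero_mul]
    exact (show ∀ k : Fin 7, (0 : Fin 7) * 0 = k * k → k = 0 by decide) k e
  · simp

/-- The plane and point coordinates determine a matrix commuting with the phase. -/
theorem ext_planes (hω : Omega ω) {M N : M7 F} (hM : Commute M (Gm ω)) (hN : Commute N (Gm ω))
    (h0 : M 0 0 = N 0 0) (h : ∀ a r s, M (ix a r) (ix a s) = N (ix a r) (ix a s)) : M = N := by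
  refine Matrix.ext fun i j => ?_
  by_cases hij : i * i = j * j
  · rcases ix_cases i with rfl | ⟨a, r, rfl⟩
    · obtain rfl : j = 0 :=
        (show ∀ k : Fin 7, (0 : Fin 7) * 0 = k * k → k = 0 by decide) j hij
      exact h0
    · obtain ⟨s, rfl⟩ := (ix_sq a r j).1 hij
      exact h a r s
  · rw [apply_eq_zero hω hM hij, apply_eq_zero hω hN hij]

theorem commute_diagonal_gm (f : Fin 7 → F) : Commute (Matrix.diagonal f) (Gm ω) := by
  refine Matrix.ext fun i j => ?_
  rcases eq_or_ne i j with rfl | h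
  · simp [Gm, Dm, mul_comm]
  · simp [Gm, Dm, h]

theorem pl_diagonal (a : Fin 3) (f : Fin 7 → F) :
    pl a (Matrix.diagonal f) = !![f (kb a), 0; 0, f (-kb a)] := by
  have h : kb a ≠ -kb a ∧ -kb a ≠ kb a := by revert a; decide
  refine Matrix.ext fun r s => ?_
  fin_cases r <;> fin_cases s <;> simp [pl, ix, h.1, h.2]

/-- The homomorphism to a plane. -/
def rp (hω : Omega ω) (X : Subgroup (GL (Fin 7) F)) (a : Fin 3) :
    cent X (Gm ω) →* GL (Fin 2) F :=
  MonoidHom.toHomUnits
    { toFun := fun g => pl a ((g : GL (Fin 7) F) : M7 F)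
      map_one' := by
        rw [OneMemClass.coe_one, Units.val_one, ← Matrix.diagonal_one, pl_diagonal]
        exact Matrix.one_fin_two.symm
      map_mul' := fun g h => by
        rw [Subgroup.coe_mul, Units.val_mul, pl_mul hω a _ g.2.2] }

theorem rp_val (hω : Omega ω) (a : Fin 3) (g : cent X (Gm ω)) :
    (rp hω X a g : Matrix (Fin 2) (Fin 2) F) = pl a ((g : GL (Fin 7) F) : M7 F) := rfl

/-- The homomorphism to the fixed point. -/
def r00 (hω : Omega ω) (X : Subgroup (GL (Fin 7) F)) : cent X (Gm ω) →* Fˣ :=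
  MonoidHom.toHomUnits
    { toFun := fun g => ((g : GL (Fin 7) F) : M7 F) 0 0
      map_one' := by simp
      map_mul' := fun g h => by
        rw [Subgroup.coe_mul, Units.val_mul, zero_mul_apply' hω _ g.2.2] }

theorem derived_facts (hω : Omega ω) {k : cent X (Gm ω)}
    (hk : k ∈ derivedSeries (cent X (Gm ω)) 2) :
    ((k : GL (Fin 7) F) : M7 F) 0 0 = 1 ∧
      ∀ a, (rp hω X a k : Matrix (Fin 2) (Fin 2) F).det = 1 := by
  have h1 : k ∈ commutator (cent X (Gm ω)) := by
    rw [← derivedSeries_one]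
    exact derivedSeries_antitone _ one_le_two hk
  refine ⟨congrArg Units.val
    (show r00 hω X k = 1 from Abelianization.commutator_subset_ker (r00 hω X) h1), fun a => ?_⟩
  exact congrArg Units.val (show (Matrix.GeneralLinearGroup.det.comp (rp hω X a)) k = 1 from
    Abelianization.commutator_subset_ker _ h1)

/-- A rank-one element on one plane. -/
theorem isTv_of_plane (hω : Omega ω) (a : Fin 3) {M : M7 F} (hM : Commute M (Gm ω))
    (h0 : M 0 0 = 1) (hoff : ∀ c, c ≠ a → pl c M = 1) (hne : pl a M ≠ 1)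
    (hsq : (pl a M - 1) * (pl a M - 1) = 0) : IsTv M := by
  obtain ⟨N, hN, hNdef⟩ : ∃ N, pl a M = 1 + N ∧ N = pl a M - 1 := ⟨_, by abel, rfl⟩
  rw [← hNdef] at hsq
  have hN0 : N ≠ 0 := fun e => hne (by rw [hN, e, add_zero])
  have tr : N 1 1 = -N 0 0 ∧ N 0 0 * N 0 0 + N 0 1 * N 1 0 = 0 := by
    have e00 := congrFun (congrFun hsq 0) 0
    have e01 := congrFun (congrFun hsq 0) 1
    have e10 := congrFun (congrFun hsq 1) 0
    have e11 := congrFun (congrFun hsq 1) 1
    simp [Matrix.mul_apply] at e00 e01 e10 e11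
    refine ⟨?_, e00⟩
    by_contra hs
    have hs' : N 0 0 + N 1 1 ≠ 0 := fun e => hs (by linear_combination e)
    have z1 : N 0 1 = 0 :=
      (mul_eq_zero.1 (show N 0 1 * (N 0 0 + N 1 1) = 0 by linear_combination e01)).resolve_right hs'
    rw [z1, zero_mul, add_zero] at e00
    rw [z1, mul_zero, zero_add] at e11
    exact hs' (by rw [mul_self_eq_zero.1 e00, mul_self_eq_zero.1 e11, add_zero])
  obtain ⟨v, ψ, hv, hψ, hvψ, hd⟩ : ∃ v ψ : Fin 2 → F, v ≠ 0 ∧ ψ ≠ 0 ∧
      N = Matrix.vecMulVec v ψ ∧ ψ ⬝ᵥ v = 0 := by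
    by_cases hy : N 0 1 = 0
    · have hx : N 0 0 = 0 := mul_self_eq_zero.1 (by simpa [hy] using tr.2)
      have hNe : N = Matrix.vecMulVec ![0, 1] ![N 1 0, 0] := by
        ext r s; fin_cases r <;> fin_cases s <;> simp [vecMulVec, hx, hy, tr.1]
      refine ⟨![0, 1], ![N 1 0, 0], fun e => by simpa using congrFun e 1, fun e => hN0 ?_, hNe,
        by simp [dotProduct]⟩
      rw [hNe, e, Matrix.vecMulVec_zero]
    · refine ⟨![N 0 1, -N 0 0], ![N 0 0 / N 0 1, 1], fun e => hy (by simpa using congrFun e 0),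
        fun e => by simpa using congrFun e 1, ?_, ?_⟩
      · ext r s
        fin_cases r <;> fin_cases s <;> simp [vecMulVec, tr.1, mul_div_cancel₀ _ hy]
        field_simp
        linear_combination tr.2
      · simp [dotProduct, Fin.sum_univ_two, div_mul_cancel₀ _ hy]
  set u : Fin 7 → F := fun i => if i = ix a 0 then v 0 else if i = ix a 1 then v 1 else 0 with hu
  set φ : Fin 7 → F := fun i => if i = ix a 0 then ψ 0 else if i = ix a 1 then ψ 1 else 0 with hφ
  have hne' : ix a 1 ≠ ix a 0 := fun e => absurd (ix_inj a e) (by decide)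
  have hu' : ∀ t, u (ix a t) = v t := fun t => by fin_cases t <;> simp [hu, hne']
  have hφ' : ∀ t, φ (ix a t) = ψ t := fun t => by fin_cases t <;> simp [hφ, hne']
  have hz : ∀ i, (∀ t, i ≠ ix a t) → u i = 0 ∧ φ i = 0 := fun i hi => by simp [hu, hφ, hi 0, hi 1]
  refine ⟨u, φ, fun e => hv (funext fun t => by rw [← hu', e]; rfl),
    fun e => hψ (funext fun t => by rw [← hφ', e]; rfl), ?_, ?_⟩
  · rw [dotProduct, ← Finset.sum_subset (Finset.subset_univ (Finset.univ.image (ix a)))
      (fun k _ hk => by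
        rw [(hz k fun t e => hk (e ▸ Finset.mem_image_of_mem _ (Finset.mem_univ t))).1, mul_zero]),
      Finset.sum_image (fun x _ y _ h => ix_inj a h)]
    simp only [hu', hφ']
    exact hd
  · refine Matrix.ext fun i j => ?_
    rw [Matrix.add_apply, Matrix.vecMulVec_apply]
    by_cases hij : i * i = j * j
    · rcases ix_cases i with rfl | ⟨c, r, rfl⟩
      · obtain rfl : j = 0 :=
          (show ∀ k : Fin 7, (0 : Fin 7) * 0 = k * k → k = 0 by decide) j hij
        rw [h0, (hz 0 fun t => (show ∀ a t, (0 : Fin 7) ≠ ix a t by decide) a t).1]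
        simp
      · obtain ⟨s, rfl⟩ := (ix_sq c r j).1 hij
        by_cases hc : c = a
        · subst hc
          rw [hu', hφ', show M (ix c r) (ix c s) = pl c M r s from rfl, hN, hvψ]
          simp [Matrix.one_apply, (ix_inj c).eq_iff, vecMulVec]
        · rw [show M (ix c r) (ix c s) = pl c M r s from rfl, hoff c hc,
            (hz _ fun t e => hc ((show ∀ c a r t, ix c r = ix a t → c = a by decide) c a r t e)).1]
          simp [Matrix.one_apply, (ix_inj c).eq_iff]
    · have hne2 : i ≠ j := fun e => hij (by rw [e])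
      rw [apply_eq_zero hω hM hij, Matrix.one_apply_ne hne2, zero_add]
      by_cases hi : ∀ t, i ≠ ix a t
      · rw [(hz i hi).1, zero_mul]
      · push Not at hi
        obtain ⟨r, rfl⟩ := hi
        rw [(hz j fun t e => hij ((ix_sq a r j).2 ⟨t, e⟩)).2, mul_zero]

/-- Diagonal elements move along monomial elements. -/
theorem diag_conj {P : M7 F} {σ : Fin 7 → Fin 7} (hP : InX X P)
    (hσ : ∀ i j, i ≠ σ j → P i j = 0) {f f' : Fin 7 → F} (hf : InX X (Matrix.diagonal f))
    (he : ∀ j, f' (σ j) = f j) : InX X (Matrix.diagonal f') := by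
  obtain ⟨p, hp, rfl⟩ := hP
  obtain ⟨d, hd, hdv⟩ := hf
  refine ⟨p * d * p⁻¹, mul_mem (mul_mem hp hd) (inv_mem hp), ?_⟩
  have e : (p : M7 F) * Matrix.diagonal f = Matrix.diagonal f' * (p : M7 F) := by
    refine Matrix.ext fun i j => ?_
    rw [Matrix.mul_diagonal, Matrix.diagonal_mul]
    by_cases h : i = σ j
    · rw [h, he, mul_comm]
    · rw [hσ i j h, zero_mul, mul_zero]
  rw [Units.val_mul, Units.val_mul, hdv, e, mul_assoc, p.mul_inv, mul_one]

theorem diag_shift (hG : Gen ω X) {f : Fin 7 → F} (hf : InX X (Matrix.diagonal f)) :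
    ∀ t : Fin 7, InX X (Matrix.diagonal fun i => f (i + t)) := by
  have step : ∀ f, InX X (Matrix.diagonal f) → InX X (Matrix.diagonal fun i => f (i + 6)) :=
    fun f hf => diag_conj hG.x (σ := fun j => j + 1) (fun i j h => by simp [Xm, h]) hf
      fun j => congrArg f ((show ∀ j : Fin 7, j + 1 + 6 = j by decide) j)
  have hn : ∀ n : ℕ, InX X (Matrix.diagonal fun i => f (i + (n • (6 : Fin 7)))) := by
    intro n
    induction n with
    | zero => simpa using hf
    | succ n ih =>
      have := step _ ih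
      convert this using 3 with i
      rw [succ_nsmul', add_assoc]
  intro t
  obtain ⟨n, -, rfl⟩ := (show ∀ t : Fin 7, ∃ n < 7, t = n • (6 : Fin 7) by decide) t
  exact hn n

theorem diag_dilate (hG : Gen ω X) {f : Fin 7 → F} (hf : InX X (Matrix.diagonal f)) :
    ∀ a : Fin 7, a ≠ 0 → InX X (Matrix.diagonal fun i => f (a * i)) := by
  have four : ∀ f, InX X (Matrix.diagonal f) → InX X (Matrix.diagonal fun i => f (4 * i)) :=
    fun f hf => diag_conj hG.s (σ := fun j => 2 * j) (fun i j h => by simp [Sm, h]) hf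
      fun j => congrArg f ((show ∀ j : Fin 7, 4 * (2 * j) = j by decide) j)
  have neg : ∀ f, InX X (Matrix.diagonal f) → InX X (Matrix.diagonal fun i => f (-i)) :=
    fun f hf => diag_conj hG.z (σ := fun j => -j) (fun i j h => by simp [Zm, h]) hf
      fun j => congrArg f (neg_neg j)
  intro a ha
  have hcases : a = 1 ∨ a = 4 ∨ a = 2 ∨ a = 6 ∨ a = 3 ∨ a = 5 := by revert a; decide
  have h4 := four f hf
  have h2 := four _ h4
  rcases hcases with rfl | rfl | rfl | rfl | rfl | rfl
  · simpa using hf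
  · exact h4
  · convert h2 using 3 with i
    exact congrArg f ((show ∀ i : Fin 7, 2 * i = 4 * (4 * i) by decide) i)
  · convert neg f hf using 3 with i
    exact congrArg f ((show ∀ i : Fin 7, 6 * i = -i by decide) i)
  · convert neg _ h4 using 3 with i
    exact congrArg f ((show ∀ i : Fin 7, 3 * i = 4 * -i by decide) i)
  · convert neg _ h2 using 3 with i
    exact congrArg f ((show ∀ i : Fin 7, 5 * i = 4 * (4 * -i) by decide) i)

/-- A diagonal element with value `-1` at `kb b` gives the sign change at `0` and `kb b`. -/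
theorem pair_sign (hG : Gen ω X) {f : Fin 7 → F} (hf : InX X (Matrix.diagonal f))
    {b : Fin 7} (hb : b ≠ 0) (hfb : f b = -1) :
    InX X (Matrix.diagonal fun i => if i = 0 ∨ i = b then -1 else 1) := by
  classical
  have hprod : ∏ i, f i = 1 := by
    obtain ⟨d, hd, hdv⟩ := hf
    have h1 := congrArg Units.val (hG.le_sl hd)
    simp only [Matrix.GeneralLinearGroup.val_det_apply, Units.val_one, hdv,
      Matrix.det_diagonal] at h1
    exact h1
  set η : Fin 7 → F := fun i => ∏ a ∈ Finset.univ.erase (0 : Fin 7), f (a * i + b) with hη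
  have hηX : InX X (Matrix.diagonal η) := by
    have : ∀ s : Finset (Fin 7), 0 ∉ s →
        InX X (Matrix.diagonal fun i => ∏ a ∈ s, f (a * i + b)) := by
      intro s
      induction s using Finset.induction with
      | empty => intro _; simpa using InX.one
      | insert a s has ih =>
        intro h0
        have ha0 : a ≠ 0 := fun e => h0 (e ▸ Finset.mem_insert_self a s)
        have h1 := diag_dilate hG (diag_shift hG hf b) a ha0
        have h2 := h1.mul (ih fun e => h0 (Finset.mem_insert_of_mem e))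
        rw [Matrix.diagonal_mul_diagonal] at h2
        convert h2 using 3 with i
        rw [Finset.prod_insert has]
    exact this _ (Finset.notMem_erase _ _)
  have hη0 : η 0 = 1 := by
    simp only [hη, mul_zero, zero_add, hfb, Finset.prod_const]
    norm_num
  have hη1 : ∀ i, i ≠ 0 → η i = -1 := by
    intro i hi
    have him : (Finset.univ.erase (0 : Fin 7)).image (fun a => a * i + b) = Finset.univ.erase b :=
      (show ∀ i b : Fin 7, i ≠ 0 → (Finset.univ.erase (0 : Fin 7)).image (fun a => a * i + b) =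
        Finset.univ.erase b by decide) i b hi
    have hinj : ∀ x ∈ Finset.univ.erase (0 : Fin 7), ∀ y ∈ Finset.univ.erase (0 : Fin 7),
        x * i + b = y * i + b → x = y := by
      intro x _ y _ h
      have h' : x * i = y * i := add_right_cancel h
      exact (show ∀ i x y : Fin 7, i ≠ 0 → x * i = y * i → x = y by decide) i x y hi h'
    have h1 : η i = ∏ c ∈ Finset.univ.erase b, f c := by
      rw [← him, Finset.prod_image hinj]
    have h2 := Finset.mul_prod_erase Finset.univ f (Finset.mem_univ b)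
    rw [hprod, hfb, ← h1, neg_one_mul, neg_eq_iff_eq_neg] at h2
    exact h2
  have h := hηX.mul (diag_shift hG hηX (-b))
  rw [Matrix.diagonal_mul_diagonal] at h
  convert h using 3 with i
  have hib : ∀ i, i + -b = 0 ↔ i = b := fun i =>
    (show ∀ i b : Fin 7, i + -b = 0 ↔ i = b by decide) i b
  rcases eq_or_ne i 0 with rfl | hi0
  · have : (0 : Fin 7) + -b ≠ 0 := fun e => hb ((hib 0).1 e).symm
    rw [if_pos (Or.inl rfl), hη0, hη1 _ this, one_mul]
  · rcases eq_or_ne i b with rfl | hib'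
    · rw [if_pos (Or.inr rfl), hη1 _ hi0, (hib i).2 rfl, hη0, mul_one]
    · rw [if_neg (not_or.2 ⟨hi0, hib'⟩), hη1 _ hi0, hη1 _ fun e => hib' ((hib i).1 e), neg_one_mul,
        neg_neg]

section Main

variable [Finite F]

theorem plane_big_or_scalar (hG : Gen ω X) (a : Fin 3) :
    (∀ g, IsMono2 (rp hG.omega X a g : Matrix (Fin 2) (Fin 2) F)) ∨ BigPlane (rp hG.omega X a) := by
  obtain ⟨y, hy, hyv⟩ := hG.y
  obtain ⟨z, hz, hzv⟩ := hG.z
  have hyc : y ∈ cent X (Gm ω) := ⟨hy, hyv ▸ commute_diagonal_gm _⟩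
  have hzc : z ∈ cent X (Gm ω) := ⟨hz, hzv ▸ (sym_iff_commute.1 sym_gm).symm⟩
  have hk : kb a ≠ -kb a ∧ kb a ≠ 0 := by revert a; decide
  refine plane_dichotomy hG.two_ne_zero (rp hG.omega X a) (y := ⟨y, hyc⟩) (z := ⟨z, hzc⟩)
    (α := w ω (kb a)) (β := w ω (-kb a)) (c := -1) (d := -1) ?_ ?_ ?_
    (fun e => hk.1 (w_inj hG.omega e)) ?_
  · rw [rp_val, hyv, Ym, Dm, pl_diagonal]
  · rw [w, ← pow_mul, mul_comm, pow_mul, hG.omega.pow_seven, one_pow]
  · rw [w, ← pow_mul, mul_comm, pow_mul, hG.omega.pow_seven, one_pow]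
  · rw [rp_val, hzv]
    refine Matrix.ext fun r s => ?_
    have h := hk.1
    fin_cases r <;> fin_cases s <;> simp [pl, ix, Zm, h, Ne.symm h]

theorem big_of_not_scalar (hG : Gen ω X) (a : Fin 3) {k : cent X (Gm ω)}
    (hk : k ∈ derivedSeries (cent X (Gm ω)) 2)
    (hns : ¬ IsSc (rp hG.omega X a k : Matrix (Fin 2) (Fin 2) F)) : BigPlane (rp hG.omega X a) :=
  (plane_big_or_scalar hG a).resolve_left fun h => hns (isSc_derived_of_mono h k hk)

/-- Nothing in the second derived group moves exactly one plane. -/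
theorem no_single (hG : Gen ω X) (hN : NoTv X) (a : Fin 3) {k : cent X (Gm ω)}
    (hk : k ∈ derivedSeries (cent X (Gm ω)) 2) (hoff : ∀ c, c ≠ a → rp hG.omega X c k = 1)
    (hns : ¬ IsSc (rp hG.omega X a k : Matrix (Fin 2) (Fin 2) F)) : False := by
  let K : Subgroup (cent X (Gm ω)) :=
    (MonoidHom.pi fun c : {c : Fin 3 // c ≠ a} => rp hG.omega X c.1).ker
  haveI := derivedSeries_normal (cent X (Gm ω)) 2
  set N : Subgroup (cent X (Gm ω)) := derivedSeries _ 2 ⊓ K
  have hNn : N.Normal := by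
    haveI : K.Normal := MonoidHom.normal_ker _
    infer_instance
  obtain ⟨-, u, hu, hu1, hu2⟩ := (big_of_not_scalar hG a hk hns).elems N hNn
    (fun x hx => (derived_facts hG.omega hx.1).2 a)
    ⟨k, ⟨hk, funext fun c => hoff c.1 c.2⟩, hns⟩
  refine hN _ u.2.1 ?_
  exact isTv_of_plane hG.omega a u.2.2 (derived_facts hG.omega hu.1).1
    (fun c hc => congrArg Units.val (congrFun (show (MonoidHom.pi
      fun c : {c : Fin 3 // c ≠ a} => rp hG.omega X c.1) u = 1 from hu.2) ⟨c, hc⟩)) hu1 hu2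

theorem commutator_scalar (hG : Gen ω X) (c : Fin 3) {x k : cent X (Gm ω)}
    (hx : IsSc (rp hG.omega X c x : Matrix (Fin 2) (Fin 2) F)) :
    rp hG.omega X c (x * k * x⁻¹ * k⁻¹) = 1 := by
  have h : rp hG.omega X c x * rp hG.omega X c k = rp hG.omega X c k * rp hG.omega X c x := by
    refine Units.ext ?_
    rw [Units.val_mul, Units.val_mul, hx.eq_smul, Matrix.smul_mul, Matrix.mul_smul,
      Matrix.one_mul, Matrix.mul_one]
  rw [map_mul, map_mul, map_mul, map_inv, map_inv, h, mul_inv_cancel_right, mul_inv_cancel]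

theorem isSc_of_eq_neg_one {A : Matrix (Fin 2) (Fin 2) F} (h : A = -1) : IsSc A := by
  simp [IsSc, h]

/-- No element of the second derived group acts as `-1` on a big plane and as scalars on all. -/
theorem no_sign (hG : Gen ω X) (hN : NoTv X) (b : Fin 3) (hb : BigPlane (rp hG.omega X b))
    {J : cent X (Gm ω)} (hJ : J ∈ derivedSeries (cent X (Gm ω)) 2)
    (hsc : ∀ c, IsSc (rp hG.omega X c J : Matrix (Fin 2) (Fin 2) F))
    (hneg : (rp hG.omega X b J : Matrix (Fin 2) (Fin 2) F) = -1) : False := by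
  classical
  set f : Fin 7 → F := fun i => ((J : GL (Fin 7) F) : M7 F) i i with hf
  have hdiag : ((J : GL (Fin 7) F) : M7 F) = Matrix.diagonal f := by
    refine ext_planes hG.omega J.2.2 (commute_diagonal_gm f) (by simp [hf]) fun a r s => ?_
    by_cases h : r = s
    · subst h; simp [hf]
    · rw [Matrix.diagonal_apply_ne _ fun e => h (ix_inj a e)]
      obtain ⟨h1, h2, -⟩ := hsc a
      fin_cases r <;> fin_cases s <;> first | exact absurd rfl h | exact h1 | exact h2
  have hfb : f (kb b) = -1 := by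
    have := congrFun (congrFun hneg 0) 0
    simpa [rp_val, pl, ix, hf] using this
  have hkb : kb b ≠ 0 := (show ∀ b : Fin 3, kb b ≠ 0 by decide) b
  obtain ⟨d, hd, hdv⟩ := pair_sign hG ⟨_, J.2.1, hdiag⟩ hkb hfb
  set dd : cent X (Gm ω) := ⟨d, hd, hdv ▸ commute_diagonal_gm _⟩ with hdd
  have hval : ∀ c, (rp hG.omega X c dd : Matrix (Fin 2) (Fin 2) F) =
      !![if c = b then -1 else 1, 0; 0, 1] := by
    intro c
    rw [rp_val, hdd]
    show pl c (d : M7 F) = _
    rw [hdv, pl_diagonal]
    have h1 : ∀ b c : Fin 3, ((kb c = 0 ∨ kb c = kb b) ↔ c = b) ∧ ¬ (-kb c = 0 ∨ -kb c = kb b) := by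
      decide
    simp only [(h1 b c).1, if_neg (h1 b c).2]
  have hns : ¬ IsSc (rp hG.omega X b dd : Matrix (Fin 2) (Fin 2) F) := by
    rw [hval]
    intro h
    have := h.2.2
    simp at this
    exact hG.two_ne_zero (by linear_combination -this)
  obtain ⟨k, hk, hkns⟩ := hb.comm 2 dd hns
  refine no_single hG hN b (k := dd * k * dd⁻¹ * k⁻¹)
    (mul_mem ((derivedSeries_normal _ 2).conj_mem k hk dd) (inv_mem hk)) (fun c hc => ?_) hkns
  refine commutator_scalar hG c ?_
  rw [hval, if_neg hc]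
  simp [IsSc]

/-- An element of `X` commuting with the quadratic phase is monomial. -/
theorem mono_of_commute_g (hG : Gen ω X) (hN : NoTv X) {h : GL (Fin 7) F} (hh : h ∈ X)
    (hc : Commute (h : M7 F) (Gm ω)) : IsMono (h : M7 F) := by
  classical
  set hω := hG.omega
  by_cases hmono : ∀ (a : Fin 3) (g : cent X (Gm ω)),
      IsMono2 (rp hω X a g : Matrix (Fin 2) (Fin 2) F)
  · intro i i' j hi hi'
    by_contra hne
    have e : i * i = j * j := Not.imp_symm (apply_eq_zero hω hc) hi
    have e' : i' * i' = j * j := Not.imp_symm (apply_eq_zero hω hc) hi'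
    rcases ix_cases j with rfl | ⟨a, s, rfl⟩
    · refine hne ?_
      exact ((show ∀ k : Fin 7, k * k = (0 : Fin 7) * 0 → k = 0 by decide) i e).trans
        ((show ∀ k : Fin 7, k * k = (0 : Fin 7) * 0 → k = 0 by decide) i' e').symm
    · obtain ⟨r, rfl⟩ := (ix_sq a s i).1 e.symm
      obtain ⟨r', rfl⟩ := (ix_sq a s i').1 e'.symm
      have hr : r ≠ r' := fun e => hne (by rw [e])
      have hm := hmono a ⟨h, hh, hc⟩
      have hA : ∀ r s, (rp hω X a ⟨h, hh, hc⟩ : Matrix (Fin 2) (Fin 2) F) r s =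
          (h : M7 F) (ix a r) (ix a s) := fun _ _ => rfl
      simp only [IsMono2, hA] at hm
      fin_cases r <;> fin_cases r' <;> fin_cases s <;>
        first
        | exact hr rfl
        | (rcases hm with ⟨m1, m2⟩ | ⟨m1, m2⟩ <;> first
            | exact hi m1 | exact hi m2 | exact hi' m1 | exact hi' m2)
  exfalso
  push Not at hmono
  obtain ⟨a, g, hg⟩ := hmono
  have hA := (plane_big_or_scalar hG a).resolve_left fun hm => hg (hm g)
  set D : Subgroup (cent X (Gm ω)) := derivedSeries _ 2 with hD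
  have hDn : D.Normal := derivedSeries_normal _ 2
  have hdet : ∀ c, ∀ k ∈ D, (rp hω X c k : Matrix (Fin 2) (Fin 2) F).det = 1 :=
    fun c k hk => (derived_facts hω hk).2 c
  obtain ⟨⟨l, hl, hla⟩, -⟩ := hA.elems D hDn (hdet a) (hA.derived 2)
  by_cases hall : ∀ c, IsSc (rp hω X c l : Matrix (Fin 2) (Fin 2) F)
  · exact no_sign hG hN a hA hl hall hla
  push Not at hall
  obtain ⟨c, hlc⟩ := hall
  have hca : c ≠ a := fun e => hlc (e ▸ isSc_of_eq_neg_one hla)
  have hC := big_of_not_scalar hG c hl hlc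
  obtain ⟨k, hk, hkc⟩ := hC.comm 2 l hlc
  have hmD : l * k * l⁻¹ * k⁻¹ ∈ D := mul_mem (hDn.conj_mem k hk l) (inv_mem hk)
  haveI : (rp hω X a).ker.Normal := MonoidHom.normal_ker _
  obtain ⟨⟨l2, hl2, hl2c⟩, -⟩ := hC.elems (D ⊓ (rp hω X a).ker) inferInstance
    (fun x hx => hdet c x hx.1)
    ⟨_, ⟨hmD, commutator_scalar hG a (isSc_of_eq_neg_one hla)⟩, hkc⟩
  by_cases hall2 : ∀ e, IsSc (rp hω X e l2 : Matrix (Fin 2) (Fin 2) F)
  · exact no_sign hG hN c hC hl2.1 hall2 hl2c
  push Not at hall2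
  obtain ⟨e, hle⟩ := hall2
  have hl2a : rp hω X a l2 = 1 := hl2.2
  have hea : e ≠ a := fun h' => hle (by
    rw [h', hl2a, Units.val_one]; simpa using isSc_smul_one (F := F) 1)
  have hec : e ≠ c := fun h' => hle (h' ▸ isSc_of_eq_neg_one hl2c)
  obtain ⟨k', hk', hk'e⟩ := (big_of_not_scalar hG e hl2.1 hle).comm 2 l2 hle
  refine no_single hG hN e (k := l2 * k' * l2⁻¹ * k'⁻¹)
    (mul_mem (hDn.conj_mem k' hk' l2) (inv_mem hk')) (fun d hd => ?_) hk'e
  have : d = a ∨ d = c :=
    (show ∀ a c e d : Fin 3, c ≠ a → e ≠ a → e ≠ c → d ≠ e → d = a ∨ d = c by decide)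
      a c e d hca hea hec hd
  rcases this with rfl | rfl
  · exact commutator_scalar hG _ (by rw [hl2a, Units.val_one]; simpa using isSc_smul_one (F := F) 1)
  · exact commutator_scalar hG _ (isSc_of_eq_neg_one hl2c)

end Main

end Cfsg.Agent.CSixSeven
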