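import Cfsg.Agent.CSixSeven.Adjoint

/-!
# The transvections of an overgroup are not all defined over the prime field

If all products `tr (r s)` of transvection parameters lie in the prime field, the overgroup would be
realised over the prime field up to scalars, which is impossible as `ω` is a commutator.
-/

set_option autoImplicit false
set_option linter.unusedSimpArgs false
set_option linter.style.haveILetI false

open scoped Classical

namespace Cfsg.Agent.CSixSeven

open Cfsg Cfsg.Geo Matrix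

variable {F : Type*} [Field F] {ω : F} {X : Subgroup (GL (Fin 7) F)}

/-- The field is the prime field or cubic over it. -/
structure FieldHyp (F : Type*) [Field F] : Prop where
  full : ∀ x : F, x ∉ (⊥ : Subfield F) → Subfield.closure ({x} : Set F) = ⊤
  quad : ∀ x a b : F, a ∈ (⊥ : Subfield F) → b ∈ (⊥ : Subfield F) → x * x = a * x + b →
    x ∈ (⊥ : Subfield F)
  card_ne_nine : Nat.card F ≠ 9

/-- The nilpotent parts of the transvections of `X`. -/
def Tset (X : Subgroup (GL (Fin 7) F)) : Set (M7 F) :=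
  {r | ∃ u φ : Fin 7 → F, φ ⬝ᵥ u = 0 ∧ r = vecMulVec u φ ∧ InX X (1 + r)}

theorem tset_trace {r : M7 F} (hr : r ∈ Tset X) : r.trace = 0 := by
  obtain ⟨u, φ, h, rfl, -⟩ := hr
  rw [trace_vecMulVec, dotProduct_comm, h]

theorem tset_sq {r : M7 F} (hr : r ∈ Tset X) : r * r = 0 := by
  obtain ⟨u, φ, h, rfl, -⟩ := hr
  rw [vecMulVec_mul_vecMulVec, h, zero_smul, vecMulVec_zero]

theorem tset_conj {r : M7 F} (hr : r ∈ Tset X) {h : GL (Fin 7) F} (hh : h ∈ X) :
    (h : M7 F) * r * ((h⁻¹ : GL (Fin 7) F) : M7 F) ∈ Tset X := by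
  obtain ⟨u, φ, h0, rfl, g, hg, hgv⟩ := hr
  refine ⟨(h : M7 F) *ᵥ u, φ ᵥ* ((h⁻¹ : GL (Fin 7) F) : M7 F), ?_, ?_, h * g * h⁻¹,
    mul_mem (mul_mem hh hg) (inv_mem hh), ?_⟩
  · rw [← dotProduct_mulVec, mulVec_mulVec, Units.inv_mul, one_mulVec, h0]
  · rw [mul_vecMulVec, vecMulVec_mul]
  · rw [Units.val_mul, Units.val_mul, hgv, Matrix.mul_add, Matrix.add_mul, Matrix.mul_one,
      Units.mul_inv]

/-- A nonzero transvection parameter spans all matrices of trace zero together with its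
conjugates. -/
theorem span_tset (hG : Gen ω X) {r : M7 F} (hr : r ∈ Tset X) (hne : r ≠ 0) {M : M7 F}
    (hM : M.trace = 0) : M ∈ Submodule.span F (Tset X) := by
  refine adjoint_irreducible hG (fun h hh N hN => ?_) (Submodule.subset_span hr) hne
    (tset_trace hr) M hM
  induction hN using Submodule.span_induction with
  | mem x hx => exact Submodule.subset_span (tset_conj hx hh)
  | zero => simp
  | add x y _ _ hx hy => rw [Matrix.mul_add, Matrix.add_mul]; exact add_mem hx hy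
  | smul c x _ hx => rw [Matrix.mul_smul, Matrix.smul_mul]; exact Submodule.smul_mem _ c hx

/-- The trace form on trace-zero matrices is nondegenerate. -/
theorem eq_zero_of_trace (hω : Omega ω) {M : M7 F} (hM : M.trace = 0)
    (h : ∀ N : M7 F, N.trace = 0 → (M * N).trace = 0) : M = 0 := by
  have hsingle : ∀ i j : Fin 7, (M * Matrix.single j i 1).trace = M i j := fun i j => by
    simp [Matrix.trace, Matrix.mul_apply, Matrix.single_apply, ite_and, Finset.sum_ite_eq]
  by_contra hne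
  obtain ⟨i, hi⟩ := exists_diag_ne hω hM hne fun i j hij => by
    rw [← hsingle]
    exact h _ (by simp [Matrix.trace, Matrix.single_apply, ite_and, Finset.sum_ite_eq, hij, Ne.symm hij])
  refine hi ?_
  have := h (Matrix.single i i 1 - Matrix.single 0 0 1)
    (by rw [trace_sub]; simp [Matrix.trace, Matrix.single_apply, Finset.sum_ite_eq])
  rwa [Matrix.mul_sub, trace_sub, hsingle, hsingle, sub_eq_zero] at this

/-- Vectors are moved out of every hyperplane. -/
theorem exists_tset_dot (hG : Gen ω X) {r : M7 F} (hr : r ∈ Tset X) (hne : r ≠ 0)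
    {ψ w : Fin 7 → F} (hψ : ψ ≠ 0) (hw : w ≠ 0) :
    ∃ M : M7 F, (M = 1 ∨ M ∈ Tset X) ∧ ψ ⬝ᵥ (M *ᵥ w) ≠ 0 := by
  by_contra hcon
  push Not at hcon
  have hall : ∀ N ∈ Submodule.span F (Tset X), ψ ⬝ᵥ (N *ᵥ w) = 0 := by
    intro N hN
    induction hN using Submodule.span_induction with
    | mem x hx => exact hcon x (Or.inr hx)
    | zero => simp
    | add x y _ _ hx hy => rw [add_mulVec, dotProduct_add, hx, hy, add_zero]
    | smul c x _ hx => rw [smul_mulVec, dotProduct_smul, hx, smul_zero]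
  have h1 : ψ ⬝ᵥ w = 0 := by simpa using hcon 1 (Or.inl rfl)
  obtain ⟨i, hi⟩ := Function.ne_iff.1 hψ
  obtain ⟨j, hj⟩ := Function.ne_iff.1 hw
  set N : M7 F := Matrix.single i j 1
  have hN0 : (N - ((7 : F)⁻¹ * N.trace) • (1 : M7 F)).trace = 0 := by
    rw [trace_sub, trace_smul, trace_one, Fintype.card_fin, smul_eq_mul]
    have h7 : ((7 : ℕ) : F) = 7 := by norm_num
    rw [h7, mul_comm ((7 : F)⁻¹) _, mul_assoc, inv_mul_cancel₀ hG.omega.seven_ne, mul_one,
      sub_self]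
  have := hall _ (span_tset hG hr hne hN0)
  rw [sub_mulVec, dotProduct_sub, smul_mulVec, one_mulVec, dotProduct_smul, h1, smul_zero,
    sub_zero] at this
  simp only [N, dotProduct, Matrix.mulVec, Matrix.single_apply, ite_and, ite_mul, one_mul, zero_mul,
    mul_ite, mul_zero, Finset.sum_ite_eq, Finset.mem_univ, if_true] at this
  exact mul_ne_zero hi hj (by simpa using this)

section Rational

variable (hQ : ∀ r ∈ Tset X, ∀ s ∈ Tset X, (r * s).trace ∈ (⊥ : Subfield F))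
include hQ

theorem triple_mem (hH : FieldHyp F) {r s t : M7 F} (hr : r ∈ Tset X) (hs : s ∈ Tset X)
    (ht : t ∈ Tset X) : (r * s * t).trace ∈ (⊥ : Subfield F) := by
  obtain ⟨u, φ, h0, hru, -⟩ := id hr
  obtain ⟨v, ψ, h1, hsv, g, hg, hgv⟩ := id hs
  obtain ⟨x, χ, h2, htx, -⟩ := id ht
  have hss := tset_sq hs
  have hginv : ((g⁻¹ : GL (Fin 7) F) : M7 F) = 1 - s := by
    have : (g : M7 F) * (1 - s) = 1 := by
      rw [hgv, Matrix.add_mul, Matrix.one_mul, Matrix.mul_sub, Matrix.mul_one, hss]; abel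
    calc ((g⁻¹ : GL (Fin 7) F) : M7 F) = ((g⁻¹ : GL (Fin 7) F) : M7 F) * ((g : M7 F) * (1 - s)) := by
          rw [this, Matrix.mul_one]
      _ = 1 - s := by rw [← Matrix.mul_assoc, Units.inv_mul, Matrix.one_mul]
  have hsrs : s * r * s = ((ψ ⬝ᵥ u) * (φ ⬝ᵥ v)) • s := by
    rw [hru, hsv]
    simp [vecMulVec_mul_vecMulVec, smul_smul, vecMulVec_smul, mul_comm]
  have hconj := hQ _ (tset_conj hr hg) t ht
  rw [hgv, hginv, Matrix.add_mul, Matrix.one_mul, Matrix.mul_sub, Matrix.mul_one, Matrix.add_mul r,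
    hsrs] at hconj
  simp only [Matrix.add_mul, Matrix.sub_mul, Matrix.smul_mul, trace_add, trace_sub, trace_smul,
    smul_eq_mul] at hconj
  have hrs : (r * s).trace = (φ ⬝ᵥ v) * (ψ ⬝ᵥ u) := by
    rw [hru, hsv, vecMulVec_mul_vecMulVec, trace_vecMulVec, dotProduct_smul, smul_eq_mul,
      dotProduct_comm u ψ]
  have hrt : (r * t).trace = (φ ⬝ᵥ x) * (χ ⬝ᵥ u) := by
    rw [hru, htx, vecMulVec_mul_vecMulVec, trace_vecMulVec, dotProduct_smul, smul_eq_mul,
      dotProduct_comm u χ]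
  have hst : (s * t).trace = (ψ ⬝ᵥ x) * (χ ⬝ᵥ v) := by
    rw [hsv, htx, vecMulVec_mul_vecMulVec, trace_vecMulVec, dotProduct_smul, smul_eq_mul,
      dotProduct_comm v χ]
  have hd : (r * s * t).trace = (φ ⬝ᵥ v) * ((ψ ⬝ᵥ x) * (χ ⬝ᵥ u)) := by
    rw [hru, hsv, htx]
    simp only [vecMulVec_mul_vecMulVec, smul_dotProduct, trace_vecMulVec, dotProduct_smul,
      smul_eq_mul, smul_smul, dotProduct_comm u χ]
    ring
  have hd' : (s * r * t).trace = (ψ ⬝ᵥ u) * ((φ ⬝ᵥ x) * (χ ⬝ᵥ v)) := by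
    rw [hru, hsv, htx]
    simp only [vecMulVec_mul_vecMulVec, smul_dotProduct, trace_vecMulVec, dotProduct_smul,
      smul_eq_mul, smul_smul, dotProduct_comm v χ]
    ring
  have hm : (r * s).trace * (r * t).trace * (s * t).trace ∈ (⊥ : Subfield F) :=
    mul_mem (mul_mem (hQ r hr s hs) (hQ r hr t ht)) (hQ s hs t ht)
  have hc : (ψ ⬝ᵥ u) * (φ ⬝ᵥ v) * (s * t).trace ∈ (⊥ : Subfield F) := by
    refine mul_mem ?_ (hQ s hs t ht)
    rw [mul_comm, ← hrs]; exact hQ r hr s hs
  have hk : (s * r * t).trace - (r * s * t).trace ∈ (⊥ : Subfield F) := by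
    have := add_mem (sub_mem hconj (hQ r hr t ht)) hc
    convert this using 1
    ring
  refine hH.quad _ _ _ (neg_mem hk) hm ?_
  rw [hd, hd', hrs, hrt, hst]
  ring

/-- The matrices with all traces against `Tset X` in the prime field. -/
def InA (X : Subgroup (GL (Fin 7) F)) (M : M7 F) : Prop :=
  M.trace ∈ (⊥ : Subfield F) ∧ ∀ t ∈ Tset X, (M * t).trace ∈ (⊥ : Subfield F)

omit hQ in
theorem InA.one : InA X (1 : M7 F) := by
  refine ⟨?_, fun t ht => by rw [Matrix.one_mul, tset_trace ht]; exact zero_mem _⟩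
  rw [trace_one]; exact natCast_mem _ _

theorem InA.of_tset {r : M7 F} (hr : r ∈ Tset X) : InA X r :=
  ⟨by rw [(tset_trace hr)]; exact zero_mem _, fun t ht => hQ r hr t ht⟩

omit hQ in
theorem InA.smul {c : F} (hc : c ∈ (⊥ : Subfield F)) {M : M7 F} (hM : InA X M) :
    InA X (c • M) :=
  ⟨by rw [trace_smul, smul_eq_mul]; exact mul_mem hc hM.1,
   fun t ht => by rw [Matrix.smul_mul, trace_smul, smul_eq_mul]; exact mul_mem hc (hM.2 t ht)⟩

omit hQ in
theorem InA.conj {M : M7 F} (hM : InA X M) {h : GL (Fin 7) F} (hh : h ∈ X) :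
    InA X ((h : M7 F) * M * ((h⁻¹ : GL (Fin 7) F) : M7 F)) := by
  refine ⟨?_, fun t ht => ?_⟩
  · rw [Matrix.trace_mul_comm, ← Matrix.mul_assoc, Units.inv_mul, Matrix.one_mul]; exact hM.1
  · have := hM.2 _ (tset_conj ht (inv_mem hh))
    rw [inv_inv] at this
    rw [Matrix.mul_assoc, Matrix.mul_assoc, Matrix.trace_mul_comm]
    simpa [Matrix.mul_assoc] using this

variable [Finite F]

/-- A member of the rational algebra is a rational combination of `1` and transvection parameters. -/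
theorem InA.expand (hG : Gen ω X) {r₀ : M7 F} (hr₀ : r₀ ∈ Tset X) (hne : r₀ ≠ 0) {M : M7 F}
    (hM : InA X M) : ∃ (n : ℕ) (c : F) (x : Fin n → F) (b : Fin n → M7 F),
      c ∈ (⊥ : Subfield F) ∧ (∀ i, x i ∈ (⊥ : Subfield F)) ∧ (∀ i, b i ∈ Tset X) ∧
      M = c • 1 + ∑ i, x i • b i := by
  obtain ⟨B, hBT, hBspan, hBli⟩ := exists_linearIndependent F (Tset X)
  haveI : Fintype B := hBli.setFinite.fintype
  let e : Fin (Fintype.card B) ≃ B := (Fintype.equivFin B).symm
  let b : Fin (Fintype.card B) → M7 F := fun i => (e i : M7 F)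
  have hb : ∀ i, b i ∈ Tset X := fun i => hBT (e i).2
  have hspan : ∀ N : M7 F, N.trace = 0 → ∃ x : Fin (Fintype.card B) → F, ∑ i, x i • b i = N := by
    intro N hN
    have h := span_tset hG hr₀ hne hN
    rw [← hBspan, show B = Set.range b by
      rw [show b = Subtype.val ∘ e from rfl, e.surjective.range_comp, Subtype.range_coe]] at h
    exact (Submodule.mem_span_range_iff_exists_fun F).1 h
  have hinj : ∀ x : Fin (Fintype.card B) → F,
      (∀ j, ((∑ i, x i • b i) * b j).trace = 0) → x = 0 := by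
    intro x hx
    have h0 : ∑ i, x i • b i = 0 := by
      refine eq_zero_of_trace hG.omega ?_ fun N hN => ?_
      · rw [trace_sum]
        exact Finset.sum_eq_zero fun i _ => by rw [trace_smul, tset_trace (hb i), smul_zero]
      · obtain ⟨y, rfl⟩ := hspan N hN
        rw [Matrix.mul_sum, trace_sum]
        exact Finset.sum_eq_zero fun j _ => by rw [Matrix.mul_smul, trace_smul, hx j, smul_zero]
    have hli := (Fintype.linearIndependent_iff.1 (hBli.comp e e.injective)) x h0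
    funext i; exact hli i
  let K : Subfield F := ⊥
  haveI : Finite K := Finite.of_injective Subtype.val Subtype.val_injective
  have hmem : ∀ (x : Fin (Fintype.card B) → K) (j : Fin (Fintype.card B)),
      ((∑ i, (x i : F) • b i) * b j).trace ∈ K := fun x j => by
    rw [Matrix.sum_mul, trace_sum]
    refine sum_mem fun i _ => ?_
    rw [Matrix.smul_mul, trace_smul, smul_eq_mul]
    exact mul_mem (x i).2 (hQ _ (hb i) _ (hb j))
  let G : (Fin (Fintype.card B) → K) → Fin (Fintype.card B) → K :=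
    fun x j => ⟨((∑ i, (x i : F) • b i) * b j).trace, hmem x j⟩
  have hGinj : Function.Injective G := fun x y hxy => by
    have h : (fun i => ((x i : F) - (y i : F))) = 0 := hinj _ fun j => by
      have hj := congrArg Subtype.val (congrFun hxy j)
      simp only [G] at hj
      simp only [sub_smul, Finset.sum_sub_distrib, Matrix.sub_mul, trace_sub, hj, sub_self]
    funext i
    exact Subtype.ext (sub_eq_zero.1 (congrFun h i))
  obtain ⟨x, hx⟩ := Finite.surjective_of_injective hGinj fun j => ⟨(M * b j).trace, hM.2 _ (hb j)⟩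
  set c : F := (7 : F)⁻¹ * M.trace
  refine ⟨_, c, fun i => (x i : F), b, mul_mem (inv_mem ?_) hM.1, fun i => (x i).2, hb, ?_⟩
  · exact_mod_cast natCast_mem (⊥ : Subfield F) 7
  have h0 : (M - c • 1).trace = 0 := by
    rw [trace_sub, trace_smul, trace_one, Fintype.card_fin, smul_eq_mul]
    have h7 : ((7 : ℕ) : F) = 7 := by norm_num
    rw [h7, show c * 7 = M.trace * ((7 : F)⁻¹ * 7) by ring,
      inv_mul_cancel₀ hG.omega.seven_ne, mul_one, sub_self]
  obtain ⟨y, hy⟩ := hspan _ h0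
  have hxy : (fun i => (x i : F) - y i) = 0 := hinj _ fun j => by
    have hj := congrArg Subtype.val (congrFun hx j)
    simp only [G] at hj
    simp only [sub_smul, Finset.sum_sub_distrib, Matrix.sub_mul, trace_sub, hj, hy,
      Matrix.smul_mul, Matrix.one_mul, trace_smul, tset_trace (hb j), smul_zero, sub_zero,
      sub_self]
  rw [← sub_eq_iff_eq_add', ← hy]
  exact Finset.sum_congr rfl fun i _ => by rw [← sub_eq_zero.1 (congrFun hxy i)]

theorem InA.mul (hG : Gen ω X) (hH : FieldHyp F) {r₀ : M7 F} (hr₀ : r₀ ∈ Tset X) (hne : r₀ ≠ 0)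
    {M N : M7 F} (hM : InA X M) (hN : InA X N) : InA X (M * N) := by
  have hMt : ∀ t ∈ Tset X, InA X (M * t) := by
    intro t ht
    refine ⟨hM.2 t ht, fun t' ht' => ?_⟩
    obtain ⟨n, c, x, b, hc, hx, hb, rfl⟩ := hM.expand hQ hG hr₀ hne
    simp only [Matrix.add_mul, Matrix.smul_mul, Matrix.one_mul, Matrix.sum_mul, trace_add,
      trace_smul, trace_sum, smul_eq_mul]
    exact add_mem (mul_mem hc (hQ t ht t' ht'))
      (sum_mem fun i _ => mul_mem (hx i) (triple_mem hQ hH (hb i) ht ht'))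
  obtain ⟨n, c, x, b, hc, hx, hb, rfl⟩ := hN.expand hQ hG hr₀ hne
  rw [Matrix.mul_add, Matrix.mul_smul, Matrix.mul_one, Matrix.mul_sum]
  simp only [Matrix.mul_smul]
  refine ⟨?_, fun t ht => ?_⟩
  · simp only [trace_add, trace_smul, trace_sum, smul_eq_mul]
    exact add_mem (mul_mem hc hM.1) (sum_mem fun i _ => mul_mem (hx i) (hM.2 _ (hb i)))
  · simp only [Matrix.add_mul, Matrix.smul_mul, Matrix.sum_mul, trace_add, trace_smul, trace_sum,
      smul_eq_mul]
    exact add_mem (mul_mem hc (hM.2 t ht))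
      (sum_mem fun i _ => mul_mem (hx i) ((hMt _ (hb i)).2 t ht))

/-- If all parameters are rational then `ω` lies in the prime field. -/
theorem omega_mem_bot (hG : Gen ω X) (hH : FieldHyp F) {r₀ : M7 F} (hr₀ : r₀ ∈ Tset X)
    (hne : r₀ ≠ 0) : ω ∈ (⊥ : Subfield F) := by
  obtain ⟨s, hs, hcne⟩ : ∃ s ∈ Tset X, (r₀ * s).trace ≠ 0 := by
    by_contra hcon
    push Not at hcon
    have hall : ∀ N ∈ Submodule.span F (Tset X), (r₀ * N).trace = 0 := by
      intro N hN
      induction hN using Submodule.span_induction with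
      | mem x hx => exact hcon x hx
      | zero => simp
      | add x y _ _ hx hy => rw [Matrix.mul_add, trace_add, hx, hy, add_zero]
      | smul c x _ hx => rw [Matrix.mul_smul, trace_smul, hx, smul_zero]
    exact hne (eq_zero_of_trace hG.omega (tset_trace hr₀) fun N hN =>
      hall N (span_tset hG hr₀ hne hN))
  -- a rational idempotent of rank one
  obtain ⟨u, φ, h0, hru, -⟩ := id hr₀
  obtain ⟨v, ψ, h1, hsv, -⟩ := id hs
  have hc : (r₀ * s).trace = (φ ⬝ᵥ v) * (ψ ⬝ᵥ u) := by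
    rw [hru, hsv, vecMulVec_mul_vecMulVec, trace_vecMulVec, dotProduct_smul, smul_eq_mul,
      dotProduct_comm u ψ]
  set c := (r₀ * s).trace with hcdef
  set e : M7 F := c⁻¹ • (r₀ * s) with hedef
  have heA : InA X e :=
    InA.smul (inv_mem (hQ _ hr₀ _ hs))
      (InA.mul hQ hG hH hr₀ hne (InA.of_tset hQ hr₀) (InA.of_tset hQ hs))
  set a : F := c⁻¹ * (φ ⬝ᵥ v) with hadef
  have he : e = vecMulVec u (a • ψ) := by
    rw [hedef, hru, hsv, vecMulVec_mul_vecMulVec, ← vecMulVec_smul, smul_smul]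
  have heval : ∀ w : Fin 7 → F, e *ᵥ w = (a * (ψ ⬝ᵥ w)) • u := fun w => by
    rw [he, vecMulVec_mulVec, op_smul_eq_smul, smul_dotProduct, smul_eq_mul]
  have htr : ∀ M : M7 F, (e * M).trace = a * (ψ ⬝ᵥ (M *ᵥ u)) := fun M => by
    rw [he, vecMulVec_mul, trace_vecMulVec, dotProduct_comm, ← dotProduct_mulVec, smul_dotProduct,
      smul_eq_mul]
  have hu0 : u ≠ 0 := fun h => hne (by rw [hru, h, zero_vecMulVec])
  have hψ0 : ψ ≠ 0 := fun h => hcne (by rw [hc, h, zero_dotProduct, mul_zero])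
  have ha : a ≠ 0 := mul_ne_zero (inv_ne_zero hcne) (left_ne_zero_of_mul (hc ▸ hcne))
  -- every element of `X` preserves the rational form up to a scalar
  have hact : ∀ h ∈ X, ∃ l : F, ∀ M, InA X M → ∃ M', InA X M' ∧
      (h : M7 F) *ᵥ (M *ᵥ u) = l • (M' *ᵥ u) := by
    intro h hh
    have hψ' : ψ ᵥ* ((h⁻¹ : GL (Fin 7) F) : M7 F) ≠ 0 := fun e0 => hψ0 (by
      have := congrArg (· ᵥ* (h : M7 F)) e0
      simpa [vecMul_vecMul] using this)
    obtain ⟨M₁, hM₁, hk⟩ := exists_tset_dot hG hr₀ hne hψ' hu0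
    have hM₁A : InA X M₁ := by
      rcases hM₁ with rfl | hM₁
      exacts [InA.one, InA.of_tset hQ hM₁]
    set E : M7 F := (h : M7 F) * e * ((h⁻¹ : GL (Fin 7) F) : M7 F) with hEdef
    set k : F := a * (ψ ⬝ᵥ ((((h⁻¹ : GL (Fin 7) F) : M7 F) * M₁) *ᵥ u)) with hkdef
    have hk0 : k ≠ 0 := by
      refine mul_ne_zero ha ?_
      rwa [← mulVec_mulVec, dotProduct_mulVec]
    have hEu : (E * M₁) *ᵥ u = k • ((h : M7 F) *ᵥ u) := by
      rw [hEdef, Matrix.mul_assoc, Matrix.mul_assoc, ← mulVec_mulVec, ← mulVec_mulVec, heval,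
        mulVec_smul]
    refine ⟨k⁻¹, fun M hM => ⟨((h : M7 F) * M * ((h⁻¹ : GL (Fin 7) F) : M7 F)) * (E * M₁),
      InA.mul hQ hG hH hr₀ hne (hM.conj hh) (InA.mul hQ hG hH hr₀ hne (heA.conj hh) hM₁A), ?_⟩⟩
    rw [← mulVec_mulVec, hEu, mulVec_smul, smul_smul, inv_mul_cancel₀ hk0, one_smul, mulVec_mulVec,
      mulVec_mulVec, Matrix.mul_assoc ((h : M7 F) * M), Units.inv_mul, Matrix.mul_one]
  obtain ⟨g, hg, hgv⟩ := hG.y
  obtain ⟨h, hh, hhv⟩ := hG.x
  obtain ⟨l, hl⟩ := hact g hg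
  obtain ⟨k, hk⟩ := hact h hh
  obtain ⟨A₁, hA₁, e₁⟩ := hk 1 InA.one
  obtain ⟨A₂, hA₂, e₂⟩ := hl A₁ hA₁
  obtain ⟨B₁, hB₁, f₁⟩ := hl 1 InA.one
  obtain ⟨B₂, hB₂, f₂⟩ := hk B₁ hB₁
  rw [one_mulVec] at e₁ f₁
  have hyx : (Ym ω : M7 F) * Xm = w ω 1 • (Xm * Ym ω) := by
    rw [xm_mul_ym hG.omega, smul_smul, ← w_add hG.omega, show (1 : Fin 7) + 6 = 0 from rfl, w_zero,
      one_smul]
  have hlhs : ((g : M7 F) * (h : M7 F)) *ᵥ u = (k * l) • (A₂ *ᵥ u) := by
    rw [← mulVec_mulVec, e₁, mulVec_smul, e₂, smul_smul]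
  have hrhs : ((h : M7 F) * (g : M7 F)) *ᵥ u = (k * l) • (B₂ *ᵥ u) := by
    rw [← mulVec_mulVec, f₁, mulVec_smul, f₂, smul_smul, mul_comm]
  have hne2 : ((h : M7 F) * (g : M7 F)) *ᵥ u ≠ 0 := fun e0 => hu0 (by
    have := congrArg ((((h * g)⁻¹ : GL (Fin 7) F) : M7 F) *ᵥ ·) e0
    rw [← Units.val_mul, mulVec_zero, mulVec_mulVec, Units.inv_mul, one_mulVec] at this
    exact this)
  have hkl : k * l ≠ 0 := fun e0 => hne2 (by rw [hrhs, e0, zero_smul])
  have hB20 : B₂ *ᵥ u ≠ 0 := fun e0 => hne2 (by rw [hrhs, e0, smul_zero])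
  have hrel : A₂ *ᵥ u = w ω 1 • (B₂ *ᵥ u) := by
    have h1 : ((g : M7 F) * (h : M7 F)) *ᵥ u = w ω 1 • (((h : M7 F) * (g : M7 F)) *ᵥ u) := by
      rw [hgv, hhv, hyx, smul_mulVec]
    rw [hlhs, hrhs, smul_comm] at h1
    exact smul_right_injective _ hkl h1
  obtain ⟨M, hM, hdot⟩ := exists_tset_dot hG hr₀ hne hψ0 hB20
  have hMA : InA X M := by
    rcases hM with rfl | hM
    exacts [InA.one, InA.of_tset hQ hM]
  have hT : ∀ N : M7 F, InA X N → (e * (M * N)).trace ∈ (⊥ : Subfield F) := fun N hN =>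
    (InA.mul hQ hG hH hr₀ hne heA (InA.mul hQ hG hH hr₀ hne hMA hN)).1
  have hA := hT A₂ hA₂
  have hB := hT B₂ hB₂
  rw [htr, ← mulVec_mulVec, hrel, mulVec_smul, dotProduct_smul, smul_eq_mul,
    mul_left_comm] at hA
  rw [htr, ← mulVec_mulVec] at hB
  have := mul_mem hA (inv_mem hB)
  rwa [mul_assoc, mul_inv_cancel₀ (mul_ne_zero ha hdot), mul_one, w_one] at this

end Rational

end Cfsg.Agent.CSixSeven
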