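import Cfsg.Agent.CSixSeven.Blocks
import Cfsg.Agent.CSixSeven.Finish
import Cfsg.Agent.MaxSub.CSixFive.Main
import Cfsg.Agent.MaxSub.SymplecticType

/-!
# The standard group of order 343 in dimension seven and its normaliser

An absolutely irreducible group of symplectic type of exponent 7 in dimension seven is conjugate to
the standard one; the normaliser of the standard group contains the generators recorded in `Gen`.
-/

set_option autoImplicit false
set_option linter.unusedSectionVars false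
set_option linter.style.haveILetI false

namespace Cfsg.Agent.CSixSeven

open Cfsg Cfsg.Geo Matrix
open scoped MatrixGroups Fin.CommRing Fin.NatCast commutatorElement

variable {F : Type*} [Field F] {ω : F}

/-- The element `w c • (Dm (a * ·) * Xm ^ b)` by its entries. -/
def El (ω : F) (c a b : Fin 7) : M7 F :=
  Matrix.of fun i j => if i = j + b then w ω (c + a * i) else 0

theorem el_eq (hω : Omega ω) (c a : Fin 7) (b : ℕ) :
    w ω c • (Dm ω (fun i => a * i) * Xm ^ b) = El ω c a (b : Fin 7) := by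
  ext i j
  rw [Matrix.smul_apply, Dm, Matrix.diagonal_mul, Xm_pow_apply, El, Matrix.of_apply, smul_eq_mul]
  split_ifs
  · rw [mul_one, w_add hω]
  · simp

theorem inR_iff (hω : Omega ω) {M : M7 F} : InR ω M ↔ ∃ c a b, M = El ω c a b := by
  constructor
  · rintro ⟨c, a, b, rfl⟩
    exact ⟨c, a, _, el_eq hω c a b⟩
  · rintro ⟨c, a, b, rfl⟩
    exact ⟨c, a, b.val, by rw [el_eq hω, Fin.cast_val_eq_self]⟩

theorem el_mul (hω : Omega ω) (c a b c' a' b' : Fin 7) :
    El ω c a b * El ω c' a' b' = El ω (c + c' - a' * b) (a + a') (b + b') := by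
  ext i j
  rw [Matrix.mul_apply, Finset.sum_eq_single (j + b')]
  · simp only [El, Matrix.of_apply, if_true]
    by_cases h : i = j + b' + b
    · rw [if_pos h, if_pos (by rw [h]; ring), ← w_add hω]
      congr 1
      rw [h]; ring
    · rw [if_neg h, if_neg (fun e => h (by rw [e]; ring)), zero_mul]
  · intro k _ hk
    simp only [El, Matrix.of_apply, if_neg hk, mul_zero]
  · simp

theorem el_zero : El ω 0 0 0 = 1 := by
  ext i j
  simp [El, Matrix.one_apply]

/-- The element as a member of `GL₇`. -/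
def elG (hω : Omega ω) (c a b : Fin 7) : GL (Fin 7) F where
  val := El ω c a b
  inv := El ω (-c - a * b) (-a) (-b)
  val_inv := by rw [el_mul hω, show c + (-c - a * b) - -a * b = 0 by ring, add_neg_cancel,
    add_neg_cancel, el_zero]
  inv_val := by rw [el_mul hω, show -c - a * b + c - a * -b = 0 by ring, neg_add_cancel,
    neg_add_cancel, el_zero]

/-- The standard group of order 343. -/
def Rs (hω : Omega ω) : Subgroup (GL (Fin 7) F) where
  carrier := {g | InR ω (g : M7 F)}
  one_mem' := (inR_iff hω).2 ⟨0, 0, 0, el_zero.symm⟩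
  mul_mem' {g h} hg hh := by
    obtain ⟨c, a, b, e⟩ := (inR_iff hω).1 hg
    obtain ⟨c', a', b', e'⟩ := (inR_iff hω).1 hh
    exact (inR_iff hω).2 ⟨_, _, _, by rw [Units.val_mul, e, e', el_mul hω]⟩
  inv_mem' {g} hg := by
    obtain ⟨c, a, b, e⟩ := (inR_iff hω).1 hg
    obtain rfl : g = elG hω c a b := Units.ext e
    exact (inR_iff hω).2 ⟨_, _, _, rfl⟩

theorem mem_Rs (hω : Omega ω) {g : GL (Fin 7) F} : g ∈ Rs hω ↔ InR ω (g : M7 F) := Iff.rfl

theorem elG_mem (hω : Omega ω) (c a b : Fin 7) : elG hω c a b ∈ Rs hω :=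
  (inR_iff hω).2 ⟨c, a, b, rfl⟩

instance finite_Rs (hω : Omega ω) : Finite (Rs hω) :=
  Finite.of_surjective
    (fun x : Fin 7 × Fin 7 × Fin 7 => (⟨elG hω x.1 x.2.1 x.2.2, elG_mem hω _ _ _⟩ : Rs hω))
    fun ⟨g, hg⟩ => by
      obtain ⟨c, a, b, e⟩ := (inR_iff hω).1 hg
      exact ⟨⟨c, a, b⟩, Subtype.ext (Units.ext e.symm)⟩

theorem el_injective (hω : Omega ω) {c a b c' a' b' : Fin 7} (h : El ω c a b = El ω c' a' b') :
    c = c' ∧ a = a' ∧ b = b' := by
  have hb : b = b' := by
    by_contra hne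
    have := congrFun (congrFun h b) 0
    simp [El, hne, w_ne_zero hω] at this
  subst hb
  have h0 := congrFun (congrFun h 0) (0 - b)
  have h1 := congrFun (congrFun h 1) (1 - b)
  simp only [El, Matrix.of_apply, sub_add_cancel, if_true, mul_zero, add_zero, mul_one] at h0 h1
  obtain rfl := w_inj hω h0
  exact ⟨rfl, add_left_cancel (w_inj hω h1), rfl⟩

theorem card_Rs_ge (hω : Omega ω) : 343 ≤ Nat.card (Rs hω) := by
  have h := Nat.card_le_card_of_injective
    (fun x : Fin 7 × Fin 7 × Fin 7 => (⟨elG hω x.1 x.2.1 x.2.2, elG_mem hω _ _ _⟩ : Rs hω))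
    (fun ⟨c, a, b⟩ ⟨c', a', b'⟩ h => by
      obtain ⟨rfl, rfl, rfl⟩ := el_injective hω (congrArg (fun g : Rs hω => (g : GL (Fin 7) F).val) h)
      rfl)
  simpa [Nat.card_prod] using h

/-- `Ym`, as an element. -/
def yG (hω : Omega ω) : GL (Fin 7) F := elG hω 0 1 0

/-- `Xm`, as an element. -/
def xG (hω : Omega ω) : GL (Fin 7) F := elG hω 0 0 1

theorem val_yG (hω : Omega ω) : (yG hω : M7 F) = Ym ω := by
  show El ω 0 1 0 = _
  ext i j
  rw [Ym, Dm, Matrix.diagonal_apply, El, Matrix.of_apply]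
  simp

theorem val_xG (hω : Omega ω) : (xG hω : M7 F) = Xm := by
  show El ω 0 0 1 = _
  ext i j
  simp [El, Xm]

/-- A subgroup containing the three generators contains the standard group. -/
theorem Rs_le (hω : Omega ω) {H : Subgroup (GL (Fin 7) F)} (hy : yG hω ∈ H) (hx : xG hω ∈ H) :
    Rs hω ≤ H := by
  have hz : elG hω 1 0 0 ∈ H := by
    have e : elG hω 1 0 0 = yG hω * xG hω * (yG hω)⁻¹ * (xG hω)⁻¹ := by
      rw [eq_mul_inv_iff_mul_eq, eq_mul_inv_iff_mul_eq]
      refine Units.ext ?_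
      show El ω 1 0 0 * El ω 0 0 1 * El ω 0 1 0 = El ω 0 1 0 * El ω 0 0 1
      simp only [el_mul hω]
      congr 1 <;> ring
    exact e ▸ mul_mem (mul_mem (mul_mem hy hx) (inv_mem hy)) (inv_mem hx)
  have p : ∀ (c a b : Fin 7) (n : ℕ), (c = 0 ∨ b = 0) → a * b = 0 →
      ((elG hω c a b) ^ n : GL (Fin 7) F).val = El ω (n * c) (n * a) (n * b) := by
    intro c a b n _ hab
    induction n with
    | zero => simp [el_zero]
    | succ n ih =>
      rw [pow_succ, Units.val_mul, ih]
      show _ * El ω c a b = _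
      rw [el_mul hω, Nat.cast_succ]
      congr 1 <;> first | ring1 | linear_combination (-(n : Fin 7)) * hab
  intro g hg
  obtain ⟨c, a, b, e⟩ := (inR_iff hω).1 hg
  have e' : g = elG hω 1 0 0 ^ c.val * yG hω ^ a.val * xG hω ^ b.val := by
    refine Units.ext ?_
    rw [Units.val_mul, Units.val_mul, yG, xG, p _ _ _ _ (Or.inr rfl) (zero_mul _),
      p _ _ _ _ (Or.inl rfl) (mul_zero _), p _ _ _ _ (Or.inl rfl) (zero_mul _), el_mul hω,
      el_mul hω, e, Fin.cast_val_eq_self, Fin.cast_val_eq_self, Fin.cast_val_eq_self]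
    congr 1 <;> ring
  exact e' ▸ mul_mem (mul_mem (pow_mem hz _) (pow_mem hy _)) (pow_mem hx _)

/-- The predicate `NormR` is membership in the normaliser. -/
theorem mem_normalizer_of_normR (hω : Omega ω) {g : GL (Fin 7) F} (h : NormR ω (g : M7 F)) :
    g ∈ Subgroup.normalizer (Rs hω : Set (GL (Fin 7) F)) := by
  obtain ⟨M, M', hM, hM', e, e'⟩ := h
  have hgm : ∀ {x : GL (Fin 7) F} {M : M7 F}, InR ω M → (g : M7 F) * x = M * g →
      g * x * g⁻¹ ∈ Rs hω := by
    intro x M hM e
    rw [mem_Rs, Units.val_mul, Units.val_mul, e, Matrix.mul_assoc, Units.mul_inv, Matrix.mul_one]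
    exact hM
  have hle : Rs hω ≤ (Rs hω).comap (MulAut.conj g).toMonoidHom :=
    Rs_le hω (hgm hM (by rw [val_yG]; exact e)) (hgm hM' (by rw [val_xG]; exact e'))
  have heq : (Rs hω).map (MulAut.conj g).toMonoidHom = Rs hω :=
    Subgroup.eq_of_le_of_card_ge (Subgroup.map_le_iff_le_comap.2 hle)
      (Subgroup.card_map_of_injective (MulAut.conj g).injective).ge
  rw [Subgroup.mem_normalizer_iff]
  intro x
  refine ⟨fun hx => hle hx, fun hx => ?_⟩
  rw [← heq] at hx
  obtain ⟨y, hy, ey⟩ := hx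
  simp at ey
  rwa [← ey]

/-! ### Determinants of the standard elements -/

theorem det_perm (σ : Equiv.Perm (Fin 7)) (hσ : Equiv.Perm.sign σ = 1) {M : M7 F}
    (hM : ∀ i j, M i j = if σ i = j then 1 else 0) : M.det = 1 := by
  have e : M = σ.permMatrix F := by
    ext i j
    rw [hM, Equiv.Perm.permMatrix, PEquiv.toMatrix_toPEquiv_apply, Pi.single_apply]
    simp only [eq_comm]
  rw [e, Matrix.det_permutation, hσ]
  simp

theorem det_Dm_quad (hω : Omega ω) : (Gm ω).det = 1 := by
  rw [Gm, Dm, Matrix.det_diagonal, Fin.prod_univ_seven]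
  simp only [← w_add hω]
  rw [show (0 : Fin 7) * 0 + 1 * 1 + 2 * 2 + 3 * 3 + 4 * 4 + 5 * 5 + 6 * 6 = 0 by decide]
  simp [w]

theorem det_Xm : (Xm : M7 F).det = 1 := by
  refine det_perm ⟨fun i => i - 1, fun i => i + 1, fun i => by simp, fun i => by simp⟩
    (by decide) fun i j => ?_
  rw [Xm, Matrix.of_apply]
  exact if_congr ⟨fun h => by rw [h]; simp, fun h => by rw [← h]; simp⟩ rfl rfl

theorem det_Sm : (Sm : M7 F).det = 1 := by
  have h4 : ∀ i : Fin 7, 2 * (4 * i) = i := by decide
  have h2 : ∀ i : Fin 7, 4 * (2 * i) = i := by decide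
  have hs : ∀ h4 h2, Equiv.Perm.sign (⟨fun i : Fin 7 => 4 * i, fun i => 2 * i, h4, h2⟩ : Equiv.Perm (Fin 7)) = 1 := by
    intro h4 h2
    decide +revert
  refine det_perm ⟨fun i => 4 * i, fun i => 2 * i, h4, h2⟩ (hs _ _) fun i j => ?_
  rw [Sm, Matrix.of_apply]
  exact if_congr ⟨fun h => by rw [h]; exact h2 j, fun h => by rw [← h]; exact (h4 i).symm⟩ rfl rfl

theorem det_Zm : (Zm : M7 F).det = 1 := by
  set N : M7 F := Matrix.of fun i j => if i = -j then 1 else 0 with hN
  have e : (Zm : M7 F) = -N := by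
    ext i j
    simp only [Zm, hN, Matrix.of_apply, Matrix.neg_apply]
    split_ifs <;> simp
  have h : N.det = -1 := by
    have e' : N = (Equiv.neg (Fin 7)).permMatrix F := by
      ext i j
      rw [hN, Matrix.of_apply, Equiv.Perm.permMatrix, PEquiv.toMatrix_toPEquiv_apply,
        Pi.single_apply]
      exact if_congr ⟨fun h => by rw [h]; simp, fun h => by rw [h]; simp⟩ rfl rfl
    rw [e', Matrix.det_permutation, show Equiv.Perm.sign (Equiv.neg (Fin 7)) = -1 by decide]
    simp
  rw [e, Matrix.det_neg, h, Fintype.card_fin]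
  norm_num

/-- The Gauss sum. -/
def gauss (ω : F) : F := ω + ω ^ 2 + ω ^ 4 - ω ^ 3 - ω ^ 5 - ω ^ 6

theorem gauss_sq (hω : Omega ω) : gauss ω ^ 2 = -7 := by
  have hs : 1 + ω + ω ^ 2 + ω ^ 3 + ω ^ 4 + ω ^ 5 + ω ^ 6 = 0 := by
    have h : (ω - 1) * (1 + ω + ω ^ 2 + ω ^ 3 + ω ^ 4 + ω ^ 5 + ω ^ 6) = 0 := by
      linear_combination hω.pow_seven
    exact (mul_eq_zero.1 h).resolve_left (sub_ne_zero.2 hω.ne_one)
  rw [gauss]
  linear_combination (7 - 7 * ω + ω ^ 2 + ω ^ 3 - 3 * ω ^ 4 + ω ^ 5 + ω ^ 6) * hs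

/-- A scalar making the Fourier matrix unimodular. -/
theorem exists_fm_scalar (hω : Omega ω) (h7 : (7 : F) ≠ 0) :
    ∃ c : F, c ≠ 0 ∧ (c • Fm ω).det = 1 := by
  have hG := gauss_sq hω
  have hG0 : gauss ω ≠ 0 := fun h => h7 (by rw [h] at hG; linear_combination hG)
  have hsq : (Fm ω).det ^ 2 = (gauss ω ^ 7) ^ 2 := by
    rw [sq, ← Matrix.det_mul, fm_mul_fm hω, Matrix.det_smul, det_Zm, Fintype.card_fin, mul_one,
      ← pow_mul, pow_mul' (gauss ω) 7 2, hG]
  rcases sq_eq_sq_iff_eq_or_eq_neg.1 hsq with h | h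
  · refine ⟨(gauss ω)⁻¹, inv_ne_zero hG0, ?_⟩
    rw [Matrix.det_smul, Fintype.card_fin, h, inv_pow, inv_mul_cancel₀ (pow_ne_zero _ hG0)]
  · refine ⟨-(gauss ω)⁻¹, neg_ne_zero.2 (inv_ne_zero hG0), ?_⟩
    rw [Matrix.det_smul, Fintype.card_fin, h, neg_pow, inv_pow]
    field_simp

/-! ### Conjugating a given group onto the standard one -/

theorem w_pow (hω : Omega ω) (a : Fin 7) (n : ℕ) : w ω a ^ n = w ω (a * (n : Fin 7)) := by
  induction n with
  | zero => simp
  | succ n ih => rw [pow_succ, ih, ← w_add hω, Nat.cast_succ, mul_add, mul_one]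

theorem w_sum (hω : Omega ω) {d : Fin 7} (hd : d ≠ 0) : ∑ k : Fin 7, w ω (d * k) = 0 := by
  have h : w ω d * ∑ k : Fin 7, w ω (d * k) = ∑ k : Fin 7, w ω (d * k) := by
    rw [Finset.mul_sum]
    refine Fintype.sum_bijective (fun k : Fin 7 => k + 1) (AddGroup.addRight_bijective 1) _ _
      fun k => ?_
    rw [← w_add hω]
    congr 1
    ring
  have h' : (w ω d - 1) * ∑ k : Fin 7, w ω (d * k) = 0 := by linear_combination h
  exact (mul_eq_zero.1 h').resolve_left (sub_ne_zero.2 fun e => hd ((w_eq_one hω).1 e))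

/-- An element of order dividing seven has an eigenvector for a power of `ω`. -/
theorem exists_eigen (hω : Omega ω) (h7 : (7 : F) ≠ 0) {B : M7 F} (hB : B ^ 7 = 1) :
    ∃ (i : Fin 7) (v : Fin 7 → F), v ≠ 0 ∧ B *ᵥ v = w ω i • v := by
  set P : Fin 7 → M7 F := fun i => ∑ n : Fin 7, w ω (-(i * n)) • B ^ (n : ℕ) with hP
  have hBP : ∀ i, B * P i = w ω i • P i := by
    intro i
    simp only [hP, Finset.mul_sum, Finset.smul_sum, Matrix.mul_smul, ← pow_succ', smul_smul]
    refine Fintype.sum_bijective (fun n : Fin 7 => n + 1) (AddGroup.addRight_bijective 1) _ _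
      fun n => ?_
    rw [← w_add hω]
    congr 1
    · congr 1; ring
    · fin_cases n <;> first | rfl | exact hB.trans (pow_zero B).symm
  have htot : ∑ i, P i = (7 : F) • 1 := by
    rw [hP, Finset.sum_comm, Finset.sum_eq_single (0 : Fin 7)]
    · simp [← Nat.cast_smul_eq_nsmul F]
    · intro n _ hn
      rw [← Finset.sum_smul, show (∑ x : Fin 7, w ω (-(x * n))) = ∑ x, w ω (-n * x) from
        Finset.sum_congr rfl fun x _ => by congr 1; ring, w_sum hω (neg_ne_zero.2 hn), zero_smul]
    · simp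
  obtain ⟨i, hi⟩ : ∃ i, P i ≠ 0 := by
    by_contra hc
    push Not at hc
    rw [Finset.sum_eq_zero fun i _ => hc i] at htot
    have := congrFun (congrFun htot 0) 0
    simp at this
    exact h7 this.symm
  obtain ⟨u, hu⟩ : ∃ u : Fin 7 → F, P i *ᵥ u ≠ 0 := by
    by_contra hc
    push Not at hc
    exact hi (Matrix.ext_of_mulVec_single fun j => by rw [hc, Matrix.zero_mulVec])
  exact ⟨i, P i *ᵥ u, hu, by rw [Matrix.mulVec_mulVec, hBP, Matrix.smul_mulVec]⟩

/-- An absolutely irreducible group of symplectic type of exponent seven in dimension seven, in a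
field of another characteristic, is conjugate to the standard group. -/
theorem exists_frame_of_group [Finite F] {R : Subgroup (GL (Fin 7) F)}
    (hst : IsSymplecticTypeGroup 7 R) (hirr : ActsAbsolutelyIrreducibly (matrixSet R))
    (hZ : Nat.card (Subgroup.center R) = 7) (h7 : (7 : F) ≠ 0) :
    ∃ (ω : F) (hω : Omega ω) (P : GL (Fin 7) F), (Rs hω).map (MulAut.conj P).toMonoidHom = R := by
  classical
  haveI : Fact (Nat.Prime 7) := ⟨by norm_num⟩
  haveI : Group.IsNilpotent R := hst.pGroup.isNilpotent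
  have hexp : Monoid.exponent R = 7 := by rw [hst.exponent_eq]; norm_num
  have hcl := MaxSub.commutator_le_center_of_cyclic_char hst.cyclic_of_characteristic
    (hexp.trans hZ.symm)
  have hidx := MaxSub.sq_card_eq_index_center hirr hcl
  rw [Fintype.card_fin] at hidx
  have hR343 : Nat.card R = 343 := by
    rw [← Subgroup.card_mul_index (Subgroup.center R), hZ, ← hidx]; norm_num
  obtain ⟨a, b, hab⟩ : ∃ a b : R, b * a ≠ a * b := by
    by_contra hc
    push Not at hc
    have h1 : Subgroup.center R = ⊤ :=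
      eq_top_iff.2 fun x _ => Subgroup.mem_center_iff.2 fun y => hc x y
    rw [h1, Subgroup.index_top] at hidx
    norm_num at hidx
  set A : M7 F := ((a : GL (Fin 7) F) : M7 F) with hA
  set B : M7 F := ((b : GL (Fin 7) F) : M7 F) with hB
  obtain ⟨ζ, hζ⟩ := MaxSub.exists_scalar_of_mem_center hirr (z := ⁅b, a⁆)
    (hcl (Subgroup.commutator_mem_commutator (Subgroup.mem_top _) (Subgroup.mem_top _)))
  have hBA : B * A = ζ • (A * B) := by
    have e : b * a = ⁅b, a⁆ * (a * b) := by rw [commutatorElement_def]; group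
    have := congrArg (fun x : R => ((x : GL (Fin 7) F) : M7 F)) e
    simp only [Subgroup.coe_mul, Units.val_mul, hζ, Matrix.smul_mul, Matrix.one_mul] at this
    exact this
  have pow7 : ∀ x : R, ((x : GL (Fin 7) F) : M7 F) ^ 7 = 1 := fun x => by
    have := Monoid.pow_exponent_eq_one x
    rw [hexp] at this
    simpa using congrArg (fun y : R => ((y : GL (Fin 7) F) : M7 F)) this
  have hω : Omega ζ := by
    refine ⟨?_, fun h => hab (Subtype.ext (Units.ext ?_))⟩
    · have h := pow7 ⁅b, a⁆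
      rw [hζ, smul_pow, one_pow] at h
      exact smul_left_injective F (one_ne_zero (α := M7 F)) (by simpa using h)
    · rw [Subgroup.coe_mul, Subgroup.coe_mul, Units.val_mul, Units.val_mul, ← hA, ← hB, hBA, h,
        one_smul]
  obtain ⟨i, v, hv0, hv⟩ := exists_eigen hω h7 (pow7 b)
  set u : Fin 7 → (Fin 7 → F) := fun k => (A ^ (k : ℕ)) *ᵥ v with hu
  have hA7 : A ^ 7 = 1 := pow7 a
  have hAu : ∀ k, A *ᵥ u k = u (k + 1) := by
    intro k
    simp only [hu, Matrix.mulVec_mulVec, ← pow_succ']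
    congr 1
    fin_cases k <;> first | rfl | exact hA7.trans (pow_zero A).symm
  have hBu : ∀ k : Fin 7, B *ᵥ u k = w ζ (i + k) • u k := by
    have h : ∀ n : ℕ, B *ᵥ ((A ^ n) *ᵥ v) = w ζ (i + (n : Fin 7)) • ((A ^ n) *ᵥ v) := by
      intro n
      induction n with
      | zero => simpa using hv
      | succ n ih =>
        rw [pow_succ', ← mulVec_mulVec, mulVec_mulVec _ B A, hBA, smul_mulVec, ← mulVec_mulVec, ih,
          mulVec_smul, smul_smul, show ζ * w ζ (i + (n : Fin 7)) = w ζ (i + ((n + 1 : ℕ) : Fin 7)) by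
            rw [Nat.cast_succ, ← add_assoc, w_add hω (i + _) 1, w_one, mul_comm],
          mulVec_mulVec, ← pow_succ']
    intro k
    simpa [hu] using h (k : ℕ)
  have hu0 : ∀ k, u k ≠ 0 := fun k h0 => hv0 (by
    have := congrArg (fun x => A ^ (7 - (k : ℕ)) *ᵥ x) h0
    simpa [hu, mulVec_mulVec, ← pow_add, Nat.sub_add_cancel k.2.le, hA7] using this)
  have hli : LinearIndependent F u := by
    refine Module.End.eigenvectors_linearIndependent' (Matrix.toLin' B)
      (fun k : Fin 7 => w ζ (i + k)) (fun k l h => add_left_cancel (w_inj hω h)) u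
      fun k => ⟨?_, hu0 k⟩
    rw [Module.End.mem_eigenspace_iff, Matrix.toLin'_apply, hBu]
  set P0 : M7 F := Matrix.of fun r k => u k r with hP0
  have hPu : IsUnit P0 := by
    refine Matrix.linearIndependent_cols_iff_isUnit.1 ?_
    exact hli
  set P : GL (Fin 7) F := hPu.unit with hP
  have hPA : (a : GL (Fin 7) F) * P = P * xG hω := by
    refine Units.ext ?_
    rw [Units.val_mul, Units.val_mul, val_xG]
    refine Matrix.ext fun r k => ?_
    show (A * P0) r k = (P0 * (Xm : M7 F)) r k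
    rw [Matrix.mul_apply (M := P0), Finset.sum_eq_single (k + 1)]
    · have := congrFun (hAu k) r
      simpa [Matrix.mul_apply, mulVec, dotProduct, hP0, Xm] using this
    · intro c _ hc; simp [Xm, hc]
    · simp
  have hPB : (b : GL (Fin 7) F) * P = P * elG hω i 1 0 := by
    refine Units.ext (Matrix.ext fun r k => ?_)
    show (B * P0) r k = (P0 * El ζ i 1 0) r k
    rw [Matrix.mul_apply (M := P0), Finset.sum_eq_single k]
    · have := congrFun (hBu k) r
      simpa [Matrix.mul_apply, mulVec, dotProduct, hP0, El, mul_comm] using this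
    · intro c _ hc; simp [El, hc]
    · simp
  refine ⟨ζ, hω, P, ?_⟩
  have hle : Rs hω ≤ R.comap (MulAut.conj P).toMonoidHom := by
    have hxm : xG hω ∈ R.comap (MulAut.conj P).toMonoidHom := by
      show MulAut.conj P (xG hω) ∈ R
      rw [MulAut.conj_apply, ← hPA, mul_inv_cancel_right]; exact a.2
    have hbm : elG hω i 1 0 ∈ R.comap (MulAut.conj P).toMonoidHom := by
      show MulAut.conj P (elG hω i 1 0) ∈ R
      rw [MulAut.conj_apply, ← hPB, mul_inv_cancel_right]; exact b.2
    have hzm : elG hω 1 0 0 ∈ R.comap (MulAut.conj P).toMonoidHom := by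
      have e : elG hω 1 0 0 = elG hω i 1 0 * xG hω * (elG hω i 1 0)⁻¹ * (xG hω)⁻¹ := by
        rw [eq_mul_inv_iff_mul_eq, eq_mul_inv_iff_mul_eq]
        refine Units.ext ?_
        show El ζ 1 0 0 * El ζ 0 0 1 * El ζ i 1 0 = El ζ i 1 0 * El ζ 0 0 1
        simp only [el_mul hω]
        congr 1 <;> ring
      exact e ▸ mul_mem (mul_mem (mul_mem hbm hxm) (inv_mem hbm)) (inv_mem hxm)
    refine Rs_le hω ?_ hxm
    have hp : ∀ n : ℕ, ((elG hω 1 0 0) ^ n : GL (Fin 7) F).val = El ζ n 0 0 := by
      intro n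
      induction n with
      | zero => simp [el_zero]
      | succ n ih =>
        rw [pow_succ, Units.val_mul, ih]
        show _ * El ζ 1 0 0 = _
        rw [el_mul hω, Nat.cast_succ]
        congr 1 <;> ring
    have e : yG hω = elG hω 1 0 0 ^ (-i).val * elG hω i 1 0 := by
      refine Units.ext ?_
      rw [Units.val_mul, hp, Fin.cast_val_eq_self]
      show El ζ 0 1 0 = El ζ (-i) 0 0 * El ζ i 1 0
      rw [el_mul hω]
      congr 1 <;> ring
    exact e ▸ mul_mem (pow_mem hzm _) hbm
  refine Subgroup.eq_of_le_of_card_ge (Subgroup.map_le_iff_le_comap.2 hle) ?_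
  rw [Subgroup.card_map_of_injective (MulAut.conj P).injective, hR343]
  exact card_Rs_ge hω

/-- The frame of a linear symplectic-type datum. -/
theorem exists_frame [Fintype F] {R : Subgroup (GL (Fin 7) F)}
    (hR : IsLinearSymplecticTypeData 7 R) :
    (7 : F) ≠ 0 ∧
      ∃ (ω : F) (hω : Omega ω) (P : GL (Fin 7) F), (Rs hω).map (MulAut.conj P).toMonoidHom = R := by
  obtain ⟨hst, hirr, p, e, hrp, ⟨hp, hcp, -, -⟩, hcase⟩ := hR
  have h7 : (7 : F) ≠ 0 := fun h => hrp ((Nat.prime_dvd_prime_iff_eq hp (by norm_num)).1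
    ((CharP.cast_eq_zero_iff F p 7).1 (by exact_mod_cast h))).symm
  rcases hcase with ⟨-, -, hZ, -⟩ | ⟨h, -⟩ | ⟨h, -⟩
  · exact ⟨h7, exists_frame_of_group hst hirr hZ h7⟩
  · omega
  · omega

/-! ### The generators in an overgroup of the normaliser -/

/-- An overgroup, inside `SL₇`, of the normaliser of the standard group contains the generators. -/
theorem gen_of_normalizer (hω : Omega ω) (h2 : (2 : F) ≠ 0) (h7 : (7 : F) ≠ 0)
    {X : Subgroup (GL (Fin 7) F)} (hX : X ≤ specialLinear (Fin 7) F)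
    (hle : Subgroup.normalizer (Rs hω : Set (GL (Fin 7) F)) ⊓ specialLinear (Fin 7) F ≤ X) :
    Gen ω X := by
  have key : ∀ M : M7 F, M.det = 1 → ∀ a b a' b' c c' : Fin 7,
      M * Ym ω = El ω c a b * M → M * Xm = El ω c' a' b' * M → InX X M := by
    intro M hd a b a' b' c c' e e'
    let g : GL (Fin 7) F := ((Matrix.isUnit_iff_isUnit_det M).2 (hd ▸ isUnit_one)).unit
    refine ⟨g, hle ⟨mem_normalizer_of_normR hω ⟨_, _, (inR_iff hω).2 ⟨c, a, b, rfl⟩,
      (inR_iff hω).2 ⟨c', a', b', rfl⟩, e, e'⟩, GeoClasses.mem_specialLinear_iff.2 hd⟩, rfl⟩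
  have hmulY : ∀ (M : M7 F) i j, (M * Ym ω) i j = M i j * w ω j := fun M i j => by
    rw [Ym, Dm, Matrix.mul_diagonal]
  have hmulX : ∀ (M : M7 F) i j, (M * (Xm : M7 F)) i j = M i (j + 1) := fun M i j => by
    rw [Matrix.mul_apply, Finset.sum_eq_single (j + 1)]
    · simp [Xm]
    · intro c _ hc; simp [Xm, hc]
    · simp
  have helmul : ∀ (c a b : Fin 7) (M : M7 F) i j,
      (El ω c a b * M) i j = w ω (c + a * i) * M (i - b) j := fun c a b M i j => by
    rw [Matrix.mul_apply, Finset.sum_eq_single (i - b)]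
    · simp [El]
    · intro k _ hk
      simp [El, show i ≠ k + b from fun h => hk (by rw [h]; simp)]
    · simp
  refine ⟨hω, h2, hX, ?_, ?_, ?_, ?_, ?_, ?_⟩
  · have hy : yG hω ∈ Subgroup.normalizer (Rs hω : Set (GL (Fin 7) F)) :=
      Subgroup.le_normalizer (elG_mem hω _ _ _)
    refine ⟨yG hω, hle ⟨hy, GeoClasses.mem_specialLinear_iff.2 ?_⟩, val_yG hω⟩
    rw [val_yG, Ym]
    simpa using det_Dm_linear hω 1
  · have hx : xG hω ∈ Subgroup.normalizer (Rs hω : Set (GL (Fin 7) F)) :=
      Subgroup.le_normalizer (elG_mem hω _ _ _)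
    refine ⟨xG hω, hle ⟨hx, GeoClasses.mem_specialLinear_iff.2 ?_⟩, val_xG hω⟩
    rw [val_xG, det_Xm]
  · refine key _ (det_Dm_quad hω) 1 0 2 1 0 6 ?_ ?_
    · ext i j
      rw [hmulY, helmul, Gm, Dm, Matrix.diagonal_apply, sub_zero, zero_add, one_mul,
        Matrix.diagonal_apply]
      by_cases h : i = j <;> simp [h, mul_comm]
    · ext i j
      rw [hmulX, helmul, Gm, Dm, Matrix.diagonal_apply, Matrix.diagonal_apply]
      by_cases h : i = j + 1
      · rw [if_pos h, if_pos (by rw [h]; simp), ← w_add hω, h]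
        congr 1
        clear h; revert j; decide
      · rw [if_neg h, if_neg (fun e => h (by rw [← e]; simp)), mul_zero]
  · refine key _ det_Sm 4 0 0 2 0 0 ?_ ?_
    · ext i j
      rw [hmulY, helmul]
      simp only [Sm, Matrix.of_apply, sub_zero, zero_add]
      by_cases h : i = 2 * j
      · rw [if_pos h, one_mul, mul_one, h]
        congr 1
        clear h; revert j; decide
      · rw [if_neg h, mul_zero, zero_mul]
    · ext i j
      rw [hmulX, helmul]
      simp only [Sm, Matrix.of_apply, zero_mul, add_zero, w_zero, one_mul]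
      exact if_congr ⟨fun h => by rw [h]; ring, fun h => by linear_combination h⟩ rfl rfl
  · refine key _ det_Zm 6 0 0 6 0 0 ?_ ?_
    · ext i j
      rw [hmulY, helmul]
      simp only [Zm, Matrix.of_apply, sub_zero, zero_add]
      by_cases h : i = -j
      · rw [if_pos h, h, show (6 : Fin 7) * -j = j by clear h; revert j; decide, mul_comm]
      · rw [if_neg h, zero_mul, mul_zero]
    · ext i j
      rw [hmulX, helmul]
      simp only [Zm, Matrix.of_apply, zero_mul, add_zero, w_zero, one_mul]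
      refine if_congr ⟨fun h => ?_, fun h => ?_⟩ rfl rfl <;>
        (revert h; revert i j; decide)
  · obtain ⟨k, hk0, hk⟩ := exists_fm_scalar hω h7
    refine ⟨k, key _ hk 0 6 1 0 0 0 ?_ ?_⟩
    · ext i j
      rw [hmulY, helmul]
      simp only [Matrix.smul_apply, Fm, Matrix.of_apply, smul_eq_mul, zero_mul, add_zero, w_zero,
        one_mul]
      rw [mul_assoc, ← w_add hω]
      congr 2
      revert i j; decide
    · ext i j
      rw [hmulX, helmul]
      simp only [Matrix.smul_apply, Fm, Matrix.of_apply, smul_eq_mul, sub_zero, zero_add, one_mul]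
      rw [mul_left_comm, ← w_add hω]
      congr 2
      ring

/-- A transvection of determinant one outside the normaliser. -/
theorem transvection_not_mem (hω : Omega ω) :
    ∃ t ∈ specialLinear (Fin 7) F, t ∉ Subgroup.normalizer (Rs hω : Set (GL (Fin 7) F)) := by
  have hd : (Matrix.transvection (0 : Fin 7) 1 (1 : F)).det = 1 :=
    Matrix.det_transvection_of_ne (0 : Fin 7) 1 (by decide) _
  refine ⟨((Matrix.isUnit_iff_isUnit_det (Matrix.transvection (0 : Fin 7) 1 (1 : F))).2
    (by rw [hd]; exact isUnit_one)).unit, GeoClasses.mem_specialLinear_iff.2 hd, fun hn => ?_⟩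
  have h := (Subgroup.mem_normalizer_iff.1 hn (yG hω)).1 (elG_mem hω _ _ _)
  rw [mem_Rs] at h
  obtain ⟨c, a, b, e⟩ := (inR_iff hω).1 h
  set T : M7 F := Matrix.transvection (0 : Fin 7) 1 (1 : F) with hT
  have e' : T * Ym ω = El ω c a b * T := by
    rw [← e, Units.val_mul, Units.val_mul, val_yG, IsUnit.unit_spec, Matrix.mul_assoc]
    conv_rhs => rw [← IsUnit.unit_spec ((Matrix.isUnit_iff_isUnit_det T).2 (by rw [hd]; exact isUnit_one))]
    rw [Units.inv_mul, Matrix.mul_one]
  have h10 := congrFun (congrFun e' 0) 1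
  have h00 := congrFun (congrFun e' 0) 0
  have h11 := congrFun (congrFun e' 1) 1
  have lhs : ∀ i j, (T * Ym ω) i j = T i j * w ω j := fun i j => by
    rw [Ym, Dm, Matrix.mul_diagonal]
  have rhs : ∀ i j, (El ω c a b * T) i j = w ω (c + a * i) * T (i - b) j := fun i j => by
    rw [Matrix.mul_apply, Finset.sum_eq_single (i - b)]
    · simp [El]
    · intro k _ hk
      simp [El, show i ≠ k + b from fun h => hk (by rw [h]; simp)]
    · simp
  rw [lhs, rhs] at h10 h00 h11
  have hb : b = 0 := by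
    by_contra hb
    simp [hT, Matrix.transvection, hb, Matrix.one_apply, Matrix.single_apply] at h00
  subst hb
  simp [hT, Matrix.transvection, Matrix.one_apply, Matrix.single_apply] at h10 h00
  exact absurd (w_inj hω (h10.trans (h00.symm.trans (w_zero (ω := ω)).symm))) (by decide)

/-- Maximality of the normaliser, given that every overgroup of the generators normalises the
standard group or contains `SL₇`. -/
theorem maximal_of [Fintype F] {R : Subgroup (GL (Fin 7) F)}
    (hR : IsLinearSymplecticTypeData 7 R) (h2 : (2 : F) ≠ 0)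
    (key : ∀ (ω : F) (X : Subgroup (GL (Fin 7) F)), Gen ω X →
      (∀ h ∈ X, NormR ω (h : M7 F)) ∨ specialLinear (Fin 7) F ≤ X) :
    IsMaximalIn (specialLinear (Fin 7) F) (subgroupNormalizer R ⊓ specialLinear (Fin 7) F) := by
  obtain ⟨h7, ω, hω, P, hP⟩ := exists_frame hR
  have hsl : (specialLinear (Fin 7) F).map (MulAut.conj P).toMonoidHom = specialLinear (Fin 7) F := by
    have hP0 : (P : M7 F).det ≠ 0 := ((Matrix.isUnit_iff_isUnit_det _).1 P.isUnit).ne_zero
    refine le_antisymm ?_ fun g hg => ?_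
    · rintro _ ⟨g, hg, rfl⟩
      rw [SetLike.mem_coe, GeoClasses.mem_specialLinear_iff] at hg
      rw [GeoClasses.mem_specialLinear_iff]
      simp [MulAut.conj_apply, hg, hP0]
    · refine ⟨P⁻¹ * g * P, ?_, by simp [MulAut.conj_apply]; group⟩
      rw [SetLike.mem_coe, GeoClasses.mem_specialLinear_iff] at *
      simp [hg, hP0]
  have hstd : IsMaximalIn (specialLinear (Fin 7) F)
      (Subgroup.normalizer (Rs hω : Set (GL (Fin 7) F)) ⊓ specialLinear (Fin 7) F) := by
    refine ⟨lt_of_le_not_ge inf_le_right fun hle => ?_, fun X hle hX => ?_⟩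
    · obtain ⟨t, ht, htn⟩ := transvection_not_mem hω
      exact htn (hle ht).1
    · rcases key ω X (gen_of_normalizer hω h2 h7 hX hle) with h | h
      · exact Or.inl (le_antisymm
          (le_inf (fun g hg => mem_normalizer_of_normR hω (h g hg)) hX) hle)
      · exact Or.inr (le_antisymm hX h)
  have h := MaxSub.CSixFive.isMaximalIn_map (MulAut.conj P) hstd
  rw [Subgroup.map_inf_eq _ _ _ (MulAut.conj P).injective, hsl,
    ← MaxSub.CSixFive.normalizer_map, hP] at h
  exact h

end Cfsg.Agent.CSixSeven
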