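import Cfsg.Agent.CSixSeven.Rational
import Cfsg.Agent.RootSub.Transv.Classify
import Cfsg.Agent.GeoClasses.TransvGen

/-!
# An overgroup with a transvection is the special linear group
-/

set_option autoImplicit false
set_option linter.unusedSimpArgs false
set_option linter.style.haveILetI false

open scoped Classical

namespace Cfsg.Agent.CSixSeven

open Cfsg Cfsg.Geo Matrix

variable {F : Type*} [Field F] {ω : F} {X : Subgroup (GL (Fin 7) F)}

/-- The hypothesis produced by two transvections generating `SL₂(F)`. -/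
def PairStatement (X : Subgroup (GL (Fin 7) F)) : Prop :=
  ∀ r ∈ Tset X, ∀ s ∈ Tset X, (r * s).trace ∉ (⊥ : Subfield F) → ∀ a : F, InX X (1 + a • r)

theorem tset_smul {r : M7 F} (hr : r ∈ Tset X) {a : F} (h : InX X (1 + a • r)) :
    a • r ∈ Tset X := by
  obtain ⟨u, φ, h0, rfl, -⟩ := hr
  exact ⟨u, a • φ, by rw [smul_dotProduct, h0, smul_zero], (vecMulVec_smul a u φ).symm, h⟩

theorem inX_conj_smul {r : M7 F} {a : F} (hr : InX X (1 + a • r)) {h : GL (Fin 7) F} (hh : h ∈ X) :
    InX X (1 + a • ((h : M7 F) * r * ((h⁻¹ : GL (Fin 7) F) : M7 F))) := by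
  obtain ⟨g, hg, hgv⟩ := hr
  refine ⟨h * g * h⁻¹, mul_mem (mul_mem hh hg) (inv_mem hh), ?_⟩
  rw [Units.val_mul, Units.val_mul, hgv, Matrix.mul_add, Matrix.add_mul, Matrix.mul_one,
    Units.mul_inv, Matrix.mul_smul, Matrix.smul_mul]

variable [Finite F]

/-- All root groups of transvections of `X` lie in `X`. -/
theorem all_full (hG : Gen ω X) (hH : FieldHyp F)
    (hω0 : ω ∈ (⊥ : Subfield F) → ∀ x : F, x ∈ (⊥ : Subfield F)) (hP : PairStatement X)
    {t : M7 F} (ht : t ∈ Tset X) : ∀ c : F, InX X (1 + c • t) := by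
  intro c
  by_cases hall : ∀ x : F, x ∈ (⊥ : Subfield F)
  · obtain ⟨p, hp⟩ := CharP.exists F
    have hpr : p.Prime := (CharP.char_is_prime_or_zero F p).resolve_right
      (CharP.char_ne_zero_of_finite F p)
    haveI : Fact p.Prime := ⟨hpr⟩
    have hle : (⊥ : Subfield F) ≤ (ZMod.castHom (dvd_refl p) F).fieldRange := bot_le
    obtain ⟨z, hz⟩ := hle (hall c)
    have hc : c = (z.val : F) := by
      rw [← hz, ← map_natCast (ZMod.castHom (dvd_refl p) F), ZMod.natCast_zmod_val]
    have hpow : ∀ n : ℕ, InX X (1 + (n : F) • t) := by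
      intro n
      induction n with
      | zero => simpa using InX.one
      | succ n ih =>
        obtain ⟨u, φ, h0, htv, hX⟩ := id ht
        have := ih.mul hX
        convert this using 1
        rw [Matrix.add_mul, Matrix.one_mul, Matrix.smul_mul, Matrix.mul_add, Matrix.mul_one,
          tset_sq ht, add_zero, Nat.cast_succ, add_smul, one_smul]
        abel
    rw [hc]; exact hpow _
  have hω : ω ∉ (⊥ : Subfield F) := fun h => hall (hω0 h)
  by_cases ht0 : t = 0
  · simpa [ht0] using InX.one
  obtain ⟨r, hr, s, hs, hrs⟩ : ∃ r ∈ Tset X, ∃ s ∈ Tset X, (r * s).trace ∉ (⊥ : Subfield F) := by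
    by_contra hcon
    push Not at hcon
    exact hω (omega_mem_bot hcon hG hH ht ht0)
  have hr0 : r ≠ 0 := fun h => hrs (by rw [h, Matrix.zero_mul, trace_zero]; exact zero_mem _)
  -- the parameters with a full root group span all matrices of trace zero
  let FS : Set (M7 F) := {q | q ∈ Tset X ∧ ∀ a : F, InX X (1 + a • q)}
  have hspan : ∀ N : M7 F, N.trace = 0 → N ∈ Submodule.span F FS := by
    refine adjoint_irreducible hG (fun h hh N hN => ?_)
      (Submodule.subset_span (show r ∈ FS from ⟨hr, hP r hr s hs hrs⟩)) hr0 (tset_trace hr)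
    induction hN using Submodule.span_induction with
    | mem x hx =>
      exact Submodule.subset_span ⟨tset_conj hx.1 hh, fun a => inX_conj_smul (hx.2 a) hh⟩
    | zero => simp
    | add x y _ _ hx hy => rw [Matrix.mul_add, Matrix.add_mul]; exact add_mem hx hy
    | smul k x _ hx => rw [Matrix.mul_smul, Matrix.smul_mul]; exact Submodule.smul_mem _ k hx
  obtain ⟨q, hq, hqt⟩ : ∃ q ∈ FS, (t * q).trace ≠ 0 := by
    by_contra hcon
    push Not at hcon
    have hall' : ∀ N ∈ Submodule.span F FS, (t * N).trace = 0 := by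
      intro N hN
      induction hN using Submodule.span_induction with
      | mem x hx => exact hcon x hx
      | zero => simp
      | add x y _ _ hx hy => rw [Matrix.mul_add, trace_add, hx, hy, add_zero]
      | smul k x _ hx => rw [Matrix.mul_smul, trace_smul, hx, smul_zero]
    exact ht0 (eq_zero_of_trace hG.omega (tset_trace ht) fun N hN => hall' N (hspan N hN))
  refine hP t ht _ (tset_smul hq.1 (hq.2 (ω / (t * q).trace))) ?_ c
  rwa [Matrix.mul_smul, trace_smul, smul_eq_mul, div_mul_cancel₀ _ hqt]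

omit [Finite F] in
/-- An alternating form in dimension seven degenerates. -/
theorem no_alt_seven (h2 : (2 : F) ≠ 0) (B : LinearMap.BilinForm F (Fin 7 → F)) (hA : B.IsAlt)
    (hB : B.Nondegenerate) : False := by
  have hdet := (LinearMap.BilinForm.nondegenerate_iff_det_ne_zero (Pi.basisFun F (Fin 7))).1 hB
  apply hdet
  set A := LinearMap.BilinForm.toMatrix (Pi.basisFun F (Fin 7)) B with hAdef
  have hskew : Aᵀ = -A := by
    ext i j
    rw [transpose_apply, Matrix.neg_apply, hAdef, LinearMap.BilinForm.toMatrix_apply,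
      LinearMap.BilinForm.toMatrix_apply]
    exact (hA.neg_eq _ _).symm
  have h := congrArg Matrix.det hskew
  rw [det_transpose, det_neg, Fintype.card_fin] at h
  have : (2 : F) * A.det = 0 := by linear_combination h
  exact (mul_eq_zero.1 this).resolve_left h2

/-- The overgroup contains the special linear group as soon as it has a transvection. -/
theorem sl_le_of_not_noTv (hG : Gen ω X) (hH : FieldHyp F)
    (hω0 : ω ∈ (⊥ : Subfield F) → ∀ x : F, x ∈ (⊥ : Subfield F)) (hP : PairStatement X)
    (hT : ¬ NoTv X) : specialLinear (Fin 7) F ≤ X := by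
  unfold NoTv at hT
  push Not at hT
  obtain ⟨g, hg, u, φ, hu, hφ, hφu, hgv⟩ := hT
  set r : M7 F := vecMulVec u φ with hrdef
  have hr : r ∈ Tset X := ⟨u, φ, hφu, rfl, g, hg, hgv⟩
  have hr0 : r ≠ 0 := by
    obtain ⟨i, hi⟩ := Function.ne_iff.1 hu
    obtain ⟨j, hj⟩ := Function.ne_iff.1 hφ
    intro h
    exact mul_ne_zero hi hj (by simpa [hrdef, vecMulVec_apply] using congrFun (congrFun h i) j)
  let toE : GL (Fin 7) F ≃* ((Fin 7 → F) ≃ₗ[F] (Fin 7 → F)) :=
    (Matrix.GeneralLinearGroup.toLin).trans (LinearMap.GeneralLinearGroup.generalLinearEquiv F _)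
  have toE_apply : ∀ (k : GL (Fin 7) F) (v : Fin 7 → F), toE k v = (k : M7 F) *ᵥ v := fun _ _ => rfl
  set H := X.map toE.toMonoidHom
  have hIs : ∀ {q : M7 F}, q ∈ Tset X → ∃ (x : Fin 7 → F) (ψ : Fin 7 → F), q = vecMulVec x ψ ∧
      RootSub.Transv.IsTv H x (dotProductBilin F F ψ) := by
    rintro q ⟨x, ψ, h0, rfl, k, hk, hkv⟩
    refine ⟨x, ψ, rfl, h0, toE k, Subgroup.mem_map_of_mem _ hk, fun v => ?_⟩
    rw [toE_apply, hkv, add_mulVec, one_mulVec, vecMulVec_mulVec, op_smul_eq_smul]
    rfl
  have hof : ∀ {x : Fin 7 → F} {ψ : Module.Dual F (Fin 7 → F)}, RootSub.Transv.IsTv H x ψ →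
      vecMulVec x (fun i => ψ (Pi.single i 1)) ∈ Tset X ∧
        ∀ v, ψ v = (fun i => ψ (Pi.single i 1)) ⬝ᵥ v := by
    rintro x ψ ⟨h0, -, ⟨k, hk, rfl⟩, hkv⟩
    have hdot : ∀ v, ψ v = (fun i => ψ (Pi.single i 1)) ⬝ᵥ v := fun v => by
      conv_lhs => rw [← Finset.univ_sum_single v, map_sum]
      refine Finset.sum_congr rfl fun i _ => ?_
      rw [show (Pi.single i (v i) : Fin 7 → F) = v i • Pi.single i 1 by
        rw [← Pi.single_smul', smul_eq_mul, mul_one], map_smul, smul_eq_mul, mul_comm]
    refine ⟨⟨x, _, (hdot x).symm.trans h0, rfl, k, hk, Matrix.ext_of_mulVec_single fun i => ?_⟩, hdot⟩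
    rw [add_mulVec, one_mulVec, vecMulVec_mulVec, op_smul_eq_smul, ← hdot]
    exact hkv _
  have hsc : RootSub.Transv.ScalarClosed H := by
    intro x ψ hxψ c
    obtain ⟨hmem, hdot⟩ := hof hxψ
    obtain ⟨k, hk, hkv⟩ := all_full hG hH hω0 hP hmem c
    refine ⟨by rw [LinearMap.smul_apply, hxψ.1, smul_zero], toE k, Subgroup.mem_map_of_mem _ hk,
      fun v => ?_⟩
    rw [toE_apply, hkv, add_mulVec, one_mulVec, smul_mulVec, vecMulVec_mulVec, op_smul_eq_smul,
      ← hdot, smul_smul]
    rfl
  have hirr : RootSub.Transv.TvIrred H := by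
    intro U hU
    by_cases hb : U = ⊥
    · exact Or.inl hb
    refine Or.inr ?_
    have hN : ∀ N : M7 F, N.trace = 0 → ∀ v ∈ U, N *ᵥ v ∈ U := by
      intro N hN v hv
      have h := span_tset hG hr hr0 hN
      clear hN
      induction h using Submodule.span_induction with
      | mem y hy =>
        obtain ⟨x, ψ, rfl, hxψ⟩ := hIs hy
        rw [vecMulVec_mulVec, op_smul_eq_smul]
        exact hU _ _ hxψ v hv
      | zero => simp
      | add a b _ _ ha hb => rw [add_mulVec]; exact U.add_mem ha hb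
      | smul k a _ ha => rw [smul_mulVec]; exact U.smul_mem k ha
    obtain ⟨v, hv, hv0⟩ := (Submodule.ne_bot_iff U).1 hb
    obtain ⟨j, hj⟩ := Function.ne_iff.1 hv0
    have hsingle : ∀ i k : Fin 7, i ≠ k → ∀ w ∈ U, w k ≠ 0 → Pi.single i (1 : F) ∈ U := by
      intro i k hik w hw hwk
      have h := U.smul_mem (w k)⁻¹ (hN (Matrix.single i k 1)
        (by simp [Matrix.trace, Matrix.single_apply, hik, Ne.symm hik]) w hw)
      convert h using 1
      funext a
      by_cases ha : a = i
      · subst ha; simp [Matrix.single_mulVec, hwk]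
      · simp [Matrix.single_mulVec, ha]
    obtain ⟨i₀, hi₀⟩ : ∃ i₀ : Fin 7, i₀ ≠ j :=
      ⟨j + 1, (show ∀ j : Fin 7, j + 1 ≠ j by decide) j⟩
    have hall : ∀ i, Pi.single i (1 : F) ∈ U := by
      intro i
      by_cases h : i = j
      · subst h
        exact hsingle i i₀ (Ne.symm hi₀) _ (hsingle i₀ i hi₀ v hv hj) (by simp)
      · exact hsingle i j h v hv hj
    refine Submodule.eq_top_iff'.2 fun x => ?_
    rw [← Finset.univ_sum_single x]
    refine Submodule.sum_mem _ fun i _ => ?_
    have := U.smul_mem (x i) (hall i)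
    rwa [← Pi.single_smul', smul_eq_mul, mul_one] at this
  obtain ⟨x, ψ, hxψ, htv⟩ := hIs hr
  have hx : x ≠ 0 := fun h => hr0 (by rw [hxψ, h, zero_vecMulVec])
  have hψ : dotProductBilin F F ψ ≠ 0 := fun h => hr0 (by
    rw [hxψ, show ψ = 0 from dotProduct_eq_zero _ fun v => by simpa using LinearMap.congr_fun h v,
      vecMulVec_zero])
  haveI : Fintype F := Fintype.ofFinite F
  rcases RootSub.Transv.classify hsc hG.two_ne_zero hirr hx hψ htv with hall | ⟨B, hA, hB, -⟩
  · refine GeoClasses.specialLinear_le_of_transv_mem fun χ w hw => ?_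
    obtain ⟨-, t, ⟨k, hk, rfl⟩, htw⟩ := hall w χ hw
    suffices he : GeoClasses.transv χ w hw = k from he ▸ hk
    refine GeoClasses.gl_ext_mulVec fun v => ?_
    rw [GeoClasses.transv_mulVec]
    exact (htw v).symm
  · exact (no_alt_seven hG.two_ne_zero B hA hB).elim

/-- The prime field contains `ω` only when it is everything. -/
theorem fieldHyp_of_card (hω : Omega ω) {p : ℕ} [Fact p.Prime] [CharP F p]
    (hcard : (Nat.card F = p ∧ p % 7 = 1) ∨ (Nat.card F = p ^ 3 ∧ (p % 7 = 2 ∨ p % 7 = 4))) :
    FieldHyp F ∧ (ω ∈ (⊥ : Subfield F) → ∀ x : F, x ∈ (⊥ : Subfield F)) := by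
  haveI : Fintype F := Fintype.ofFinite F
  have hp : p.Prime := Fact.out
  have hq : Fintype.card F = p ∨ Fintype.card F = p ^ 3 := by
    rw [← Nat.card_eq_fintype_card]; rcases hcard with h | h; exacts [Or.inl h.1, Or.inr h.1]
  have hiff : ∀ x : F, x ∈ (⊥ : Subfield F) ↔ x ^ p = x := fun x => Subfield.mem_bot_iff_pow_eq_self F p
  have hfrob : ∀ x y : F, (x + y) ^ p = x ^ p + y ^ p := fun x y => add_pow_char x y p
  have hfix : ∀ x : F, (x ^ p) ^ p = x → x ∈ (⊥ : Subfield F) := by
    intro x hx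
    rw [hiff]
    rcases hq with h | h
    · exact h ▸ FiniteField.pow_card x
    · have h3 := FiniteField.pow_card x
      rw [h, pow_succ, pow_mul, pow_two, pow_mul, hx] at h3
      exact h3
  refine ⟨⟨fun x hx => ?_, fun x a b ha hb hxab => hfix x ?_, ?_⟩, fun hω0 x => ?_⟩
  · -- no proper subfield besides the prime field
    set K := Subfield.closure ({x} : Set F)
    by_contra hK
    obtain ⟨m, hm⟩ : ∃ m : ℕ, Fintype.card F = Nat.card K ^ m := ⟨_, by
      rw [← Nat.card_eq_fintype_card]; exact Module.natCard_eq_pow_finrank (K := K) (V := F)⟩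
    obtain ⟨j, -, hj⟩ : ∃ j ≤ 3, Nat.card K = p ^ j := by
      rcases hq with h | h
      · exact (Nat.dvd_prime_pow hp).1 (by
          have : Nat.card K ∣ p ^ 1 := by
            rw [pow_one, ← h, hm]
            exact dvd_pow_self _ (fun e => by
              rw [e, pow_zero] at hm; have := Fintype.one_lt_card (α := F); omega)
          exact this.trans (pow_dvd_pow p (by norm_num)))
      · exact (Nat.dvd_prime_pow hp).1 (by
          rw [← h, hm]
          exact dvd_pow_self _ (fun e => by
            rw [e, pow_zero] at hm; have := Fintype.one_lt_card (α := F); omega))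
    haveI : Fintype K := Fintype.ofFinite K
    have hKx : (⟨x, Subfield.subset_closure rfl⟩ : K) ^ p ^ j = ⟨x, Subfield.subset_closure rfl⟩ := by
      rw [← hj, Nat.card_eq_fintype_card]; exact FiniteField.pow_card _
    have hxK : x ^ p ^ j = x := congrArg Subtype.val hKx
    have hjm : Fintype.card F = p ^ (j * m) := by rw [hm, hj, pow_mul]
    have hlt : Nat.card K < Fintype.card F := by
      rw [← Nat.card_eq_fintype_card]
      refine lt_of_le_of_ne (Finite.card_subtype_le _) fun e => hK ?_
      refine SetLike.ext fun y => ⟨fun _ => Subfield.mem_top y, fun _ => ?_⟩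
      have hb := (Nat.bijective_iff_injective_and_card (Subtype.val : K → F)).2
        ⟨Subtype.val_injective, e⟩
      obtain ⟨y', rfl⟩ := hb.2 y
      exact y'.2
    have hj1 : j = 1 := by
      have h2 := Nat.Prime.two_le hp
      have hK1 : 1 < p ^ j := hj ▸ Finite.one_lt_card
      have hj0 : j ≠ 0 := fun e => by simp [e] at hK1
      rw [hj] at hlt
      rcases hq with h | h <;> rw [hjm] at h <;> rw [hjm] at hlt
      · have := Nat.pow_right_injective h2 (h.trans (pow_one p).symm)
        exact Nat.eq_one_of_mul_eq_one_right this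
      · have h3 : j * m = 3 := Nat.pow_right_injective h2 h
        have hjm3 : j < j * m := (Nat.pow_lt_pow_iff_right hp.one_lt).1 hlt
        have hdvd : j ∣ 3 := h3 ▸ Dvd.intro m rfl
        rcases (Nat.dvd_prime Nat.prime_three).1 hdvd with e | e
        · exact e
        · omega
    rw [hj1, pow_one] at hxK
    exact hx ((hiff x).2 hxK)
  · rw [hiff] at ha hb
    have h1 : x ^ p * x ^ p = a * x ^ p + b := by
      rw [← mul_pow, hxab, hfrob, mul_pow, ha, hb]
    have h2 : (x ^ p - x) * (x ^ p + x - a) = 0 := by linear_combination h1 - hxab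
    rcases mul_eq_zero.1 h2 with h | h
    · rw [sub_eq_zero.1 h, sub_eq_zero.1 h]
    · have e : x ^ p = -x + a := by linear_combination h
      have hneg : (-x) ^ p = -(x ^ p) := by
        rw [neg_pow, neg_one_pow_char, neg_one_mul]
      rw [e, hfrob, ha, hneg, e]; ring
  · rcases hcard with ⟨h, h'⟩ | ⟨h, h'⟩ <;> rw [h]
    · intro e; omega
    · intro e
      have h2 := Nat.Prime.two_le hp
      rcases Nat.lt_or_ge p 3 with h3 | h3
      · interval_cases p; omega
      · have := Nat.pow_le_pow_left h3 3; omega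
  · rw [hiff] at hω0 ⊢
    rcases hcard with ⟨h, -⟩ | ⟨-, h⟩
    · rw [Nat.card_eq_fintype_card] at h
      exact h ▸ FiniteField.pow_card x
    · exfalso
      have e : ω ^ (p % 7) = ω ^ 1 := by
        rw [pow_one, ← pow_eq_pow_mod p hω.pow_seven]; exact hω0
      have := pow_injOn_Iio_orderOf (x := ω) (by simp [hω.order_eq]; omega)
        (by simp [hω.order_eq]) e
      omega

end Cfsg.Agent.CSixSeven
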